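import Cfsg.Agent.H5.C7.Tens
import Cfsg.Agent.H99.TensorS.Group

/-!
Transvections of a symplectic form on a tensor power at pure vectors generate its isometries.
-/

set_option autoImplicit false
set_option linter.unusedSectionVars false

namespace Cfsg.Agent.H58.Wreath.Sp

open Matrix
open Cfsg.Agent.H99.Tensor
open Cfsg.Agent.H99.TensorS (SympMat bf rk adj)

variable {F : Type*} [Field F] {κ : Type} [Fintype κ] [DecidableEq κ] {J : Matrix κ κ F}

/-- A matrix of an element of the group. -/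
def InG (M : Subgroup (GL κ F)) (X : Matrix κ κ F) : Prop := ∃ y ∈ M, (y : Matrix κ κ F) = X

theorem InG.mul {M : Subgroup (GL κ F)} {X Y : Matrix κ κ F} (hX : InG M X) (hY : InG M Y) : InG M (X * Y) := by
  obtain ⟨x, hx, rfl⟩ := hX
  obtain ⟨y, hy, rfl⟩ := hY
  exact ⟨x * y, M.mul_mem hx hy, Units.val_mul x y⟩

/-- All transvections at a vector. -/
def FullAt (J : Matrix κ κ F) (M : Subgroup (GL κ F)) (u : κ → F) : Prop := ∀ c : F, InG M (1 + c • rk J u u)

variable {M : Subgroup (GL κ F)}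

theorem fullAt_zero : FullAt J M 0 := fun c => ⟨1, M.one_mem, by
  rw [H99.TensorS.rk_zero_left, smul_zero, add_zero, Units.val_one]⟩

theorem fullAt_smul {u : κ → F} (hu : FullAt J M u) (a : F) : FullAt J M (a • u) := fun c => by
  have := hu (c * (a * a))
  rwa [H99.TensorS.rk_smul_left, H99.TensorS.rk_smul_right, smul_smul, smul_smul, mul_assoc]

theorem fullAt_conj (hJ : SympMat J) {u v : κ → F} (hu : FullAt J M u) (hv : FullAt J M v) (d : F) :
    FullAt J M (u + (d * bf J v u) • v) := by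
  intro c
  have h := ((hv d).mul (hu c)).mul (hv (-d))
  convert h using 1
  simp only [Matrix.add_mul, Matrix.mul_add, Matrix.one_mul, Matrix.mul_one, Matrix.smul_mul, Matrix.mul_smul,
    smul_add, H99.TensorS.rk_mul, H99.TensorS.rk_add_left, H99.TensorS.rk_add_right, H99.TensorS.rk_smul_left,
    H99.TensorS.rk_smul_right, hJ.self, hJ.swap v u, zero_smul, smul_zero, add_zero, smul_smul]
  module

theorem fullAt_add (hJ : SympMat J) {u v : κ → F} (hu : FullAt J M u) (hv : FullAt J M v) (h : bf J v u ≠ 0) :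
    FullAt J M (u + v) := by
  have := fullAt_conj hJ hu hv (bf J v u)⁻¹
  rwa [inv_mul_cancel₀ h, one_smul] at this

/-- Three proper subspaces do not cover a space over a field with more than two elements. -/
theorem avoid_three {V : Type*} [AddCommGroup V] [Module F V] (hF : ∃ a : F, a ≠ 0 ∧ a ≠ 1)
    {U₁ U₂ U₃ : Submodule F V} (h₁ : U₁ ≠ ⊤) (h₂ : U₂ ≠ ⊤) (h₃ : U₃ ≠ ⊤) :
    ∃ v, v ∉ U₁ ∧ v ∉ U₂ ∧ v ∉ U₃ := by
  obtain ⟨a, ha0, ha1⟩ := hF
  have two : ∀ {A B : Submodule F V}, A ≠ ⊤ → B ≠ ⊤ → ∃ v, v ∉ A ∧ v ∉ B := by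
    intro A B hA hB
    obtain ⟨x, hx⟩ : ∃ x, x ∉ A := by
      by_contra h; push Not at h; exact hA (Submodule.eq_top_iff'.2 h)
    obtain ⟨y, hy⟩ : ∃ y, y ∉ B := by
      by_contra h; push Not at h; exact hB (Submodule.eq_top_iff'.2 h)
    by_cases hxB : x ∈ B
    · by_cases hyA : y ∈ A
      · exact ⟨x + y, fun h => hx (by simpa using A.sub_mem h hyA), fun h => hy (by simpa using B.sub_mem h hxB)⟩
      · exact ⟨y, hyA, hy⟩
    · exact ⟨x, hx, hxB⟩
  obtain ⟨v, hv1, hv2⟩ := two h₁ h₂
  by_cases hv3 : v ∉ U₃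
  · exact ⟨v, hv1, hv2, hv3⟩
  push Not at hv3
  obtain ⟨w, hw1, hw3⟩ := two h₁ h₃
  by_cases hw2 : w ∉ U₂
  · exact ⟨w, hw1, hw2, hw3⟩
  push Not at hw2
  -- combinations of `v` and `w` lie outside the last two
  have k : ∀ s : F, s ≠ 0 → v + s • w ∉ U₂ ∧ v + s • w ∉ U₃ := by
    intro s hs
    refine ⟨fun h => hv2 ?_, fun h => hw3 ?_⟩
    · simpa using U₂.sub_mem h (U₂.smul_mem s hw2)
    · have h' : s • w ∈ U₃ := by simpa using U₃.sub_mem h hv3
      simpa [smul_smul, hs] using U₃.smul_mem s⁻¹ h'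
  by_cases h1 : v + (1 : F) • w ∈ U₁
  · refine ⟨v + a • w, fun h => hw1 ?_, (k a ha0).1, (k a ha0).2⟩
    have hne : a - 1 ≠ 0 := sub_ne_zero.2 ha1
    have h' : (a - 1) • w ∈ U₁ := by
      convert U₁.sub_mem h h1 using 1
      module
    simpa [smul_smul, hne] using U₁.smul_mem (a - 1)⁻¹ h'
  · exact ⟨_, h1, (k 1 one_ne_zero).1, (k 1 one_ne_zero).2⟩

section Pure

variable {ι : Type} [Fintype ι] [DecidableEq ι] {m : ℕ}

open Cfsg.Agent.H5.C7 (pv)

theorem pv_update (w : ι → Fin m → F) (i : ι) (x : Fin m → F) (g : ι → Fin m) :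
    pv (Function.update w i x) g = x (g i) * ∏ j ∈ Finset.univ.erase i, w j (g j) := by
  rw [H5.C7.pv, ← Finset.mul_prod_erase _ _ (Finset.mem_univ i), Function.update_self]
  congr 1
  exact Finset.prod_congr rfl fun j hj => by rw [Function.update_of_ne (Finset.mem_erase.1 hj).1]

theorem pv_add (w : ι → Fin m → F) (i : ι) (x y : Fin m → F) :
    pv (Function.update w i (x + y)) = pv (Function.update w i x) + pv (Function.update w i y) := by
  funext g
  simp only [Pi.add_apply, pv_update, add_mul]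

theorem pv_smul (w : ι → Fin m → F) (i : ι) (c : F) (x : Fin m → F) :
    pv (Function.update w i (c • x)) = c • pv (Function.update w i x) := by
  funext g
  simp only [Pi.smul_apply, smul_eq_mul, pv_update, mul_assoc]

theorem pv_single (g : ι → Fin m) :
    pv (fun i => Pi.single (g i) (1 : F)) = (Pi.single g (1 : F) : (ι → Fin m) → F) := by
  funext f
  rw [H5.C7.pv]
  by_cases h : f = g
  · subst h; simp
  · obtain ⟨j, hj⟩ := Function.ne_iff.1 h
    rw [Pi.single_eq_of_ne h, Finset.prod_eq_zero (Finset.mem_univ j) (Pi.single_eq_of_ne hj _)]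

/-- A pure tensor avoiding three hyperplanes. -/
theorem exists_pure_avoid (hF : ∃ a : F, a ≠ 0 ∧ a ≠ 1) (f : Fin 3 → ((ι → Fin m) → F)) (hf : ∀ a, f a ≠ 0) :
    ∃ w : ι → Fin m → F, ∀ a, f a ⬝ᵥ pv w ≠ 0 := by
  classical
  suffices h : ∀ s : Finset ι, ∃ w : ι → Fin m → F, ∀ a, ∃ w', (∀ i ∈ s, w' i = w i) ∧ f a ⬝ᵥ pv w' ≠ 0 by
    obtain ⟨w, hw⟩ := h Finset.univ
    refine ⟨w, fun a => ?_⟩
    obtain ⟨w', h1, h2⟩ := hw a
    rwa [show w' = w from funext fun i => h1 i (Finset.mem_univ i)] at h2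
  intro s
  induction s using Finset.induction_on with
  | empty =>
    refine ⟨fun _ => 0, fun a => ?_⟩
    obtain ⟨g, hg⟩ := Function.ne_iff.1 (hf a)
    exact ⟨fun i => Pi.single (g i) 1, by simp, by rw [pv_single, dotProduct_single, mul_one]; exact hg⟩
  | insert i s hi ih =>
    obtain ⟨w, hw⟩ := ih
    choose w' hw' hne using hw
    let U : Fin 3 → Submodule F (Fin m → F) := fun a =>
      { carrier := {x | f a ⬝ᵥ pv (Function.update (w' a) i x) = 0}
        add_mem' := fun {x y} hx hy => by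
          simp only [Set.mem_ofPred_eq, pv_add, dotProduct_add] at hx hy ⊢
          rw [hx, hy, add_zero]
        zero_mem' := by
          simp only [Set.mem_ofPred_eq]
          rw [show pv (Function.update (w' a) i 0) = 0 from funext fun g => by simp [pv_update], dotProduct_zero]
        smul_mem' := fun c x hx => by
          simp only [Set.mem_ofPred_eq, pv_smul, dotProduct_smul] at hx ⊢
          rw [hx, smul_zero] }
    have hU : ∀ a, U a ≠ ⊤ := fun a h => hne a (by
      have : w' a i ∈ U a := h ▸ Submodule.mem_top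
      change f a ⬝ᵥ pv (Function.update (w' a) i (w' a i)) = 0 at this
      rwa [Function.update_eq_self] at this)
    obtain ⟨x, hx0, hx1, hx2⟩ := avoid_three hF (hU 0) (hU 1) (hU 2)
    refine ⟨Function.update w i x, fun a => ⟨Function.update (w' a) i x, fun j hj => ?_, ?_⟩⟩
    · by_cases hji : j = i
      · subst hji; simp
      · rw [Function.update_of_ne hji, Function.update_of_ne hji, hw' a j ((Finset.mem_insert.1 hj).resolve_left hji)]
    · have hax : x ∉ U a := by fin_cases a <;> assumption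
      exact hax

variable {J : Matrix (ι → Fin m) (ι → Fin m) F} {M : Subgroup (GL (ι → Fin m) F)}

/-- Transvections at all pure vectors give transvections at all vectors. -/
theorem fullAt_all (hJ : SympMat J) (hF : ∃ a : F, a ≠ 0 ∧ a ≠ 1) (hpure : ∀ w, FullAt J M (pv w)) :
    ∀ v, FullAt J M v := by
  classical
  have step : ∀ (w : ι → Fin m → F) (x : (ι → Fin m) → F), FullAt J M x → FullAt J M (x + pv w) := by
    intro w x hx
    by_cases hx0 : x = 0
    · rw [hx0, zero_add]; exact hpure w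
    by_cases hp0 : pv w = 0
    · rwa [hp0, add_zero]
    by_cases hs : x + pv w = 0
    · rw [hs]; exact fullAt_zero
    by_cases h : bf J (pv w) x = 0
    swap
    · exact fullAt_add hJ hx (hpure w) h
    have hne : ∀ u : (ι → Fin m) → F, u ≠ 0 → u ᵥ* J ≠ 0 := fun u hu => hJ.row_ne hu
    obtain ⟨z, hz⟩ := exists_pure_avoid hF ![x ᵥ* J, pv w ᵥ* J, (x + pv w) ᵥ* J] (fun a => by
      fin_cases a <;> exact hne _ (by assumption))
    have z1 : bf J x (pv z) ≠ 0 := hz 0
    have z2 : bf J (pv w) (pv z) ≠ 0 := hz 1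
    have z3 : bf J (x + pv w) (pv z) ≠ 0 := hz 2
    -- add `z`, add the pure vector, remove `z`
    have s1 : FullAt J M (x + pv z) := fullAt_add hJ hx (hpure z) fun e => z1 (hJ.zero_comm.1 e)
    have s2 : FullAt J M (x + pv z + pv w) := fullAt_add hJ s1 (hpure w) (by
      rw [H99.TensorS.bf_add_right, h, zero_add]; exact z2)
    have s3 := fullAt_add hJ s2 (fullAt_smul (hpure z) (-1)) (by
      rw [H99.TensorS.bf_smul_left, show x + pv z + pv w = (x + pv w) + pv z by abel, H99.TensorS.bf_add_right,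
        hJ.self, add_zero, hJ.swap, mul_neg, neg_one_mul, neg_neg]
      exact z3)
    convert s3 using 1
    module
  intro v
  have hsum : v = ∑ g, v g • (Pi.single g (1 : F) : (ι → Fin m) → F) := pi_eq_sum_univ' v
  by_cases hι : Nonempty ι
  swap
  · have : IsEmpty ι := not_nonempty_iff.1 hι
    have hv : v = v (fun i => (IsEmpty.false i).elim) • pv (fun i => (IsEmpty.false i).elim) := by
      funext g
      simp [H5.C7.pv, Subsingleton.elim g (fun i => (IsEmpty.false i).elim)]
    rw [hv]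
    exact fullAt_smul (hpure _) _
  obtain ⟨i⟩ := hι
  rw [hsum]
  suffices ∀ s : Finset (ι → Fin m), FullAt J M (∑ g ∈ s, v g • (Pi.single g (1 : F) : (ι → Fin m) → F)) from
    this Finset.univ
  intro s
  induction s using Finset.induction_on with
  | empty => simp only [Finset.sum_empty]; exact fullAt_zero
  | insert g s hg ih =>
    rw [Finset.sum_insert hg, add_comm, ← pv_single,
      ← Function.update_eq_self i (fun j => (Pi.single (g j) (1 : F) : Fin m → F)), ← pv_smul]
    exact step _ _ ih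

end Pure

/-- A group with all transvections contains all isometries. -/
theorem iso_mem (hJ : SympMat J) (hfull : ∀ v, FullAt J M v) :
    ∀ g : GL κ F, adj J J (g : Matrix κ κ F) * (g : Matrix κ κ F) = 1 → g ∈ M := by
  classical
  let fix' : GL κ F → Submodule F (κ → F) := fun g => LinearMap.ker ((g : Matrix κ κ F) - 1).mulVecLin
  have hfix : ∀ g : GL κ F, ∀ v, v ∈ fix' g ↔ (g : Matrix κ κ F) *ᵥ v = v := fun g v => by
    rw [LinearMap.mem_ker, Matrix.mulVecLin_apply, sub_mulVec, one_mulVec, sub_eq_zero]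
  suffices h : ∀ n (g : GL κ F), Fintype.card κ - Module.finrank F (fix' g) = n →
      adj J J (g : Matrix κ κ F) * (g : Matrix κ κ F) = 1 → g ∈ M from fun g => h _ g rfl
  intro n
  induction n using Nat.strong_induction_on with
  | _ n ih =>
    intro g hn hg
    by_cases hg1 : g = 1
    · rw [hg1]; exact M.one_mem
    have hrow : ∀ u : κ → F, u ≠ 0 → u ᵥ* J ≠ 0 := fun u hu => hJ.row_ne hu
    obtain ⟨x, hx⟩ : ∃ x, (g : Matrix κ κ F) *ᵥ x ≠ x := by
      by_contra h
      push Not at h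
      exact hg1 (Units.ext (Matrix.ext_of_mulVec_single fun j => by rw [h, Units.val_one, one_mulVec]))
    set u := (g : Matrix κ κ F) *ᵥ x - x with hu
    have hu0 : u ≠ 0 := sub_ne_zero.2 hx
    have hperp : ∀ f, (g : Matrix κ κ F) *ᵥ f = f → bf J u f = 0 := fun f hf => by
      rw [hu, H99.TensorS.bf_sub_left]
      nth_rw 1 [← hf]
      rw [H99.TensorS.bf_mulVec hJ hg, sub_self]
    obtain ⟨v, hv1, hv2⟩ : ∃ v, bf J u v ≠ 0 ∧ bf J u ((g : Matrix κ κ F) *ᵥ v) ≠ 0 := by
      obtain ⟨a, ha⟩ := hJ.exists_one hu0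
      by_cases h : bf J u ((g : Matrix κ κ F) *ᵥ a) = 0
      swap
      · exact ⟨a, by rw [ha]; exact one_ne_zero, h⟩
      set c := ((g⁻¹ : GL κ F) : Matrix κ κ F) *ᵥ a
      have hc : (g : Matrix κ κ F) *ᵥ c = a := by
        rw [mulVec_mulVec, ← Units.val_mul, mul_inv_cancel, Units.val_one, one_mulVec]
      by_cases h' : bf J u c = 0
      · refine ⟨a + c, ?_, ?_⟩
        · rw [H99.TensorS.bf_add_right, ha, h', add_zero]; exact one_ne_zero
        · rw [mulVec_add, H99.TensorS.bf_add_right, h, hc, ha, zero_add]; exact one_ne_zero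
      · exact ⟨c, h', by rw [hc, ha]; exact one_ne_zero⟩
    have hgv : (g : Matrix κ κ F) *ᵥ v ≠ v := fun h => hv1 (by
      have := hperp v h; exact this)
    -- an element fixing more
    obtain ⟨c₁, hc₁⟩ : ∃ c₁ : F, bf J v ((1 + c₁ • rk J u u) *ᵥ ((g : Matrix κ κ F) *ᵥ v)) ≠ 0 := by
      by_cases h : bf J v ((g : Matrix κ κ F) *ᵥ v) = 0
      · refine ⟨1, ?_⟩
        rw [add_mulVec, one_mulVec, smul_mulVec, H99.TensorS.rk_mulVec, one_smul, H99.TensorS.bf_add_right,
          H99.TensorS.bf_smul_right, h, zero_add]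
        exact mul_ne_zero hv2 fun e => hv1 (hJ.zero_comm.1 e)
      · exact ⟨0, by rwa [zero_smul, add_zero, one_mulVec]⟩
    set y := (1 + c₁ • rk J u u) *ᵥ ((g : Matrix κ κ F) *ᵥ v) with hy
    have hyv : bf J y v ≠ 0 := fun e => hc₁ (hJ.zero_comm.1 e)
    set c₂ := -(bf J (y - v) y)⁻¹ with hc₂
    have hyv' : bf J (y - v) y ≠ 0 := by
      rw [H99.TensorS.bf_sub_left, hJ.self, zero_sub, neg_ne_zero]
      exact fun e => hyv (hJ.zero_comm.1 e)
    obtain ⟨t₁, ht₁, et₁⟩ := hfull u c₁
    obtain ⟨t₂, ht₂, et₂⟩ := hfull (y - v) c₂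
    set g' := t₂ * t₁ * g with hg'
    have hi : ∀ t : GL κ F, ∀ (w : κ → F) (c : F), (t : Matrix κ κ F) = 1 + c • rk J w w →
        adj J J (t : Matrix κ κ F) * (t : Matrix κ κ F) = 1 := fun t w c e => by
      rw [e]; exact H99.TensorS.trans_unitary hJ w c
    have hg'i : adj J J (g' : Matrix κ κ F) * (g' : Matrix κ κ F) = 1 := by
      have hmul : ∀ A B : Matrix κ κ F, adj J J A * A = 1 → adj J J B * B = 1 → adj J J (A * B) * (A * B) = 1 :=
        fun A B hA hB => by
          rw [H99.TensorS.adj_mul hJ.unit, Matrix.mul_assoc, ← Matrix.mul_assoc _ A, hA, Matrix.one_mul, hB]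
      rw [hg', Units.val_mul, Units.val_mul]
      exact hmul _ _ (hmul _ _ (hi _ _ _ et₂) (hi _ _ _ et₁)) hg
    have hvfix : v ∈ fix' g' := by
      rw [hfix, hg', Units.val_mul, Units.val_mul, ← mulVec_mulVec, ← mulVec_mulVec, et₁, ← hy, et₂, add_mulVec,
        one_mulVec, smul_mulVec, H99.TensorS.rk_mulVec, smul_smul, hc₂, neg_mul, inv_mul_cancel₀ hyv', neg_one_smul]
      abel
    have hle : fix' g ≤ fix' g' := by
      intro f hf
      rw [hfix] at hf ⊢
      have hu' : (1 + c₁ • rk J u u) *ᵥ f = f := by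
        rw [add_mulVec, one_mulVec, smul_mulVec, H99.TensorS.rk_mulVec, hperp f hf, zero_smul, smul_zero, add_zero]
      have hyf : bf J (y - v) f = 0 := by
        rw [H99.TensorS.bf_sub_left, hy]
        nth_rw 1 [← hu']
        rw [H99.TensorS.bf_mulVec hJ (H99.TensorS.trans_unitary hJ u c₁)]
        nth_rw 1 [← hf]
        rw [H99.TensorS.bf_mulVec hJ hg, sub_self]
      rw [hg', Units.val_mul, Units.val_mul, ← mulVec_mulVec, ← mulVec_mulVec, hf, et₁, hu', et₂, add_mulVec,
        one_mulVec, smul_mulVec, H99.TensorS.rk_mulVec, hyf, zero_smul, smul_zero, add_zero]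
    have hlt : fix' g < fix' g' := lt_of_le_of_ne hle fun e => hgv ((hfix g v).1 (e ▸ hvfix))
    have hlt' := Submodule.finrank_lt_finrank_of_lt hlt
    have hle' : Module.finrank F (fix' g') ≤ Fintype.card κ := by
      have := Submodule.finrank_le (fix' g'); rwa [Module.finrank_pi] at this
    have hmem := ih _ (by omega) g' rfl hg'i
    have : g = (t₂ * t₁)⁻¹ * g' := by rw [hg', inv_mul_cancel_left]
    rw [this]
    exact M.mul_mem (M.inv_mem (M.mul_mem ht₂ ht₁)) hmem

end Cfsg.Agent.H58.Wreath.Sp
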