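import Cfsg.Agent.H58.Wreath.Sp.RootPure
import Cfsg.Agent.H58.Wreath.Sp.Generation
import Cfsg.Agent.H5.C7.SympRoots
import Cfsg.Agent.H98.MaximalBase

/-!
Groups of isometries of the tensor power of an alternating form containing the factor groups and the permutations
of the factors: with scalar layers they consist of monomial tensors, and one transvection at a pure vector gives
all isometries.
-/

set_option autoImplicit false
set_option linter.unusedSectionVars false

namespace Cfsg.Agent.H58.Wreath.Sp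

open Matrix
open Cfsg.Agent.H99.Tensor
open Cfsg.Agent.H99.TensorS (SympMat bf rk adj el phi)
open Cfsg.Agent.H5.C7 (wm sl pv rI slotM IsWreath)
open scoped Kronecker

variable {F : Type*} [Field F] {ι : Type} [Fintype ι] [DecidableEq ι] {m : ℕ} {J : Matrix (Fin m) (Fin m) F}

local notation "MM" => Matrix (ι → Fin m) (ι → Fin m) F
local notation "mm" => Matrix (Fin m) (Fin m) F

/-- The tensor power of a matrix. -/
def tens (ι : Type) [Fintype ι] (J : Matrix (Fin m) (Fin m) F) : Matrix (ι → Fin m) (ι → Fin m) F :=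
  wm (1 : Equiv.Perm ι) fun _ => J

theorem iso_iff {κ : Type} [Fintype κ] [DecidableEq κ] {T X : Matrix κ κ F} (hT : IsUnit T.det) :
    adj T T X * X = 1 ↔ Xᵀ * T * X = T := by
  constructor
  · intro h
    have := congrArg (T * ·) h
    simpa only [adj, ← Matrix.mul_assoc, Matrix.mul_nonsing_inv T hT, Matrix.one_mul, Matrix.mul_one] using this
  · intro h
    rw [adj, Matrix.mul_assoc, Matrix.mul_assoc, ← Matrix.mul_assoc Xᵀ, h, Matrix.nonsing_inv_mul T hT]

theorem wm_transpose (π : Equiv.Perm ι) (k : ι → mm) :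
    (wm π k : MM)ᵀ = wm π⁻¹ fun j => (k (π⁻¹ j))ᵀ := by
  ext f g
  rw [transpose_apply, H5.C7.wm_apply, H5.C7.wm_apply, ← Equiv.prod_comp π⁻¹]
  exact Finset.prod_congr rfl fun j _ => by simp

theorem tens_smul_one (c : F) : (wm (1 : Equiv.Perm ι) (fun _ => c • (1 : mm)) : MM) = c ^ Fintype.card ι • (1 : MM) := by
  ext f g
  rw [H5.C7.wm_apply, Matrix.smul_apply, smul_eq_mul, ← H5.C7.wm_one, H5.C7.wm_apply]
  simp only [Matrix.smul_apply, smul_eq_mul, Finset.prod_mul_distrib, Finset.prod_const, Finset.card_univ]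

theorem tens_transpose (hJ : SympMat J) : (tens ι J)ᵀ = (-1 : F) ^ Fintype.card ι • tens ι J := by
  rw [tens, wm_transpose, inv_one, ← Matrix.one_mul (wm (1 : Equiv.Perm ι) fun _ => J), ← smul_mul_assoc,
    ← tens_smul_one, H5.C7.wm_mul]
  congr 1
  funext j
  simp [hJ.skew]

theorem tens_unit (hJ : IsUnit J.det) : IsUnit (tens ι J).det := by
  refine IsUnit.of_mul_eq_one (wm (1 : Equiv.Perm ι) fun _ => J⁻¹ : MM).det ?_
  rw [← det_mul, tens, H5.C7.wm_mul, ← det_one (R := F) (n := ι → Fin m), ← H5.C7.wm_one, one_mul]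
  congr 2
  funext j
  exact Matrix.mul_nonsing_inv J hJ

theorem sympMat_tens (hJ : SympMat J) (hodd : Odd (Fintype.card ι)) : SympMat (tens ι J) := by
  refine ⟨?_, fun f => ?_, tens_unit hJ.unit⟩
  · rw [tens_transpose hJ, hodd.neg_one_pow, neg_one_smul]
  · obtain ⟨i⟩ : Nonempty ι := Fintype.card_pos_iff.1 hodd.pos
    rw [tens, H5.C7.wm_apply]
    exact Finset.prod_eq_zero (Finset.mem_univ i) (hJ.diag _)

theorem bf_tens (a c : ι → Fin m → F) : bf (tens ι J) (pv a) (pv c) = ∏ i, bf J (a i) (c i) := by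
  rw [bf, ← dotProduct_mulVec, tens, H5.C7.wm_pv]
  simp only [bf, ← dotProduct_mulVec]
  simp only [dotProduct, pv, Equiv.Perm.one_apply]
  rw [Fintype.prod_sum (fun i x => a i x * (J *ᵥ c i) x)]
  exact Finset.sum_congr rfl fun g _ => Finset.prod_mul_distrib.symm

theorem sl_mulVec (i : ι) (h : mm) (w : ι → Fin m → F) :
    (sl i h : MM) *ᵥ pv w = pv (Function.update w i (h *ᵥ w i)) := by
  rw [sl, H5.C7.wm_pv]
  congr 1
  funext j
  by_cases hj : j = i
  · subst hj; simp
  · simp [hj]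

theorem sl_iso {h : mm} (hh : hᵀ * J * h = J) (i : ι) : (sl i h : MM)ᵀ * tens ι J * sl i h = tens ι J := by
  rw [sl, tens, wm_transpose, inv_one, H5.C7.wm_mul, H5.C7.wm_mul, one_mul, one_mul]
  congr 1
  funext j
  by_cases hj : j = i
  · subst hj; simpa using hh
  · simp [hj]

theorem perm_iso (σ : Equiv.Perm ι) :
    (wm σ (fun _ => 1) : MM)ᵀ * tens ι J * wm σ (fun _ => 1) = tens ι J := by
  rw [tens, wm_transpose, H5.C7.wm_mul, H5.C7.wm_mul]
  congr 1
  · group
  · funext j; simp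

/-- A group of isometries of the tensor power containing the factor groups and the permutations. -/
structure Amb (J : Matrix (Fin m) (Fin m) F) (M : Subgroup (GL (ι → Fin m) F)) : Prop where
  sym : SympMat J
  size : (m = 2 ∧ ∃ r : F, r ≠ 0 ∧ r * r ≠ 1) ∨ 4 ≤ m
  ne : Nonempty ι
  two : (2 : F) ≠ 0
  slot : ∀ (i : ι) (h : Matrix (Fin m) (Fin m) F), hᵀ * J * h = J → InG M (sl i h)
  perm : ∀ σ : Equiv.Perm ι, InG M (wm σ fun _ => 1)
  iso : ∀ y ∈ M, (y : Matrix (ι → Fin m) (ι → Fin m) F)ᵀ * tens ι J * y = tens ι J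

/-- Scalar layers and middle parts at a factor. -/
def Good (J : Matrix (Fin m) (Fin m) F) (M : Subgroup (GL (ι → Fin m) F)) (i : ι) : Prop :=
  (∀ (w : Fin m → F) (G : Matrix ({j : ι // j ≠ i} → Fin m) ({j : ι // j ≠ i} → Fin m) F), w ≠ 0 →
      InM (slotM i M) (1 + G ⊗ₖ rk J w w) →
      ∃ c : F, G = c • (1 : Matrix ({j : ι // j ≠ i} → Fin m) ({j : ι // j ≠ i} → Fin m) F)) ∧
    ∀ (z η : Fin m → F) (D : Matrix ({j : ι // j ≠ i} → Fin m) ({j : ι // j ≠ i} → Fin m) F), z ≠ 0 →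
      bf J z η = 0 → (∀ t : F, η ≠ t • z) → adj (tens _ J) (tens _ J) D = -D →
      InM (slotM i M) (el (tens _ J) J z (lft ({j : ι // j ≠ i} → Fin m) η * D) 0) → D = 0

variable {M : Subgroup (GL (ι → Fin m) F)}

theorem rI_tensJ (i : ι) : rI i (tens ι J) = tens {j : ι // j ≠ i} J ⊗ₖ J := by
  rw [tens, H5.C7.rI_tens]
  rfl

theorem rI_transpose (i : ι) (X : MM) : (rI i X)ᵀ = rI i Xᵀ := rfl

theorem Amb.trans (A : Amb J M) (i : ι) (w : Fin m → F) (d : F) : InG M (sl i (1 + d • rk J w w) : MM) :=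
  A.slot i _ ((iso_iff A.sym.unit).1 (H99.TensorS.trans_unitary A.sym w d))

theorem Amb.setup (A : Amb J M) (i : ι) (hgood : Good J M i) :
    Setup (tens {j : ι // j ≠ i} J) J (slotM i M) where
  sA := by
    refine ⟨(-1) ^ Fintype.card {j : ι // j ≠ i}, ?_, ?_⟩
    · rw [← mul_pow, neg_one_mul, neg_neg, one_pow]
    · exact tens_transpose A.sym
  uA := tens_unit A.sym.unit
  sB := A.sym
  two := A.two
  size := A.size
  iso := fun y hy => by
    obtain ⟨x, hx, e⟩ := H5.C7.inM_slotM.1 (⟨y, hy, rfl⟩ : InM (slotM i M) (y : Matrix _ _ F))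
    rw [iso_iff (by rw [← rI_tensJ, H5.C7.rI, Matrix.det_reindexAlgEquiv]; exact tens_unit A.sym.unit), ← rI_tensJ,
      ← e, rI_transpose,
      ← map_mul, ← map_mul, A.iso x hx]
  right := fun w d => by
    obtain ⟨y, hy, e⟩ := A.trans i w d
    exact H5.C7.inM_slotM.2 ⟨y, hy, by rw [e, H5.C7.rI_sl_self]⟩
  lay := hgood.1
  mid := hgood.2

/-- With scalar layers at every factor all members are monomial tensors. -/
theorem Amb.isWreath [Finite F] (A : Amb J M) (hgood : ∀ i, Good J M i) {X : MM} (hX : InG M X) :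
    IsWreath X := by
  classical
  have hne : Nonempty ι := A.ne
  have hm : 2 ≤ m := by
    rcases A.size with ⟨h, -⟩ | h <;> omega
  have : NeZero m := ⟨by omega⟩
  obtain ⟨x, hx, rfl⟩ := hX
  set X := (x : MM) with hXd
  set X' := ((x⁻¹ : GL (ι → Fin m) F) : MM) with hX'd
  have hXX : X * X' = 1 := x.mul_inv
  have hXX' : X' * X = 1 := x.inv_mul
  refine H5.C7.isWreath_of_slots hm (H5.C7.sympRoots_nonempty (by omega)) (H5.C7.sympRoots_adjoin A.sym)
    (H5.C7.sympRoots_conn A.sym) hXX fun i r hr => ?_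
  obtain ⟨v, hv, rfl⟩ := hr
  have hsq : (sl i (1 + rk J v v) - 1 : MM) * (sl i (1 + rk J v v) - 1) = 0 := by
    rw [H5.C7.sl_add, H5.C7.sl_one, add_sub_cancel_left, H5.C7.sl_mul, H99.TensorS.rk_mul, A.sym.self, zero_smul,
      H5.C7.sl_zero]
  refine H5.C7.exists_slot (by omega) ?_ fun j => ?_
  · have e : X * sl i (1 + rk J v v) * X' - 1 = X * (sl i (1 + rk J v v) - 1) * X' := by
      rw [Matrix.mul_sub, Matrix.sub_mul, Matrix.mul_one, hXX]
    rw [e, show X * (sl i (1 + rk J v v) - 1) * X' * (X * (sl i (1 + rk J v v) - 1) * X') =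
      X * ((sl i (1 + rk J v v) - 1) * ((X' * X) * (sl i (1 + rk J v v) - 1))) * X' by simp only [Matrix.mul_assoc],
      hXX', Matrix.one_mul, hsq, Matrix.mul_zero, Matrix.zero_mul]
  set W : MM := wm (Equiv.swap i j) fun _ => 1 with hW
  have hWW : W * W = 1 := by
    rw [hW, H5.C7.wm_mul, Equiv.swap_mul_self, ← H5.C7.wm_one]
    simp
  have hconj : W * sl j (1 + rk J v v) * W = sl i (1 + rk J v v) := by
    rw [hW, sl, sl, H5.C7.wm_mul, H5.C7.wm_mul]
    congr 1
    · simp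
    · funext l
      simp only [mul_one, one_mul]
      by_cases hl : l = i
      · subst hl; simp
      · rw [Function.update_of_ne hl, Function.update_of_ne]
        intro h
        exact hl (by simpa using congrArg (Equiv.swap i j) h)
  have S := A.setup j (hgood j)
  set g := rI j (X * W) with hg
  have hgM : InM (slotM j M) g := by
    obtain ⟨w, hw, e⟩ := A.perm (Equiv.swap i j)
    exact H5.C7.inM_slotM.2 ⟨x * w, M.mul_mem hx hw, by rw [hg, Units.val_mul, e, hW]⟩
  have hinv : g * rI j (W * X') = 1 := by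
    rw [hg, ← map_mul, Matrix.mul_assoc, ← Matrix.mul_assoc W, hWW, Matrix.one_mul, hXX, map_one]
  have hadj : adj (tens _ J ⊗ₖ J) (tens _ J ⊗ₖ J) g = rI j (W * X') := by
    rw [← Matrix.mul_one (adj (tens _ J ⊗ₖ J) (tens _ J ⊗ₖ J) g), ← hinv, ← Matrix.mul_assoc, S.unit hgM,
      Matrix.one_mul]
  set B := g * rootR _ J v * adj (tens _ J ⊗ₖ J) (tens _ J ⊗ₖ J) g with hB
  have hY : rI j (X * sl i (1 + rk J v v) * X') = 1 + B := by
    have e : X * sl i (1 + rk J v v) * X' = 1 + (X * W) * sl j (rk J v v) * (W * X') := by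
      rw [← hconj, H5.C7.sl_add, H5.C7.sl_one, Matrix.mul_add W, Matrix.mul_one, Matrix.add_mul W, hWW,
        Matrix.mul_add X, Matrix.add_mul, Matrix.mul_one, hXX]
      simp only [Matrix.mul_assoc]
    rw [e, map_add, map_one, map_mul, map_mul, H5.C7.rI_sl_self, hB, hadj]
    rfl
  have hroot : IsRoot (tens _ J) J (slotM j M) B := ⟨g, v, hgM, hv, rfl⟩
  rcases split_sq S.two (S.root_sq hroot) (S.root_pure hroot) with ⟨G, hG⟩ | ⟨N, hN⟩
  · refine Or.inl (H5.C7.scalarAt_of_rI (K := G) ?_)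
    rw [map_sub, map_one, hY, add_sub_cancel_left, hG]
  · refine Or.inr ⟨1 + N, (rI j).injective ?_⟩
    rw [hY, hN, H5.C7.rI_sl_self, kronecker_add, one_kronecker_one]

theorem Amb.exists_map (A : Amb J M) {a c : Fin m → F} (ha : a ≠ 0) (hc : c ≠ 0) :
    ∃ h : mm, hᵀ * J * h = J ∧ h *ᵥ a = c := by
  obtain ⟨e, hea, hec⟩ := A.sym.exists_common₂ ha hc
  obtain ⟨d₁, e₁, h₁⟩ := H99.TensorS.exists_move A.sym hea (one_ne_zero (α := F))
  have hce : bf J c e ≠ 0 := fun h => hec (A.sym.zero_comm.1 h)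
  obtain ⟨d₂, e₂, h₂⟩ := H99.TensorS.exists_move A.sym hce (one_ne_zero (α := F))
  rw [one_smul] at h₁ h₂
  refine ⟨((1 + e₂ • rk J e e) * (1 + d₂ • rk J c c)) * ((1 + e₁ • rk J a a) * (1 + d₁ • rk J e e)), ?_, ?_⟩
  · rw [← iso_iff A.sym.unit]
    have hmul : ∀ P Q : mm, adj J J P * P = 1 → adj J J Q * Q = 1 → adj J J (P * Q) * (P * Q) = 1 :=
      fun P Q hP hQ => by
        rw [H99.TensorS.adj_mul A.sym.unit, Matrix.mul_assoc, ← Matrix.mul_assoc _ P, hP, Matrix.one_mul, hQ]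
    exact hmul _ _ (hmul _ _ (H99.TensorS.trans_unitary A.sym _ _) (H99.TensorS.trans_unitary A.sym _ _))
      (hmul _ _ (H99.TensorS.trans_unitary A.sym _ _) (H99.TensorS.trans_unitary A.sym _ _))
  · rw [← mulVec_mulVec, h₁, h₂]

theorem Amb.move (A : Amb J M) (hodd : Odd (Fintype.card ι)) {c : F} {w : ι → Fin m → F} (i : ι) {x : Fin m → F} (hw : w i ≠ 0) (hx : x ≠ 0)
    (h : InG M (1 + c • rk (tens ι J) (pv w) (pv w))) :
    InG M (1 + c • rk (tens ι J) (pv (Function.update w i x)) (pv (Function.update w i x))) := by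
  obtain ⟨k, hk, hkw⟩ := A.exists_map hw hx
  obtain ⟨y, hy, ey⟩ := A.slot i k hk
  obtain ⟨z, hz, ez⟩ := h
  have hT := sympMat_tens (ι := ι) A.sym hodd
  refine ⟨y * z * y⁻¹, M.mul_mem (M.mul_mem hy hz) (M.inv_mem hy), ?_⟩
  have hu : adj (tens ι J) (tens ι J) (y : MM) * (y : MM) = 1 := (iso_iff hT.unit).2 (A.iso y hy)
  have hyi : ((y⁻¹ : GL (ι → Fin m) F) : MM) = adj (tens ι J) (tens ι J) (y : MM) :=
    Units.inv_eq_of_mul_eq_one_right (mul_eq_one_comm.1 hu)
  rw [Units.val_mul, Units.val_mul, ez, hyi, Matrix.mul_add, Matrix.mul_one, Matrix.add_mul,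
    mul_eq_one_comm.1 hu, Matrix.mul_smul, Matrix.smul_mul, H99.TensorS.rk_conj hT, ey, sl_mulVec, hkw]

/-- One transvection at a pure vector gives all isometries. -/
theorem Amb.all_iso (A : Amb J M) (hodd : Odd (Fintype.card ι)) {c : F} (hc : c ≠ 0) {w : ι → Fin m → F} (hw : ∀ i, w i ≠ 0)
    (h : InG M (1 + c • rk (tens ι J) (pv w) (pv w))) {g : GL (ι → Fin m) F}
    (hg : (g : MM)ᵀ * tens ι J * g = tens ι J) : g ∈ M := by
  classical
  have hT := sympMat_tens (ι := ι) A.sym hodd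
  obtain ⟨i₀⟩ : Nonempty ι := A.ne
  have hall : ∀ u : ι → Fin m → F, (∀ i, u i ≠ 0) → InG M (1 + c • rk (tens ι J) (pv u) (pv u)) := by
    intro u hu
    have : ∀ s : Finset ι, InG M (1 + c • rk (tens ι J) (pv (s.piecewise u w)) (pv (s.piecewise u w))) := by
      intro s
      induction s using Finset.induction_on with
      | empty => simpa using h
      | insert i s hi ih =>
        rw [Finset.piecewise_insert]
        refine A.move hodd i ?_ (hu i) ih
        rw [Finset.piecewise_eq_of_notMem _ _ _ hi]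
        exact hw i
    simpa using this Finset.univ
  have hF : ∃ a : F, a ≠ 0 ∧ a ≠ 1 := by
    refine ⟨-1, neg_ne_zero.2 one_ne_zero, fun e => A.two ?_⟩
    linear_combination -e
  refine iso_mem hT (fullAt_all hT hF fun u => ?_) g ((iso_iff hT.unit).2 hg)
  by_cases hu : ∀ i, u i ≠ 0
  swap
  · push Not at hu
    obtain ⟨i, hi⟩ := hu
    rw [show pv u = 0 from funext fun f => Finset.prod_eq_zero (Finset.mem_univ i) (by simp [hi])]
    exact fullAt_zero
  intro d
  set R := rk (tens ι J) (pv u) (pv u) with hR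
  have hRR : R * R = 0 := by rw [hR, H99.TensorS.rk_mul, hT.self, zero_smul]
  have hsq : ∀ s : F, InG M (1 + (c * (s * s)) • R) := by
    intro s
    by_cases hs : s = 0
    · exact ⟨1, M.one_mem, by rw [hs, mul_zero, mul_zero, zero_smul, add_zero, Units.val_one]⟩
    · have := A.move hodd i₀ (hu i₀) (smul_ne_zero hs (hu i₀)) (hall u hu)
      rwa [pv_smul, Function.update_eq_self, H99.TensorS.rk_smul_left, H99.TensorS.rk_smul_right, smul_smul,
        smul_smul, mul_assoc] at this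
  have hneg : ∀ s : F, InG M (1 + s • R) → InG M (1 + (-s) • R) := by
    rintro s ⟨y, hy, ey⟩
    refine ⟨y⁻¹, M.inv_mem hy, Units.inv_eq_of_mul_eq_one_right ?_⟩
    rw [ey]
    simp only [Matrix.add_mul, Matrix.mul_add, Matrix.one_mul, Matrix.mul_one, Matrix.smul_mul, Matrix.mul_smul,
      hRR, smul_zero, add_zero]
    module
  set a := d / c with ha
  have h' := (hsq ((a + 1) / 2)).mul (hneg _ (hsq ((a - 1) / 2)))
  convert h' using 1
  simp only [Matrix.add_mul, Matrix.mul_add, Matrix.one_mul, Matrix.mul_one, Matrix.smul_mul, Matrix.mul_smul,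
    hRR, smul_zero, add_zero]
  have e : d = c * ((a + 1) / 2 * ((a + 1) / 2)) + -(c * ((a - 1) / 2 * ((a - 1) / 2))) := by
    have := A.two
    rw [ha]; field_simp; ring
  conv_lhs => rw [e]
  module

/-- Some isometry is not a monomial tensor. -/
theorem exists_not_wreath (hJ : SympMat J) (hodd : Odd (Fintype.card ι)) (hι : 2 ≤ Fintype.card ι) (hm : 0 < m) :
    ∃ g : GL (ι → Fin m) F, (g : MM)ᵀ * tens ι J * g = tens ι J ∧ ¬ IsWreath (g : MM) := by
  classical
  have hT := sympMat_tens (ι := ι) hJ hodd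
  set e : Fin m → F := Pi.single ⟨0, hm⟩ 1 with he
  have he0 : e ≠ 0 := by simp [he]
  obtain ⟨f, hf⟩ := hJ.exists_one he0
  have hfe : bf J f e = -1 := by rw [hJ.swap e f, hf]
  set X : MM := 1 + (1 : F) • rk (tens ι J) (pv fun _ => e) (pv fun _ => e) with hX
  have hXi := H99.TensorS.trans_unitary hT (pv fun _ : ι => e) 1
  refine ⟨⟨X, adj (tens ι J) (tens ι J) X, mul_eq_one_comm.1 hXi, hXi⟩, (iso_iff hT.unit).1 hXi, ?_⟩
  rintro ⟨π, k, hk⟩
  obtain ⟨a, b, hab⟩ := Fintype.exists_pair_of_one_lt_card (show 1 < Fintype.card ι by omega)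
  have himg : X *ᵥ pv (fun _ : ι => f) = pv (fun _ : ι => f) + pv (fun _ : ι => e) := by
    rw [hX, add_mulVec, one_mulVec, one_smul, H99.TensorS.rk_mulVec, bf_tens]
    simp [hf]
  set y : ι → Fin m → F := fun j => k j *ᵥ f
  have hy : pv (fun _ : ι => f) + pv (fun _ : ι => e) = pv y := by
    rw [← himg, show X = wm π k from hk, H5.C7.wm_pv]
  set z := e + f with hz
  have hze : bf J z e = -1 := by rw [hz, H99.TensorS.bf_add_left, hJ.self, hfe, zero_add]
  have hzf : bf J z f = 1 := by rw [hz, H99.TensorS.bf_add_left, hJ.self, hf, add_zero]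
  set u : (Fin m → F) → (Fin m → F) → ι → Fin m → F :=
    fun p q => Function.update (Function.update (fun _ => z) a p) b q with hu
  set C := ∏ i ∈ (Finset.univ.erase b).erase a, bf J z (y i)
  have hval : ∀ p q x : _, (bf (tens ι J) (pv (u p q)) (pv x)) =
      bf J p (x a) * bf J q (x b) * ∏ i ∈ (Finset.univ.erase b).erase a, bf J z (x i) := by
    intro p q x
    rw [bf_tens, ← Finset.mul_prod_erase _ _ (Finset.mem_univ b),
      ← Finset.mul_prod_erase _ _ (Finset.mem_erase.2 ⟨hab, Finset.mem_univ a⟩)]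
    simp only [hu, Function.update_self, Function.update_of_ne hab]
    rw [mul_left_comm, ← mul_assoc]
    congr 1
    refine Finset.prod_congr rfl fun i hi => ?_
    simp only [Finset.mem_erase] at hi
    rw [Function.update_of_ne hi.2.1, Function.update_of_ne hi.1]
  have hsum : ∀ p q, bf (tens ι J) (pv (u p q)) (pv y) = bf J p f * bf J q f +
      bf J p e * bf J q e * (-1) ^ ((Finset.univ.erase b).erase a).card := by
    intro p q
    rw [← hy, H99.TensorS.bf_add_right, hval, hval]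
    simp [hze, hzf]
  have h1 := hsum e e
  have h2 := hsum f f
  have h3 := hsum e f
  have h4 := hsum f e
  rw [hval] at h1 h2 h3 h4
  rw [hJ.self, zero_mul, zero_mul, add_zero, hf, one_mul] at h1
  rw [hJ.self, zero_mul, zero_add, hfe, neg_one_mul, neg_neg, one_mul] at h2
  rw [hJ.self, mul_zero, hJ.self, zero_mul, zero_mul, add_zero] at h3
  rw [hJ.self, zero_mul, hJ.self, mul_zero, zero_mul, add_zero] at h4
  have h5 := congrArg₂ (· * ·) h1 h2
  have h6 := congrArg₂ (· * ·) h3 h4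
  simp only [one_mul, mul_zero] at h5 h6
  have : ((-1 : F) ^ ((Finset.univ.erase b).erase a).card) = 0 := by linear_combination h6 - h5
  exact pow_ne_zero _ (neg_ne_zero.2 one_ne_zero) this

/-- The monomial isometries form a maximal subgroup, given transvections at pure vectors in the groups with a
layer or middle part. -/
theorem standard_maximal [Finite F] {t : ℕ} (ht : Odd t) (ht2 : 2 ≤ t) (hJ : SympMat J)
    (hsize : (m = 2 ∧ ∃ r : F, r ≠ 0 ∧ r * r ≠ 1) ∨ 4 ≤ m) (h2 : (2 : F) ≠ 0)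
    (hgen : ∀ M : Subgroup (GL (Fin t → Fin m) F), Amb J M → ∀ i, ¬ Good J M i →
      ∃ (c : F) (w : Fin t → Fin m → F), c ≠ 0 ∧ (∀ j, w j ≠ 0) ∧
        InG M (1 + c • rk (tens (Fin t) J) (pv w) (pv w)))
    {K H : Subgroup (GL (Fin t → Fin m) F)}
    (hK : ∀ g, g ∈ K ↔ (g : Matrix (Fin t → Fin m) (Fin t → Fin m) F)ᵀ * tens (Fin t) J * g = tens (Fin t) J)
    (hH : ∀ g, g ∈ H ↔ IsWreath (g : Matrix (Fin t → Fin m) (Fin t → Fin m) F) ∧ g ∈ K) :
    Cfsg.Geo.IsMaximalIn K H := by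
  have hm : 0 < m := by rcases hsize with ⟨h, -⟩ | h <;> omega
  have hodd : Odd (Fintype.card (Fin t)) := by rwa [Fintype.card_fin]
  refine H98.isMaximalIn_of (fun g hg => ((hH g).1 hg).2) ?_ fun M hHM hMK g hg hgH => ?_
  · obtain ⟨g, hg, hgw⟩ := exists_not_wreath (ι := Fin t) hJ hodd (by rw [Fintype.card_fin]; omega) hm
    exact ⟨g, (hK g).2 hg, fun h => hgw ((hH g).1 h).1⟩
  have hmem : ∀ {X : Matrix (Fin t → Fin m) (Fin t → Fin m) F}, IsWreath X →
      Xᵀ * tens (Fin t) J * X = tens (Fin t) J → InG M X := by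
    intro X hX hi
    have hu := tens_unit (ι := Fin t) hJ.unit
    have hXi := (iso_iff hu).2 hi
    let y : GL (Fin t → Fin m) F := ⟨X, adj (tens (Fin t) J) (tens (Fin t) J) X, mul_eq_one_comm.1 hXi, hXi⟩
    exact ⟨y, hHM ((hH y).2 ⟨hX, (hK y).2 hi⟩), rfl⟩
  have A : Amb J M :=
    { sym := hJ
      size := hsize
      ne := Fintype.card_pos_iff.1 hodd.pos
      two := h2
      slot := fun i h hh => hmem ⟨_, _, rfl⟩ (sl_iso hh i)
      perm := fun σ => hmem ⟨_, _, rfl⟩ (perm_iso σ)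
      iso := fun y hy => (hK y).1 (hMK hy) }
  by_cases hgood : ∀ i, Good J M i
  · exact absurd ((hH g).2 ⟨A.isWreath hgood ⟨g, hg, rfl⟩, hMK hg⟩) hgH
  · push Not at hgood
    obtain ⟨i, hi⟩ := hgood
    obtain ⟨c, w, hc, hw, hmemT⟩ := hgen M A i hi
    exact fun y hy => A.all_iso hodd hc hw hmemT ((hK y).1 hy)

end Cfsg.Agent.H58.Wreath.Sp
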