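import Cfsg.Agent.H58.Wreath.Sp.Root
import Cfsg.Agent.H1.DicksonPrimeSL
import Mathlib.GroupTheory.Perm.Cycle.Type
import Mathlib.RingTheory.Nilpotent.Lemmas

/-!
The group generated by a root group and a conjugate one, with its two actions by two-by-two matrices over the
algebras generated by the invariants.
-/

set_option autoImplicit false
set_option linter.unusedSectionVars false

namespace Cfsg.Agent.H58.Wreath.Sp

open Matrix
open Cfsg.Agent.H99.Tensor
open scoped Kronecker MatrixGroups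

variable {F : Type*} [Field F] {α : Type} [Fintype α] [DecidableEq α] {ι : Type} [Fintype ι] [DecidableEq ι]

/-- The algebra generated by a matrix. -/
abbrev Sx (x : Matrix α α F) : Subalgebra F (Matrix α α F) := Algebra.adjoin F {x}

noncomputable instance instCommRingSx (x : Matrix α α F) : CommRing (Sx x) :=
  Algebra.adjoinCommRingOfComm F (by rintro a rfl b rfl; rfl)

/-- The generator. -/
def th (x : Matrix α α F) : Sx x := ⟨x, Algebra.subset_adjoin rfl⟩

/-- Upper unitriangular. -/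
noncomputable def up {x : Matrix α α F} (s : Sx x) : SL(2, Sx x) := ⟨!![1, s; 0, 1], by simp [det_fin_two_of]⟩

/-- Lower unitriangular. -/
noncomputable def lo {x : Matrix α α F} (s : Sx x) : SL(2, Sx x) := ⟨!![1, 0; s, 1], by simp [det_fin_two_of]⟩

/-- An element acts on two blocks of columns by a two-by-two matrix. -/
def Rel (P Q : Matrix ι α F) {x : Matrix α α F} (y : Matrix ι ι F) (ρ : SL(2, Sx x)) : Prop :=
  y * P = P * ((ρ 0 0 : Sx x) : Matrix α α F) + Q * ((ρ 1 0 : Sx x) : Matrix α α F) ∧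
    y * Q = P * ((ρ 0 1 : Sx x) : Matrix α α F) + Q * ((ρ 1 1 : Sx x) : Matrix α α F)

/-- The pairs acting compatibly. -/
noncomputable def relSub (P Q : Matrix ι α F) (x : Matrix α α F) : Subgroup (GL ι F × SL(2, Sx x)) where
  carrier := {p | Rel P Q (p.1 : Matrix ι ι F) p.2}
  one_mem' := by simp [Rel]
  mul_mem' {p p'} hp hp' := by
    obtain ⟨h1, h2⟩ := hp
    obtain ⟨k1, k2⟩ := hp'
    constructor
    · simp only [Prod.fst_mul, Prod.snd_mul, Units.val_mul, Matrix.SpecialLinearGroup.coe_mul, Matrix.mul_apply,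
        Fin.sum_univ_two, Subalgebra.coe_add, Subalgebra.coe_mul, Matrix.mul_assoc, k1, Matrix.mul_add]
      simp only [← Matrix.mul_assoc, h1, h2, Matrix.add_mul]
      abel
    · simp only [Prod.fst_mul, Prod.snd_mul, Units.val_mul, Matrix.SpecialLinearGroup.coe_mul, Matrix.mul_apply,
        Fin.sum_univ_two, Subalgebra.coe_add, Subalgebra.coe_mul, Matrix.mul_assoc, k2, Matrix.mul_add]
      simp only [← Matrix.mul_assoc, h1, h2, Matrix.add_mul]
      abel
  inv_mem' {p} hp := by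
    obtain ⟨h1, h2⟩ := hp
    set Y := (p.1 : Matrix ι ι F)
    set Yi := ((p.1⁻¹ : GL ι F) : Matrix ι ι F)
    have hi : Yi * Y = 1 := p.1.inv_mul
    set a := p.2 0 0
    set b := p.2 0 1
    set c := p.2 1 0
    set d := p.2 1 1
    have hdet : a * d - b * c = 1 := by
      have := p.2.2
      rwa [det_fin_two] at this
    have e1 : P = Y * (P * (d : Matrix α α F) - Q * (c : Matrix α α F)) := by
      rw [Matrix.mul_sub, ← Matrix.mul_assoc, ← Matrix.mul_assoc, h1, h2, Matrix.add_mul, Matrix.add_mul]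
      simp only [Matrix.mul_assoc, ← Subalgebra.coe_mul]
      rw [mul_comm d c, add_sub_add_right_eq_sub, ← Matrix.mul_sub, ← Subalgebra.coe_sub, hdet, OneMemClass.coe_one,
        Matrix.mul_one]
    have e2 : Q = Y * (Q * (a : Matrix α α F) - P * (b : Matrix α α F)) := by
      rw [Matrix.mul_sub, ← Matrix.mul_assoc, ← Matrix.mul_assoc, h1, h2, Matrix.add_mul, Matrix.add_mul]
      simp only [Matrix.mul_assoc, ← Subalgebra.coe_mul]
      rw [mul_comm b a, add_sub_add_left_eq_sub, ← Matrix.mul_sub, ← Subalgebra.coe_sub, mul_comm d a, mul_comm c b,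
        hdet, OneMemClass.coe_one, Matrix.mul_one]
    have key : ∀ s : SL(2, Sx x), ((s⁻¹ : SL(2, Sx x)) 0 0 = s 1 1 ∧ (s⁻¹ : SL(2, Sx x)) 0 1 = -s 0 1 ∧
        (s⁻¹ : SL(2, Sx x)) 1 0 = -s 1 0 ∧ (s⁻¹ : SL(2, Sx x)) 1 1 = s 0 0) := fun s => by
      rw [Matrix.SpecialLinearGroup.SL2_inv_expl]
      exact ⟨rfl, rfl, rfl, rfl⟩
    obtain ⟨k00, k01, k10, k11⟩ := key p.2
    constructor
    · simp only [Prod.fst_inv, Prod.snd_inv, k00, k10, Subalgebra.coe_neg, Matrix.mul_neg, ← sub_eq_add_neg]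
      conv_lhs => rw [e1, ← Matrix.mul_assoc, hi, Matrix.one_mul]
    · simp only [Prod.fst_inv, Prod.snd_inv, k01, k11, Subalgebra.coe_neg, Matrix.mul_neg]
      conv_lhs => rw [e2, ← Matrix.mul_assoc, hi, Matrix.one_mul]
      abel

theorem mem_relSub {P Q : Matrix ι α F} {x : Matrix α α F} {p : GL ι F × SL(2, Sx x)} :
    p ∈ relSub P Q x ↔ Rel P Q (p.1 : Matrix ι ι F) p.2 := Iff.rfl

/-- The unipotent element of a square zero matrix. -/
def uni (A : Matrix ι ι F) (hA : A * A = 0) (d : F) : GL ι F where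
  val := 1 + d • A
  inv := 1 + (-d) • A
  val_inv := by
    simp only [Matrix.add_mul, Matrix.mul_add, Matrix.one_mul, Matrix.mul_one, Matrix.smul_mul, Matrix.mul_smul, hA,
      smul_zero, add_zero]
    module
  inv_val := by
    simp only [Matrix.add_mul, Matrix.mul_add, Matrix.one_mul, Matrix.mul_one, Matrix.smul_mul, Matrix.mul_smul, hA,
      smul_zero, add_zero]
    module

theorem rel_up {A : Matrix ι ι F} (hA : A * A = 0) {P Q : Matrix ι α F} {x : Matrix α α F} (h1 : A * P = 0)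
    (h2 : A * Q = P * x) (d : F) :
    (uni A hA d, up (d • th x)) ∈ relSub P Q x := by
  constructor <;> simp [uni, up, th, Matrix.add_mul, h1, h2, Matrix.mul_smul, add_comm]

theorem rel_lo {B : Matrix ι ι F} (hB : B * B = 0) {P Q : Matrix ι α F} {x : Matrix α α F} (h1 : B * P = Q)
    (h2 : B * Q = 0) (d : F) :
    (uni B hB d, lo (d • (1 : Sx x))) ∈ relSub P Q x := by
  constructor <;> simp [uni, lo, Matrix.add_mul, h1, h2, Matrix.mul_smul]

theorem up_lo_entries {x : Matrix α α F} (s : Sx x) :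
    (up s 0 0 = 1 ∧ up s 0 1 = s ∧ up s 1 0 = 0 ∧ up s 1 1 = 1) ∧
      (lo s 0 0 = 1 ∧ lo s 0 1 = 0 ∧ lo s 1 0 = s ∧ lo s 1 1 = 1) :=
  ⟨⟨rfl, rfl, rfl, rfl⟩, ⟨rfl, rfl, rfl, rfl⟩⟩

/-- The upper row is trivial on the kernel of the generator. -/
def fixSub {x : Matrix α α F} (v : α → F) : Subgroup (SL(2, Sx x)) where
  carrier := {s | ((s 0 0 : Sx x) : Matrix α α F) *ᵥ v = v ∧ ((s 0 1 : Sx x) : Matrix α α F) *ᵥ v = 0 ∧
    ((s 1 1 : Sx x) : Matrix α α F) *ᵥ v = v}
  one_mem' := by simp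
  mul_mem' {s s'} hs hs' := by
    obtain ⟨a, b, d⟩ := hs
    obtain ⟨a', b', d'⟩ := hs'
    have hcomm : ∀ p q : Sx x, ((p : Sx x) : Matrix α α F) * (q : Matrix α α F) = (q : Matrix α α F) * p :=
      fun p q => congrArg Subtype.val (mul_comm p q)
    refine ⟨?_, ?_, ?_⟩
    · simp only [Matrix.SpecialLinearGroup.coe_mul, Matrix.mul_apply, Fin.sum_univ_two, Subalgebra.coe_add,
        Subalgebra.coe_mul, add_mulVec, hcomm (s 0 1) (s' 1 0)]
      rw [← mulVec_mulVec, a', a, ← mulVec_mulVec, b, mulVec_zero, add_zero]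
    · simp only [Matrix.SpecialLinearGroup.coe_mul, Matrix.mul_apply, Fin.sum_univ_two, Subalgebra.coe_add,
        Subalgebra.coe_mul, add_mulVec]
      rw [← mulVec_mulVec, b', mulVec_zero, ← mulVec_mulVec, d', b, add_zero]
    · simp only [Matrix.SpecialLinearGroup.coe_mul, Matrix.mul_apply, Fin.sum_univ_two, Subalgebra.coe_add,
        Subalgebra.coe_mul, add_mulVec]
      rw [← mulVec_mulVec, b', mulVec_zero, ← mulVec_mulVec, d', d, zero_add]
  inv_mem' {s} hs := by
    obtain ⟨a, b, d⟩ := hs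
    have e : (s⁻¹ : SL(2, Sx x)) 0 0 = s 1 1 ∧ (s⁻¹ : SL(2, Sx x)) 0 1 = -s 0 1 ∧
        (s⁻¹ : SL(2, Sx x)) 1 1 = s 0 0 := by
      rw [Matrix.SpecialLinearGroup.SL2_inv_expl]
      exact ⟨rfl, rfl, rfl⟩
    refine ⟨by rw [e.1]; exact d, ?_, by rw [e.2.2]; exact a⟩
    rw [e.2.1, Subalgebra.coe_neg, neg_mulVec, b, neg_zero]

/-- Matrices adding a combination of two blocks of columns. -/
def spanSub (P P' : Matrix ι α F) : Subgroup (GL ι F) where
  carrier := {y | ∃ C C' : Matrix α ι F, (y : Matrix ι ι F) = 1 + (P * C + P' * C')}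
  one_mem' := ⟨0, 0, by simp⟩
  mul_mem' {y y'} := by
    rintro ⟨C, C', h⟩ ⟨D, D', h'⟩
    refine ⟨C * (y' : Matrix ι ι F) + D, C' * (y' : Matrix ι ι F) + D', ?_⟩
    rw [Units.val_mul, h, Matrix.add_mul, Matrix.one_mul, Matrix.add_mul, Matrix.mul_add, Matrix.mul_add,
      Matrix.mul_assoc, Matrix.mul_assoc]
    conv_lhs => arg 1; rw [h']
    abel
  inv_mem' {y} := by
    rintro ⟨C, C', h⟩
    refine ⟨-(C * ((y⁻¹ : GL ι F) : Matrix ι ι F)), -(C' * ((y⁻¹ : GL ι F) : Matrix ι ι F)), ?_⟩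
    have e := congrArg (· * ((y⁻¹ : GL ι F) : Matrix ι ι F)) h
    simp only [Units.mul_inv, Matrix.add_mul, Matrix.one_mul, Matrix.mul_assoc] at e
    simp only [Matrix.mul_neg, ← neg_add]
    rw [← sub_eq_add_neg, eq_sub_iff_add_eq]
    exact e.symm

variable [Finite F]

/-- A group with a noncommutative unipotent pair in a residue field has even order. -/
theorem even_card (h2 : (2 : F) ≠ 0) {x : Matrix α α F} (hx : ¬ IsNilpotent x) {d : F} (hd : d ≠ 0)
    {G : Type*} [Group G] [Finite G] (f : G →* SL(2, Sx x)) (hu : up (d • th x) ∈ f.range)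
    (hv : lo (1 : Sx x) ∈ f.range) : 2 ∣ Nat.card G := by
  classical
  have : Finite (Sx x) := Subtype.finite
  have hth : ¬ IsNilpotent (th x) := fun h => hx (h.map (Sx x).val)
  obtain ⟨P, hP, hPx⟩ : ∃ P : Ideal (Sx x), P.IsPrime ∧ th x ∉ P := by
    by_contra hc
    push Not at hc
    exact hth (nilpotent_iff_mem_prime.2 hc)
  let E := Sx x ⧸ P
  have : Finite E := Finite.of_surjective _ Ideal.Quotient.mk_surjective
  have : IsDomain E := Ideal.Quotient.isDomain P
  letI : Field E := (Finite.isDomain_to_isField E).toField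
  let π : Sx x →+* E := Ideal.Quotient.mk P
  let ψ : F →+* E := π.comp (algebraMap F (Sx x))
  obtain ⟨p, hp⟩ := CharP.exists F
  have : Fact p.Prime := ⟨CharP.char_is_prime F p⟩
  have : CharP E p := charP_of_injective_ringHom ψ.injective p
  have h2E : (2 : E) ≠ 0 := fun h => h2 (ψ.injective (by rw [map_ofNat, map_zero]; exact h))
  have hθ : π (d • th x) ≠ 0 := by
    rw [Algebra.smul_def, map_mul]
    exact mul_ne_zero (fun h => hd (ψ.injective (by rw [map_zero]; exact h)))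
      fun h => hPx (Ideal.Quotient.eq_zero_iff_mem.1 h)
  let Φ : G →* SL(2, E) := (Matrix.SpecialLinearGroup.map π).comp f
  let R : Subgroup SL(2, E) :=
    { carrier := {r | r ∈ Φ.range ∨ -r ∈ Φ.range}
      one_mem' := Or.inl (one_mem _)
      mul_mem' := by
        rintro r r' (h | h) (h' | h')
        · exact Or.inl (mul_mem h h')
        · exact Or.inr (by rw [← mul_neg]; exact mul_mem h h')
        · exact Or.inr (by rw [← neg_mul]; exact mul_mem h h')
        · exact Or.inl (by rw [← neg_mul_neg]; exact mul_mem h h')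
      inv_mem' := by
        rintro r (h | h)
        · exact Or.inl (inv_mem h)
        · refine Or.inr ?_
          rw [show -r⁻¹ = (-r)⁻¹ by rw [eq_inv_iff_mul_eq_one, neg_mul_neg, inv_mul_cancel]]
          exact inv_mem h }
  have hpair : H1.HasUniPair R := by
    refine ⟨Or.inr (by rw [neg_neg]; exact one_mem _), Matrix.SpecialLinearGroup.map π (up (d • th x)), Or.inl ?_,
      Matrix.SpecialLinearGroup.map π (lo (1 : Sx x)), Or.inl ?_, ?_, ?_, ?_⟩
    · obtain ⟨g, hg⟩ := hu; exact ⟨g, by rw [← hg]; rfl⟩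
    · obtain ⟨g, hg⟩ := hv; exact ⟨g, by rw [← hg]; rfl⟩
    · change π (up (d • th x) 0 0) + π (up (d • th x) 1 1) = 2
      rw [(up_lo_entries _).1.1, (up_lo_entries _).1.2.2.2, map_one]
      exact one_add_one_eq_two
    · change π (lo (1 : Sx x) 0 0) + π (lo (1 : Sx x) 1 1) = 2
      rw [(up_lo_entries _).2.1, (up_lo_entries _).2.2.2.2, map_one]
      exact one_add_one_eq_two
    · intro h
      have := congrArg (fun r : SL(2, E) => r 0 0) h
      simp only [Matrix.SpecialLinearGroup.coe_mul, Matrix.mul_apply, Fin.sum_univ_two] at this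
      change π (up (d • th x) 0 0) * π (lo (1 : Sx x) 0 0) + π (up (d • th x) 0 1) * π (lo (1 : Sx x) 1 0) =
        π (lo (1 : Sx x) 0 0) * π (up (d • th x) 0 0) + π (lo (1 : Sx x) 0 1) * π (up (d • th x) 1 0) at this
      obtain ⟨⟨u00, u01, u10, -⟩, -⟩ := up_lo_entries (d • th x)
      obtain ⟨-, l00, l01, l10, -⟩ := up_lo_entries (1 : Sx x)
      rw [u00, u01, u10, l00, l01, l10, map_one, map_zero, mul_one, mul_one, mul_zero, add_zero,
        add_eq_left] at this
      exact hθ this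
  obtain ⟨φ, hφ, hφR⟩ := H1.hasPrimeSL_of_uniPair p h2E hpair
  have hp2 : (2 : ZMod p) ≠ 0 := fun h => h2 (by
    have := congrArg (ZMod.castHom (dvd_refl p) F) h
    simpa only [map_ofNat, map_zero] using this)
  let W : SL(2, ZMod p) := ⟨!![0, -1; 1, 0], by simp [det_fin_two_of]⟩
  have hWW : W * W = -1 := by
    refine H6.sl2_ext ?_ ?_ ?_ ?_ <;> rw [H6.sl2_mul, H6.sl2_neg] <;> simp [W]
  have hW4 : W ^ 4 = 1 := by
    rw [show (4 : ℕ) = 2 * 2 from rfl, pow_mul, pow_two W, hWW, neg_one_sq]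
  have hW2 : W ^ 2 ≠ 1 := fun h => by
    rw [pow_two, hWW] at h
    have := congrArg (fun r : SL(2, ZMod p) => r 0 0) h
    simp at this
    exact hp2 (by linear_combination -this)
  obtain ⟨r, hr, hr4, hr2⟩ : ∃ r ∈ Φ.range, r ^ 4 = 1 ∧ r ^ 2 ≠ 1 := by
    have h4 : φ W ^ 4 = 1 := by rw [← map_pow, hW4, map_one]
    have h2' : φ W ^ 2 ≠ 1 := fun h => hW2 (hφ (by rw [map_pow, h, map_one]))
    rcases hφR ⟨W, rfl⟩ with h | h
    · exact ⟨_, h, h4, h2'⟩
    · refine ⟨_, h, ?_, ?_⟩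
      · rw [show (4 : ℕ) = 2 * 2 from rfl, pow_mul, neg_sq, ← pow_mul]; exact h4
      · rw [neg_sq]; exact h2'
  have : Fact (Nat.Prime 2) := ⟨Nat.prime_two⟩
  have h4' : orderOf (⟨r, hr⟩ : Φ.range) = 2 ^ (1 + 1) :=
    orderOf_eq_prime_pow (fun h => hr2 (congrArg Subtype.val h)) (Subtype.ext hr4)
  exact (Dvd.intro_left _ rfl : 2 ∣ 2 ^ (1 + 1)).trans ((h4' ▸ orderOf_dvd_natCard _).trans (Subgroup.card_range_dvd Φ))

end Cfsg.Agent.H58.Wreath.Sp
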