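import Cfsg.Agent.H99.TensorS.Purity
import Cfsg.Agent.H99.TensorS.Conjugate

/-!
A group of isometries of a tensor product of a symmetric or alternating and an alternating form containing the right factor in
which only scalars occur in layers and middle parts: elements of the unipotent radicals of layers.
-/

set_option autoImplicit false
set_option linter.unusedSectionVars false

namespace Cfsg.Agent.H58.Wreath.Sp

open Matrix
open Cfsg.Agent.H99.Tensor
open Cfsg.Agent.H99.TensorS (SympMat bf rk adj phi el ct)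
open scoped Kronecker

variable {F : Type*} [Field F] {α : Type} [Fintype α] [DecidableEq α] {b : ℕ} {JA : Matrix α α F}
  {JB : Matrix (Fin b) (Fin b) F}

local notation "Ix" => α × Fin b

theorem adjA_lft (hA : IsUnit JA.det) (w : Fin b → F) : adj JA (JA ⊗ₖ JB) (lft α w) = phi α JB w := by
  have e : (lft α w)ᵀ = rgt α w := by
    ext i p
    rw [transpose_apply, lft_apply, rgt_apply]
  rw [adj, e, Matrix.mul_assoc, rgt_kron, nonsing_inv_mul_cancel_left JA _ hA]
  rfl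

theorem adjA_mul (hA : IsUnit JA.det) (A : Matrix Ix α F) (K : Matrix α α F) :
    adj JA (JA ⊗ₖ JB) (A * K) = adj JA JA K * adj JA (JA ⊗ₖ JB) A :=
  H99.TensorS.adj_mul hA A K

theorem adjA_lft_mul (hA : IsUnit JA.det) (w : Fin b → F) (C : Matrix α α F) :
    adj JA (JA ⊗ₖ JB) (lft α w * C) = adj JA JA C * phi α JB w := by
  rw [adjA_mul hA, adjA_lft hA]

theorem el_lft (hA : IsUnit JA.det) (z η : Fin b → F) (C G : Matrix α α F) :
    el JA JB z (lft α η * C) G = 1 + C ⊗ₖ rk JB η z + adj JA JA C ⊗ₖ rk JB z η + G ⊗ₖ rk JB z z := by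
  rw [el, adjA_lft_mul hA, H99.TensorS.lft_mid_phi, H99.TensorS.lft_mid_phi, ← Matrix.mul_assoc,
    H99.TensorS.lft_mid_phi]

/-- Matrices agreeing on all layers are equal. -/
theorem ext_lft {n : Type} {X Y : Matrix n Ix F} (h : ∀ v : Fin b → F, X * lft α v = Y * lft α v) : X = Y := by
  ext i ⟨j, k⟩
  rw [← mul_lft_single X k i j, ← mul_lft_single Y k i j, h]

/-- An element all of whose layer images come from one matrix of the first factor is a pure tensor. -/
theorem pure_of_all {X : Matrix Ix Ix F} {h : Matrix α α F}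
    (hall : ∀ v : Fin b → F, ∃ u : Fin b → F, X * lft α v = lft α u * h) : IsPure X := by
  choose f hf using hall
  refine ⟨h, Matrix.of fun k l => f (Pi.single l 1) k, ?_⟩
  ext ⟨j, k⟩ ⟨i', l⟩
  have e := congrFun (congrFun (hf (Pi.single l 1)) (j, k)) i'
  rw [mul_lft_single] at e
  rw [e]
  simp only [Matrix.mul_apply, lft_apply, kroneckerMap_apply, Matrix.of_apply]
  rw [Finset.sum_eq_single j (fun c _ hc => by simp [Ne.symm hc]) (by simp)]
  simp [mul_comm]

/-- The setting: a group of isometries with scalar layers and middle parts. -/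
structure Setup (JA : Matrix α α F) (JB : Matrix (Fin b) (Fin b) F) (M : Subgroup (GL (α × Fin b) F)) : Prop where
  sA : ∃ ε : F, ε * ε = 1 ∧ JAᵀ = ε • JA
  uA : IsUnit JA.det
  sB : SympMat JB
  two : (2 : F) ≠ 0
  size : (b = 2 ∧ ∃ r : F, r ≠ 0 ∧ r * r ≠ 1) ∨ 4 ≤ b
  iso : ∀ y ∈ M, adj (JA ⊗ₖ JB) (JA ⊗ₖ JB) (y : Matrix (α × Fin b) (α × Fin b) F) *
    (y : Matrix (α × Fin b) (α × Fin b) F) = 1
  right : ∀ (w : Fin b → F) (d : F), InM M ((1 : Matrix α α F) ⊗ₖ (1 + d • rk JB w w))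
  lay : ∀ (w : Fin b → F) (G : Matrix α α F), w ≠ 0 → InM M (1 + G ⊗ₖ rk JB w w) →
    ∃ c : F, G = c • (1 : Matrix α α F)
  mid : ∀ (z η : Fin b → F) (D : Matrix α α F), z ≠ 0 → bf JB z η = 0 → (∀ t : F, η ≠ t • z) → adj JA JA D = -D →
    InM M (el JA JB z (lft α η * D) 0) → D = 0

variable {M : Subgroup (GL (α × Fin b) F)} (H : Setup JA JB M)
include H

theorem Setup.skewJ : ∃ ε : F, ε * ε = 1 ∧ JAᵀ = ε • JA ∧ (JA ⊗ₖ JB)ᵀ = (-ε) • (JA ⊗ₖ JB) := by
  obtain ⟨ε, hε, hA⟩ := H.sA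
  refine ⟨ε, hε, hA, ?_⟩
  rw [← kroneckerMap_transpose, hA, H.sB.skew]
  ext p r
  simp [kroneckerMap_apply]
  ring

theorem Setup.unitJ : IsUnit (JA ⊗ₖ JB).det := by
  rw [det_kronecker]
  exact (H.uA.pow _).mul (H.sB.unit.pow _)

theorem Setup.adjAA (X : Matrix α α F) : adj JA JA (adj JA JA X) = X := by
  obtain ⟨ε, hε, hA, -⟩ := H.skewJ
  rw [H99.TensorS.adj_adj H.uA H.uA hA hA hε, hε, one_smul]

theorem Setup.adjJJ (X : Matrix Ix Ix F) :
    adj (JA ⊗ₖ JB) (JA ⊗ₖ JB) (adj (JA ⊗ₖ JB) (JA ⊗ₖ JB) X) = X := by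
  obtain ⟨ε, hε, -, hJ⟩ := H.skewJ
  rw [H99.TensorS.adj_adj H.unitJ H.unitJ hJ hJ (by rw [neg_mul_neg, hε]), neg_mul_neg, hε, one_smul]

theorem Setup.adj_down (A : Matrix Ix α F) : adj (JA ⊗ₖ JB) JA (adj JA (JA ⊗ₖ JB) A) = -A := by
  obtain ⟨ε, hε, hA, hJ⟩ := H.skewJ
  rw [H99.TensorS.adj_adj H.uA H.unitJ hA hJ hε, mul_neg, hε, neg_one_smul]

theorem Setup.adjA_mul_iso (X : Matrix Ix Ix F) (A : Matrix Ix α F) :
    adj JA (JA ⊗ₖ JB) (X * A) = adj JA (JA ⊗ₖ JB) A * adj (JA ⊗ₖ JB) (JA ⊗ₖ JB) X :=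
  H99.TensorS.adj_mul H.unitJ X A

theorem Setup.adj_phi (w : Fin b → F) : adj (JA ⊗ₖ JB) JA (phi α JB w) = -lft α w := by
  rw [← adjA_lft H.uA, H.adj_down]

theorem Setup.adjA_lft_right (A : Matrix Ix α F) (w : Fin b → F) :
    adj JA (JA ⊗ₖ JB) A * lft α w = -adj JA JA (phi α JB w * A) := by
  rw [H99.TensorS.adj_mul H.unitJ, H.adj_phi, Matrix.mul_neg, neg_neg]

theorem Setup.unit {X : Matrix Ix Ix F} (hX : InM M X) : adj (JA ⊗ₖ JB) (JA ⊗ₖ JB) X * X = 1 := by
  obtain ⟨y, hy, rfl⟩ := hX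
  exact H.iso y hy

theorem Setup.unit' {X : Matrix Ix Ix F} (hX : InM M X) : X * adj (JA ⊗ₖ JB) (JA ⊗ₖ JB) X = 1 :=
  mul_eq_one_comm.1 (H.unit hX)

theorem Setup.inv {X : Matrix Ix Ix F} (hX : InM M X) : InM M (adj (JA ⊗ₖ JB) (JA ⊗ₖ JB) X) :=
  hX.inv (H.unit' hX)

theorem Setup.conj {A X : Matrix Ix Ix F} (hA : InM M (1 + A)) (hX : InM M X) :
    InM M (1 + X * A * adj (JA ⊗ₖ JB) (JA ⊗ₖ JB) X) :=
  hA.conj hX (H.unit' hX)

theorem Setup.adj_ct (X : Matrix Ix Ix F) (u w : Fin b → F) :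
    adj JA JA (ct α JB X u w) = -ct α JB (adj (JA ⊗ₖ JB) (JA ⊗ₖ JB) X) w u := by
  rw [ct, ct, H99.TensorS.adj_mul H.unitJ, adjA_lft H.uA, H99.TensorS.adj_mul H.unitJ, H.adj_phi,
    Matrix.mul_neg, Matrix.mul_neg, Matrix.mul_assoc]

theorem Setup.el_mul {z : Fin b → F} {A A' : Matrix Ix α F} (G G' : Matrix α α F)
    (hA : phi α JB z * A = 0) (hA' : phi α JB z * A' = 0) :
    el JA JB z A G * el JA JB z A' G' =
      el JA JB z (A + A') (G + G' + adj JA (JA ⊗ₖ JB) A * A') := by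
  have h1 : phi α JB z * lft α z = (0 : Matrix α α F) := by rw [H99.TensorS.phi_lft, H.sB.self, zero_smul]
  have h2 : adj JA (JA ⊗ₖ JB) A * lft α z = 0 := by rw [H.adjA_lft_right, hA, H99.TensorS.adj_zero, neg_zero]
  have l1 : ∀ T : Matrix α Ix F, phi α JB z * (A' * T) = 0 := fun T => by
    rw [← Matrix.mul_assoc, hA', Matrix.zero_mul]
  have l2 : ∀ T : Matrix α Ix F, phi α JB z * (lft α z * T) = 0 := fun T => by
    rw [← Matrix.mul_assoc, h1, Matrix.zero_mul]
  have l3 : ∀ T : Matrix α Ix F, adj JA (JA ⊗ₖ JB) A * (lft α z * T) = 0 := fun T => by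
    rw [← Matrix.mul_assoc, h2, Matrix.zero_mul]
  simp only [el, Matrix.mul_add, Matrix.add_mul, Matrix.mul_one, Matrix.one_mul, Matrix.mul_assoc, l1, l2, l3,
    Matrix.mul_zero, H99.TensorS.adj_add]
  abel

/-- Conjugation of an element of a radical. -/
theorem Setup.el_conj {z z₂ : Fin b → F} {X : Matrix Ix Ix F} (hX : InM M X) {h : Matrix α α F}
    (hh : X * lft α z = lft α z₂ * h) {A : Matrix Ix α F} {G : Matrix α α F} (hel : InM M (el JA JB z A G)) :
    InM M (el JA JB z₂ (X * A * adj JA JA h) (h * G * adj JA JA h)) := by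
  set Xs := adj (JA ⊗ₖ JB) (JA ⊗ₖ JB) X with hXs
  have hh' : phi α JB z * Xs = adj JA JA h * phi α JB z₂ := by
    rw [hXs, ← adjA_lft H.uA z, ← H.adjA_mul_iso, hh, adjA_lft_mul H.uA]
  rw [el, add_assoc, add_assoc] at hel
  have h2 := H.conj hel hX
  rw [el, adjA_mul H.uA, H.adjAA, H.adjA_mul_iso, ← hXs]
  rw [← hXs] at h2
  convert h2 using 1
  simp only [Matrix.mul_add, Matrix.add_mul]
  simp only [← Matrix.mul_assoc, hh]
  simp only [Matrix.mul_assoc, hh']
  abel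

theorem Setup.el_neg {z : Fin b → F} {A : Matrix Ix α F} {G : Matrix α α F} (hA : phi α JB z * A = 0)
    (hel : InM M (el JA JB z A G)) : InM M (el JA JB z (-A) (-G + adj JA (JA ⊗ₖ JB) A * A)) := by
  refine hel.inv ?_
  rw [H.el_mul _ _ hA (by rw [Matrix.mul_neg, hA, neg_zero]), add_neg_cancel, Matrix.mul_neg,
    ← H99.TensorS.el_one (JA := JA) z]
  congr 1
  abel

theorem Setup.phi_mul_lft_zero {z η : Fin b → F} (h : bf JB z η = 0) (C : Matrix α α F) :
    phi α JB z * (lft α η * C) = 0 := by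
  rw [← Matrix.mul_assoc, H99.TensorS.phi_lft, h, zero_smul, Matrix.zero_mul]

theorem Setup.trans (w : Fin b → F) (d : F) : InM M (1 + (d • (1 : Matrix α α F)) ⊗ₖ rk JB w w) := by
  have := H.right w d
  rwa [kronecker_add, one_kronecker_one, kronecker_smul, ← smul_kronecker] at this

/-- The root elements of the second factor. -/
theorem Setup.root {w η : Fin b → F} (hη : bf JB w η = 0) (c : F) :
    InM M (1 + (1 : Matrix α α F) ⊗ₖ H99.TensorS.nil JB w η c) := by
  have hη' := H.sB.zero_comm.1 hη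
  have := ((H.right (η + w) 1).mul (H.right η (-1))).mul (H.right w (c - 1))
  rw [← mul_kronecker_mul, ← mul_kronecker_mul, Matrix.one_mul, Matrix.one_mul] at this
  rw [← one_kronecker_one (α := F) (m := α) (n := Fin b), ← kronecker_add]
  convert this using 2
  simp only [H99.TensorS.nil, H99.TensorS.rk_add_left, H99.TensorS.rk_add_right, Matrix.mul_add, Matrix.add_mul,
    Matrix.one_mul, Matrix.mul_one, Matrix.smul_mul, Matrix.mul_smul, H99.TensorS.rk_mul, hη, hη', H.sB.self,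
    zero_smul, smul_zero, add_zero]
  module

theorem Setup.root_el {w η : Fin b → F} (hη : bf JB w η = 0) :
    InM M (el JA JB w (lft α η * (1 : Matrix α α F)) 0) := by
  have := H.root (α := α) hη 0
  rw [H99.TensorS.nil, zero_smul, add_zero, kronecker_add, ← add_assoc] at this
  rwa [el_lft H.uA, H99.TensorS.adj_one H.uA, zero_kronecker, add_zero]

theorem Setup.right_move {a c : Fin b → F} {μ : F} (hca : bf JB c a ≠ 0) (hμ : μ ≠ 0) :
    ∃ k : Matrix (Fin b) (Fin b) F, InM M ((1 : Matrix α α F) ⊗ₖ k) ∧ adj JB JB k * k = 1 ∧ k *ᵥ a = μ • c := by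
  obtain ⟨d, e, h⟩ := H99.TensorS.exists_move H.sB hca hμ
  refine ⟨_, ?_, ?_, h⟩
  · have := (H.right a e).mul (H.right c d)
    rwa [← mul_kronecker_mul, Matrix.one_mul] at this
  · rw [H99.TensorS.adj_mul H.sB.unit, Matrix.mul_assoc,
      ← Matrix.mul_assoc (adj JB JB (1 + e • rk JB a a)),
      H99.TensorS.trans_unitary H.sB, Matrix.one_mul, H99.TensorS.trans_unitary H.sB]

/-- The second factor is transitive on non-zero vectors. -/
theorem Setup.right_map {a c : Fin b → F} (ha : a ≠ 0) (hc : c ≠ 0) {μ : F} (hμ : μ ≠ 0) :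
    ∃ k : Matrix (Fin b) (Fin b) F, InM M ((1 : Matrix α α F) ⊗ₖ k) ∧ adj JB JB k * k = 1 ∧ k *ᵥ a = μ • c := by
  obtain ⟨u, hua, huc⟩ := H.sB.exists_common₂ ha hc
  obtain ⟨k₁, m₁, i₁, e₁⟩ := H.right_move hua one_ne_zero
  obtain ⟨k₂, m₂, i₂, e₂⟩ := H.right_move (a := u) (c := c) (fun h => huc (H.sB.zero_comm.1 h)) hμ
  refine ⟨k₂ * k₁, ?_, ?_, ?_⟩
  · have := m₂.mul m₁
    rwa [← mul_kronecker_mul, Matrix.one_mul] at this
  · rw [H99.TensorS.adj_mul H.sB.unit, Matrix.mul_assoc, ← Matrix.mul_assoc (adj JB JB k₂), i₂, Matrix.one_mul, i₁]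
  · rw [← mulVec_mulVec, e₁, one_smul, e₂]

/-- Middle parts are scalar. -/
theorem Setup.el_contract {z ξ : Fin b → F} (hz0 : z ≠ 0) {A : Matrix Ix α F} {G : Matrix α α F}
    (hA : phi α JB z * A = 0) (hel : InM M (el JA JB z A G)) (hξ : bf JB z ξ = 0) :
    ∃ c : F, phi α JB ξ * A = c • (1 : Matrix α α F) := by
  by_cases hi : ∀ t : F, ξ ≠ t • z
  swap
  · push Not at hi
    obtain ⟨t, rfl⟩ := hi
    exact ⟨0, by rw [H99.TensorS.phi_smul, Matrix.smul_mul, hA, smul_zero, zero_smul]⟩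
  set C := phi α JB ξ * A with hC
  -- the symmetric part
  have hR := H.root_el (α := α) hξ
  have hAR : phi α JB z * (lft α ξ * (1 : Matrix α α F)) = 0 := H.phi_mul_lft_zero hξ 1
  obtain ⟨c₀, hc₀⟩ : ∃ c₀ : F, C + adj JA JA C = c₀ • (1 : Matrix α α F) := by
    have h1 := ((hel.mul hR).mul (H.el_neg hA hel)).mul (H.el_neg hAR hR)
    rw [H.el_mul _ _ hA hAR, H.el_mul _ _ (by rw [Matrix.mul_add, hA, hAR, add_zero])
      (by rw [Matrix.mul_neg, hA, neg_zero]), H.el_mul _ _ (by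
        rw [Matrix.mul_add, Matrix.mul_add, Matrix.mul_neg, hA, hAR, neg_zero, add_zero, add_zero])
      (by rw [Matrix.mul_neg, hAR, neg_zero])] at h1
    rw [show A + lft α ξ * (1 : Matrix α α F) + -A + -(lft α ξ * (1 : Matrix α α F)) = 0 by abel,
      H99.TensorS.el_scalar] at h1
    obtain ⟨c, hc⟩ := H.lay z _ hz0 h1
    refine ⟨-c, ?_⟩
    rw [neg_smul, ← hc]
    have e1 : adj JA (JA ⊗ₖ JB) A * (lft α ξ * (1 : Matrix α α F)) = -adj JA JA C := by
      rw [Matrix.mul_one, H.adjA_lft_right, hC]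
    have e2 : adj JA (JA ⊗ₖ JB) (lft α ξ * (1 : Matrix α α F)) * A = C := by
      rw [Matrix.mul_one, adjA_lft H.uA, hC]
    simp only [Matrix.mul_neg, H99.TensorS.adj_add, H99.TensorS.adj_neg, Matrix.add_mul, Matrix.neg_mul,
      Matrix.mul_add, e1, e2]
    abel
  -- a spread element
  have hsp : ∀ X : Matrix Ix Ix F, InM M X → X * lft α z = lft α z * (1 : Matrix α α F) →
      InM M (el JA JB z (X * A + -A) (adj JA (JA ⊗ₖ JB) A * A + adj JA (JA ⊗ₖ JB) (X * A) * -A)) := by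
    intro X hX hXz
    have h1 := H.el_conj hX hXz hel
    rw [H99.TensorS.adj_one H.uA, Matrix.mul_one, Matrix.mul_one, Matrix.one_mul] at h1
    have hz : phi α JB z * (X * A) = 0 := by
      have : phi α JB z * X = phi α JB z := by
        have e : phi α JB z * adj (JA ⊗ₖ JB) (JA ⊗ₖ JB) X = phi α JB z := by
          rw [← adjA_lft H.uA z, ← H.adjA_mul_iso, hXz, Matrix.mul_one]
        conv_lhs => rw [← e, Matrix.mul_assoc, H.unit hX, Matrix.mul_one]
      rw [← Matrix.mul_assoc, this, hA]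
    have h2 := h1.mul (H.el_neg hA hel)
    rw [H.el_mul _ _ hz (by rw [Matrix.mul_neg, hA, neg_zero])] at h2
    convert h2 using 2
    abel
  obtain ⟨e', he'z, hze', he'ξ⟩ := H.sB.sep₁ hi
  have hξe' : bf JB ξ e' = -1 := by rw [H.sB.swap e' ξ, he'ξ]
  set X₁ : Matrix Ix Ix F := (1 : Matrix α α F) ⊗ₖ (1 + rk JB ξ ξ) with hX₁
  have hX₁M : InM M X₁ := by
    have := H.right (α := α) ξ 1
    rwa [one_smul] at this
  have hX₁z : X₁ * lft α z = lft α z * (1 : Matrix α α F) := by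
    rw [hX₁, kron_lft, add_mulVec, one_mulVec, H99.TensorS.rk_mulVec, H.sB.zero_comm.1 hξ, zero_smul, add_zero]
  have hX₁A : X₁ * A = A + lft α ξ * C := by
    rw [hX₁, kronecker_add, one_kronecker_one, ← H99.TensorS.lft_phi, Matrix.add_mul, Matrix.one_mul,
      Matrix.mul_assoc, hC]
  have hone := hsp X₁ hX₁M hX₁z
  rw [show X₁ * A + -A = lft α ξ * C by rw [hX₁A]; abel, hX₁A, H99.TensorS.adj_add, adjA_lft_mul H.uA,
    Matrix.mul_neg, Matrix.add_mul, Matrix.mul_assoc (adj JA JA C), ← hC, neg_add, add_neg_cancel_left] at hone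
  -- reverse the middle part
  set T : Matrix (Fin b) (Fin b) F := (1 + rk JB ξ ξ) * ((1 + rk JB e' e') * (1 + rk JB ξ ξ)) with hT
  have hTM : InM M ((1 : Matrix α α F) ⊗ₖ T) := by
    have r : ∀ w : Fin b → F, InM M ((1 : Matrix α α F) ⊗ₖ (1 + rk JB w w)) := fun w => by
      have := H.right (α := α) w 1
      rwa [one_smul] at this
    have := (r ξ).mul ((r e').mul (r ξ))
    rwa [← mul_kronecker_mul, ← mul_kronecker_mul, Matrix.one_mul, Matrix.one_mul] at this
  have hTξ : T *ᵥ ξ = e' := by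
    simp only [hT, ← mulVec_mulVec, add_mulVec, one_mulVec, H99.TensorS.rk_mulVec, mulVec_add, H.sB.self, he'ξ,
      hξe', zero_smul, add_zero, smul_zero, one_smul]
    module
  have hTe : T *ᵥ e' = -ξ := by
    simp only [hT, ← mulVec_mulVec, add_mulVec, one_mulVec, H99.TensorS.rk_mulVec, mulVec_add, mulVec_smul,
      H.sB.self, he'ξ, hξe', zero_smul, add_zero, smul_zero, one_smul]
    module
  have hTz : T *ᵥ z = z := by
    simp only [hT, ← mulVec_mulVec, add_mulVec, one_mulVec, H99.TensorS.rk_mulVec, H.sB.zero_comm.1 hξ,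
      hze', zero_smul, add_zero]
  have htwo : InM M (el JA JB z (lft α (-ξ) * C) (-(adj JA JA C * C))) := by
    have hX : InM M ((1 : Matrix α α F) ⊗ₖ (T * T)) := by
      have := hTM.mul hTM
      rwa [← mul_kronecker_mul, Matrix.one_mul] at this
    have := H.el_conj hX (h := 1) (by rw [kron_lft, ← mulVec_mulVec, hTz, hTz]) hone
    rwa [H99.TensorS.adj_one H.uA, Matrix.mul_one, Matrix.mul_one, Matrix.one_mul, ← Matrix.mul_assoc, kron_lft,
      Matrix.mul_one, ← mulVec_mulVec, hTξ, hTe] at this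
  have hξ' : bf JB z (-ξ) = 0 := by rw [← neg_one_smul F ξ, H99.TensorS.bf_smul_right, hξ, mul_zero]
  obtain ⟨c₁, hc₁⟩ : ∃ c₁ : F, adj JA JA C * C = c₁ • (1 : Matrix α α F) := by
    have h1 := hone.mul htwo
    rw [H.el_mul _ _ (H.phi_mul_lft_zero hξ C) (H.phi_mul_lft_zero hξ' C), ← Matrix.add_mul, ← lft_add,
      add_neg_cancel, lft_zero, Matrix.zero_mul, H99.TensorS.el_scalar, adjA_lft_mul H.uA,
      Matrix.mul_assoc (adj JA JA C), ← Matrix.mul_assoc (phi α JB ξ), H99.TensorS.phi_lft, ← neg_one_smul F ξ,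
      H99.TensorS.bf_smul_right, H.sB.self, mul_zero, zero_smul, Matrix.zero_mul, Matrix.mul_zero, add_zero] at h1
    obtain ⟨c, hc⟩ := H.lay z _ hz0 h1
    refine ⟨-c / 2, ?_⟩
    have e2 : (2 : F) • (adj JA JA C * C) = -(c • (1 : Matrix α α F)) := by rw [← hc]; module
    rw [← smul_right_injective (Matrix α α F) H.two |>.eq_iff, e2, smul_smul, mul_div_cancel₀ _ H.two, neg_smul]
  -- the skew part
  set D := C - (c₀ / 2) • (1 : Matrix α α F) with hD
  have hDs : adj JA JA D = -D := by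
    have e : adj JA JA C = c₀ • (1 : Matrix α α F) - C := by rw [← hc₀]; abel
    rw [hD, H99.TensorS.adj_sub, H99.TensorS.adj_smul, H99.TensorS.adj_one H.uA, e]
    have : c₀ / 2 + c₀ / 2 = c₀ := by rw [← add_div, ← two_mul, mul_div_cancel_left₀ _ H.two]
    match_scalars <;> first | ring1 | linear_combination this | linear_combination -this
  have hD0 : D = 0 := by
    set s := c₀ / 2 with hs
    have hr : InM M (el JA JB z (lft α ((-s) • ξ) * (1 : Matrix α α F)) 0) :=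
      H.root_el (by rw [H99.TensorS.bf_smul_right, hξ, mul_zero])
    have h1 := hone.mul hr
    rw [H.el_mul _ _ (H.phi_mul_lft_zero hξ C) (H.phi_mul_lft_zero (by
      rw [H99.TensorS.bf_smul_right, hξ, mul_zero]) 1), adjA_lft_mul H.uA, Matrix.mul_assoc (adj JA JA C),
      ← Matrix.mul_assoc (phi α JB ξ), H99.TensorS.phi_lft, H99.TensorS.bf_smul_right, H.sB.self, mul_zero,
      zero_smul, Matrix.zero_mul, Matrix.mul_zero, add_zero, add_zero, hc₁] at h1
    have h2 : InM M (el JA JB z (0 : Matrix Ix α F) (c₁ • (1 : Matrix α α F))) := by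
      rw [H99.TensorS.el_scalar]
      exact H.trans z c₁
    have h3 := h1.mul h2
    rw [H.el_mul _ _ (by rw [Matrix.mul_add, H.phi_mul_lft_zero hξ,
      H.phi_mul_lft_zero (by rw [H99.TensorS.bf_smul_right, hξ, mul_zero]), add_zero]) (Matrix.mul_zero _),
      add_zero, Matrix.mul_zero, add_zero, neg_add_cancel] at h3
    refine H.mid z ξ D hz0 hξ hi hDs ?_
    convert h3 using 2
    rw [hD, lft_smul, Matrix.mul_sub, Matrix.smul_mul, Matrix.mul_smul, neg_smul, sub_eq_add_neg]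
  exact ⟨c₀ / 2, sub_eq_zero.1 (hD ▸ hD0)⟩

end Cfsg.Agent.H58.Wreath.Sp
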