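import Cfsg.Agent.H58.Wreath.Sp.Global
import Cfsg.Agent.H5.C7.MonoTop
import Cfsg.Agent.H5.C7.Linear
import Cfsg.Agent.H58.Wreath.Transport
import Cfsg.Agent.H99.TensorS.Maximal

/-!
The stabiliser of a tensor power decomposition in the symplectic group, odd characteristic.
-/

set_option autoImplicit false
set_option linter.unusedSectionVars false

namespace Cfsg.Agent.H58.Wreath.Sp

open Matrix
open Cfsg.Agent.H99.Tensor
open Cfsg.Agent.H99.TensorS (SympMat bf rk adj el phi wedge)
open Cfsg.Agent.H5.C7 (wm sl pv rI slotM IsWreath IsN IsT SW)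
open scoped Kronecker

variable {F : Type*} [Field F] {ι : Type} [Fintype ι] [DecidableEq ι] {m : ℕ} {J : Matrix (Fin m) (Fin m) F}

local notation "MM" => Matrix (ι → Fin m) (ι → Fin m) F
local notation "mm" => Matrix (Fin m) (Fin m) F

theorem rk_tens (v : ι → Fin m → F) :
    rk (tens ι J) (pv v) (pv v) = (wm (1 : Equiv.Perm ι) fun i => rk J (v i) (v i) : MM) := by
  ext f g
  simp only [rk, Matrix.vecMulVec_apply, H5.C7.wm_apply, Equiv.Perm.one_apply, Finset.prod_mul_distrib, tens]
  congr 1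
  simp only [vecMul, dotProduct, H5.C7.wm_apply, Equiv.Perm.one_apply, pv]
  rw [Fintype.prod_sum (fun i x => v i x * J x (g i))]
  exact Finset.sum_congr rfl fun h _ => Finset.prod_mul_distrib.symm

variable {M : Subgroup (GL (ι → Fin m) F)}

theorem Amb.sw (A : Amb J M) : SW J M where
  sJ := A.sym
  two := A.two
  slot := fun i v d => A.trans i v d
  cyc := fun a b c _ _ _ => A.perm _
  iso := A.iso

/-- A layer or middle part gives a transvection at a pure vector. -/
theorem Amb.root_of_bad (A : Amb J M) (hodd : Odd (Fintype.card ι)) (i : ι) (hbad : ¬ Good J M i) :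
    ∃ (c : F) (w : ι → Fin m → F), c ≠ 0 ∧ (∀ j, w j ≠ 0) ∧
      InG M (1 + c • rk (tens ι J) (pv w) (pv w)) := by
  classical
  have hm : 0 < m := by rcases A.size with ⟨h, -⟩ | h <;> omega
  suffices h : ∃ (Am : mm) (G : Matrix ({l : ι // l ≠ i} → Fin m) ({l : ι // l ≠ i} → Fin m) F),
      (IsN J Am ∨ IsT J Am) ∧ (∀ c : F, G ≠ c • 1) ∧ InM (slotM i M) (1 + G ⊗ₖ Am) by
    obtain ⟨Am, G, hA, hG, hmem⟩ := h
    obtain ⟨y, hy, ey⟩ := H5.C7.inM_slotM.1 hmem
    have hX : H5.C7.Mem M (1 + ((y : MM) - 1)) := ⟨y, hy, by rw [add_sub_cancel]⟩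
    rcases A.sw.top_of_bad hA hX hG (by rw [map_sub, map_one, ey, add_sub_cancel_left]) with ⟨h, -⟩ | ⟨he, -⟩
    · set e : Fin m → F := Pi.single ⟨0, hm⟩ 1
      have he : e ≠ 0 := by simp [e]
      have := h 1 (fun _ => rk J e e) (fun j _ => ⟨e, he, rfl⟩) (fun j hj => absurd hj (Finset.notMem_empty j))
        (fun j hj => absurd (Finset.mem_univ j) hj)
      rw [← rk_tens] at this
      exact ⟨1, fun _ => e, one_ne_zero, fun _ => he, this⟩
    · exact absurd hodd (Nat.not_odd_iff_even.2 he)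
  by_contra hno
  push Not at hno
  refine hbad ⟨fun w G hw hG => ?_, fun z η D hz hzη hη hD hmem => ?_⟩
  · by_contra hc
    push Not at hc
    exact hno _ G (Or.inl ⟨w, hw, rfl⟩) hc hG
  · by_contra hD0
    refine hno _ D (Or.inr ⟨η, z, fun h => hη 0 (by rw [h, zero_smul]), fun s hs => ?_, A.sym.zero_comm.1 hzη, rfl⟩)
      (fun c hc => ?_) ?_
    · by_cases h0 : s = 0
      · exact hz (by rw [hs, h0, zero_smul])
      · exact hη s⁻¹ (by rw [hs, smul_smul, inv_mul_cancel₀ h0, one_smul])
    · rw [hc, H99.TensorS.adj_smul, H99.TensorS.adj_one (tens_unit A.sym.unit), ← sub_eq_zero, sub_neg_eq_add,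
        ← add_smul] at hD
      have h1 : (1 : Matrix ({l : ι // l ≠ i} → Fin m) ({l : ι // l ≠ i} → Fin m) F) ≠ 0 := fun h => by
        have := congrFun (congrFun h fun _ => ⟨0, hm⟩) fun _ => ⟨0, hm⟩
        simp at this
      have hc0 : c + c = 0 := (smul_eq_zero.1 hD).resolve_right h1
      rw [← two_mul] at hc0
      exact hD0 (by rw [hc, (mul_eq_zero.1 hc0).resolve_left A.two, zero_smul])
    · rw [el_lft (tens_unit A.sym.unit), zero_kronecker, add_zero, hD] at hmem
      convert hmem using 1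
      rw [wedge, sub_eq_add_neg, kronecker_add, ← neg_one_smul F (rk J z η), kronecker_smul, ← smul_kronecker,
        neg_one_smul]
      abel

open Cfsg.Geo in
/-- The symplectic tensor power stabiliser is maximal. -/
theorem sp_wreath_standard [Fintype F] {k t : ℕ} (hodd : Odd (Fintype.card F)) (ht : Odd t) (ht3 : 3 ≤ t)
    (hk : 0 < k) (hex : ¬ (Fintype.card F = 3 ∧ k = 2)) (f₁ : (Fin k → F) → (Fin k → F) → F)
    (hf₁ : IsSymplecticForm f₁) :
    IsMaximalIn (isoJ (H99.Asch.tpow fun _ : Fin t => gramMatrix f₁))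
      (tensorWreathStandard k t F ⊓ isoJ (H99.Asch.tpow fun _ : Fin t => gramMatrix f₁)) := by
  have hJ : SympMat (gramMatrix f₁) := by
    have := H99.TensorS.sympMat_gram hf₁ (one_ne_zero (α := F))
    rwa [one_smul] at this
  have h2 : (2 : F) ≠ 0 := by
    intro h
    have hp : ringChar F = 2 := CharP.ringChar_of_prime_eq_zero Nat.prime_two (by exact_mod_cast h)
    exact (Nat.not_even_iff_odd.2 hodd) (FiniteField.even_card_iff_char_two.1 hp |> Nat.even_iff.2)
  have hev : Even k := hJ.even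
  have hsize : (k = 2 ∧ ∃ r : F, r ≠ 0 ∧ r * r ≠ 1) ∨ 4 ≤ k := by
    obtain ⟨j, hj⟩ := hev
    by_cases hk2 : k = 2
    · refine Or.inl ⟨hk2, ?_⟩
      classical
      by_contra hc
      push Not at hc
      have hsub : (Finset.univ : Finset F) ⊆ {0, 1, -1} := fun r _ => by
        by_cases hr : r = 0
        · simp [hr]
        · rcases mul_self_eq_one_iff.1 (hc r hr) with h | h <;> simp [h]
      have := Finset.card_le_card hsub
      rw [Finset.card_univ] at this
      have h3 : ({0, 1, -1} : Finset F).card ≤ 3 := Finset.card_le_three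
      have h1 : 1 < Fintype.card F := Fintype.one_lt_card
      obtain ⟨i, hi⟩ := hodd
      exact hex ⟨by omega, hk2⟩
    · exact Or.inr (by omega)
  refine standard_maximal ht (by omega) hJ hsize h2 (fun M A i hi => A.root_of_bad (by rwa [Fintype.card_fin]) i hi) (fun g => Iff.rfl)
    fun g => ?_
  constructor
  · rintro ⟨hw, hiso⟩
    exact ⟨H5.C7.isWreath_of_mem_standard hk hw, hiso⟩
  · rintro ⟨hw, hiso⟩
    exact ⟨H5.C7.mem_standard_of_isWreath hk hw, hiso⟩

end Cfsg.Agent.H58.Wreath.Sp
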