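import Cfsg.Agent.H58.Wreath.Sp.Plane

/-!
The plane group of a root and a conjugate root in a group with scalar layers.
-/

set_option autoImplicit false
set_option linter.unusedSectionVars false

namespace Cfsg.Agent.H58.Wreath.Sp

open Matrix
open Cfsg.Agent.H99.Tensor
open Cfsg.Agent.H99.TensorS (SympMat bf rk adj phi el ct)
open scoped Kronecker MatrixGroups

variable {F : Type*} [Field F] {α : Type} [Fintype α] [DecidableEq α] {b : ℕ} {JA : Matrix α α F}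
  {JB : Matrix (Fin b) (Fin b) F} {M : Subgroup (GL (α × Fin b) F)}

local notation "Ix" => α × Fin b

/-- A root of the right factor and a conjugate one. -/
structure Frames (JA : Matrix α α F) (JB : Matrix (Fin b) (Fin b) F) (M : Subgroup (GL (α × Fin b) F)) where
  g : Matrix (α × Fin b) (α × Fin b) F
  w : Fin b → F
  w₁ : Fin b → F
  hg : InM M g
  hw : w ≠ 0
  hw₁ : w₁ ≠ 0

namespace Frames

variable (S : Frames JA JB M)

/-- The root. -/
def A : Matrix Ix Ix F := rootR α JB S.w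

/-- The conjugate root. -/
noncomputable def B : Matrix Ix Ix F := S.g * rootR α JB S.w₁ * adj (JA ⊗ₖ JB) (JA ⊗ₖ JB) S.g

/-- The columns of the root. -/
def P : Matrix Ix α F := lft α S.w

/-- The columns of the conjugate root. -/
def P₁ : Matrix Ix α F := S.g * lft α S.w₁

/-- The intertwiner. -/
def S₀ : Matrix α α F := phi α JB S.w * S.P₁

/-- The invariant. -/
noncomputable def x : Matrix α α F := ct α JB S.B S.w S.w

/-- The invariant of the conjugate frame. -/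
noncomputable def x₁ : Matrix α α F := -(adj JA JA S.S₀ * S.S₀)

variable (H : Setup JA JB M)
include H

theorem A_sq : S.A * S.A = 0 := H.rootR_sq S.w

theorem isRoot : IsRoot JA JB M S.B := ⟨S.g, S.w₁, S.hg, S.hw₁, rfl⟩

theorem B_sq : S.B * S.B = 0 := H.root_sq (S.isRoot H)

theorem B_eq : S.B = S.P₁ * (phi α JB S.w₁ * adj (JA ⊗ₖ JB) (JA ⊗ₖ JB) S.g) := by
  rw [B, P₁, rootR_eq]; simp only [Matrix.mul_assoc]

theorem A_P : S.A * S.P = 0 := by
  rw [A, P, rootR_eq, Matrix.mul_assoc, H99.TensorS.phi_lft, H.sB.self, zero_smul, Matrix.mul_zero]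

theorem A_Q : S.A * (S.B * S.P) = S.P * S.x := by
  rw [A, rootR_eq, P, x, ct]; simp only [Matrix.mul_assoc]

theorem B_Q : S.B * (S.B * S.P) = 0 := by rw [← Matrix.mul_assoc, S.B_sq H, Matrix.zero_mul]

theorem B_P₁ : S.B * S.P₁ = 0 := by
  rw [S.B_eq H, Matrix.mul_assoc, Matrix.mul_assoc (phi α JB S.w₁), P₁, ← Matrix.mul_assoc _ S.g, H.unit S.hg,
    Matrix.one_mul, H99.TensorS.phi_lft, H.sB.self, zero_smul, Matrix.mul_zero]

theorem phi₁ : phi α JB S.w₁ * adj (JA ⊗ₖ JB) (JA ⊗ₖ JB) S.g = adj JA (JA ⊗ₖ JB) S.P₁ := by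
  rw [P₁, H.adjA_mul_iso, adjA_lft H.uA]

theorem B_Q₁ : S.B * (S.A * S.P₁) = S.P₁ * S.x₁ := by
  rw [S.B_eq H, A, rootR_eq, S.phi₁ H, Matrix.mul_assoc (lft α S.w), Matrix.mul_assoc S.P₁,
    ← Matrix.mul_assoc (adj JA (JA ⊗ₖ JB) S.P₁), H.adjA_lft_right, x₁, S₀, Matrix.neg_mul]

theorem x_eq : S.x = -(S.S₀ * adj JA JA S.S₀) := by
  rw [x, ct, S.B_eq H, S.phi₁ H, S₀, ← Matrix.mul_assoc, Matrix.mul_assoc (phi α JB S.w * S.P₁), H.adjA_lft_right,
    Matrix.mul_neg]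

/-- The plane group. -/
noncomputable def K : Subgroup (GL Ix F × SL(2, Sx S.x) × SL(2, Sx S.x₁)) :=
  Subgroup.closure
    ((Set.range fun d : F => (uni S.A (S.A_sq H) d, up (d • th S.x), lo (d • (1 : Sx S.x₁)))) ∪
      (Set.range fun d : F => (uni S.B (S.B_sq H) d, lo (d • (1 : Sx S.x)), up (d • th S.x₁))))

/-- The first action. -/
noncomputable def f₁ : S.K H →* SL(2, Sx S.x) :=
  (MonoidHom.fst _ _).comp ((MonoidHom.snd _ _).comp (S.K H).subtype)

theorem K_inM {p : GL Ix F × SL(2, Sx S.x) × SL(2, Sx S.x₁)} (hp : p ∈ S.K H) :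
    InM M (p.1 : Matrix Ix Ix F) := by
  have hle : S.K H ≤ M.comap (MonoidHom.fst _ _) := by
    refine (Subgroup.closure_le _).2 ?_
    rintro q (⟨d, rfl⟩ | ⟨d, rfl⟩)
    · obtain ⟨y, hy, e⟩ := H.rootR_mem S.w d
      change uni S.A (S.A_sq H) d ∈ M
      rwa [show uni S.A (S.A_sq H) d = y from Units.ext e.symm]
    · obtain ⟨y, hy, e⟩ := H.root_mem (S.isRoot H) d
      change uni S.B (S.B_sq H) d ∈ M
      rwa [show uni S.B (S.B_sq H) d = y from Units.ext e.symm]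
  exact ⟨p.1, hle hp, rfl⟩

theorem K_rel {p : GL Ix F × SL(2, Sx S.x) × SL(2, Sx S.x₁)} (hp : p ∈ S.K H) :
    Rel S.P (S.B * S.P) (p.1 : Matrix Ix Ix F) p.2.1 := by
  have hle : S.K H ≤ (relSub S.P (S.B * S.P) S.x).comap
      ((MonoidHom.fst _ _).prod ((MonoidHom.fst _ _).comp (MonoidHom.snd _ _))) := by
    refine (Subgroup.closure_le _).2 ?_
    rintro q (⟨d, rfl⟩ | ⟨d, rfl⟩)
    · exact rel_up (S.A_sq H) (S.A_P H) (S.A_Q H) d
    · exact rel_lo (S.B_sq H) rfl (S.B_Q H) d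
  exact hle hp

theorem K_rel₁ {p : GL Ix F × SL(2, Sx S.x) × SL(2, Sx S.x₁)} (hp : p ∈ S.K H) :
    Rel S.P₁ (S.A * S.P₁) (p.1 : Matrix Ix Ix F) p.2.2 := by
  have hle : S.K H ≤ (relSub S.P₁ (S.A * S.P₁) S.x₁).comap
      ((MonoidHom.fst _ _).prod ((MonoidHom.snd _ _).comp (MonoidHom.snd _ _))) := by
    refine (Subgroup.closure_le _).2 ?_
    rintro q (⟨d, rfl⟩ | ⟨d, rfl⟩)
    · exact rel_lo (S.A_sq H) rfl (by rw [← Matrix.mul_assoc, S.A_sq H, Matrix.zero_mul]) d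
    · exact rel_up (S.B_sq H) (S.B_P₁ H) (S.B_Q₁ H) d
  exact hle hp

theorem K_span {p : GL Ix F × SL(2, Sx S.x) × SL(2, Sx S.x₁)} (hp : p ∈ S.K H) :
    ∃ C C' : Matrix α Ix F, (p.1 : Matrix Ix Ix F) = 1 + (S.P * C + S.P₁ * C') := by
  have hle : S.K H ≤ (spanSub S.P S.P₁).comap (MonoidHom.fst _ _) := by
    refine (Subgroup.closure_le _).2 ?_
    rintro q (⟨d, rfl⟩ | ⟨d, rfl⟩)
    · refine ⟨d • phi α JB S.w, 0, ?_⟩
      change 1 + d • S.A = _
      rw [A, rootR_eq, Matrix.mul_zero, add_zero, Matrix.mul_smul, P]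
    · refine ⟨0, d • (phi α JB S.w₁ * adj (JA ⊗ₖ JB) (JA ⊗ₖ JB) S.g), ?_⟩
      change 1 + d • S.B = _
      rw [S.B_eq H, Matrix.mul_zero, zero_add, Matrix.mul_smul]
  exact hle hp

theorem K_fix {p : GL Ix F × SL(2, Sx S.x) × SL(2, Sx S.x₁)} (hp : p ∈ S.K H) {v : α → F} (hv : S.x *ᵥ v = 0) :
    p.2.1 ∈ fixSub v := by
  have hle : S.K H ≤ (fixSub v).comap ((MonoidHom.fst _ _).comp (MonoidHom.snd _ _)) := by
    refine (Subgroup.closure_le _).2 ?_
    rintro q (⟨d, rfl⟩ | ⟨d, rfl⟩)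
    · refine ⟨by simp [up], ?_, by simp [up]⟩
      change ((d • th S.x : Sx S.x) : Matrix α α F) *ᵥ v = 0
      rw [Subalgebra.coe_smul, smul_mulVec, show ((th S.x : Sx S.x) : Matrix α α F) = S.x from rfl, hv, smul_zero]
    · exact ⟨by simp [lo], by simp [lo], by simp [lo]⟩
  exact hle hp

theorem K_fix₁ {p : GL Ix F × SL(2, Sx S.x) × SL(2, Sx S.x₁)} (hp : p ∈ S.K H) {v : α → F}
    (hv : S.x₁ *ᵥ v = 0) : p.2.2 ∈ fixSub v := by
  have hle : S.K H ≤ (fixSub v).comap ((MonoidHom.snd _ _).comp (MonoidHom.snd _ _)) := by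
    refine (Subgroup.closure_le _).2 ?_
    rintro q (⟨d, rfl⟩ | ⟨d, rfl⟩)
    · exact ⟨by simp [lo], by simp [lo], by simp [lo]⟩
    · refine ⟨by simp [up], ?_, by simp [up]⟩
      change ((d • th S.x₁ : Sx S.x₁) : Matrix α α F) *ᵥ v = 0
      rw [Subalgebra.coe_smul, smul_mulVec, show ((th S.x₁ : Sx S.x₁) : Matrix α α F) = S.x₁ from rfl, hv, smul_zero]
  exact hle hp

theorem adj_Sx (s : Sx S.x) : adj JA JA (s : Matrix α α F) = (s : Matrix α α F) := by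
  have hx : adj JA JA S.x = S.x := by rw [x, H.ct_adj_root (S.isRoot H)]
  have h : ∀ y ∈ Sx S.x, adj JA JA y = y ∧ Commute S.x y := by
    intro y hy
    induction hy using Algebra.adjoin_induction with
    | mem z hz => rw [Set.mem_singleton_iff.1 hz]; exact ⟨hx, Commute.refl _⟩
    | algebraMap r =>
      rw [Algebra.algebraMap_eq_smul_one, H99.TensorS.adj_smul, H99.TensorS.adj_one H.uA]
      exact ⟨rfl, Commute.smul_right (Commute.one_right _) r⟩
    | add a c _ _ ha hc => exact ⟨by rw [H99.TensorS.adj_add, ha.1, hc.1], ha.2.add_right hc.2⟩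
    | mul a c hma hmc ha hc =>
      refine ⟨?_, ha.2.mul_right hc.2⟩
      rw [H99.TensorS.adj_mul H.uA, ha.1, hc.1]
      exact congrArg Subtype.val (mul_comm (⟨c, hmc⟩ : Sx S.x) ⟨a, hma⟩)
  exact (h _ s.2).1

/-- An invariant of a conjugate root that is not pure is not nilpotent. -/
theorem not_nilpotent [Nonempty α] (hnp : ¬ IsPure (1 + S.B)) : ¬ IsNilpotent S.x := by
  rintro ⟨n, hn⟩
  exact hnp (H.pure_of_nilpotent n S.B S.w (S.isRoot H) S.hw
    (pow_eq_zero_of_le (Nat.lt_two_pow_self).le hn))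

theorem up_mem (d : F) : up (d • th S.x) ∈ (S.f₁ H).range :=
  ⟨⟨_, Subgroup.subset_closure (Or.inl ⟨d, rfl⟩)⟩, rfl⟩

theorem lo_mem (d : F) : lo (d • (1 : Sx S.x)) ∈ (S.f₁ H).range :=
  ⟨⟨_, Subgroup.subset_closure (Or.inr ⟨d, rfl⟩)⟩, rfl⟩

end Frames

end Cfsg.Agent.H58.Wreath.Sp
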