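import Cfsg.Agent.H58.Wreath.Sp.Frames

/-!
For a right factor of dimension at least four all conjugate roots are pure tensors: the plane group has an
involution, and this involution contradicts the purity lemmas.
-/

set_option autoImplicit false
set_option linter.unusedSectionVars false

namespace Cfsg.Agent.H58.Wreath.Sp

open Matrix
open Cfsg.Agent.H99.Tensor
open Cfsg.Agent.H99.TensorS (SympMat bf rk adj phi el ct)
open scoped Kronecker MatrixGroups

variable {F : Type*} [Field F] {α : Type} [Fintype α] [DecidableEq α] {b : ℕ} {JA : Matrix α α F}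
  {JB : Matrix (Fin b) (Fin b) F} {M : Subgroup (GL (α × Fin b) F)}

local notation "Ix" => α × Fin b

theorem sl2_ext_comm {R : Type*} [CommRing R] {s : SL(2, R)} (h00 : s 0 0 = 1) (h01 : s 0 1 = 0)
    (h10 : s 1 0 = 0) (h11 : s 1 1 = 1) : s = 1 := by
  ext i j
  fin_cases i <;> fin_cases j <;> simp [h00, h01, h10, h11]

/-- An involution of the two-by-two special linear group over a commutative algebra is diagonal. -/
theorem diag_of_sq {x : Matrix α α F} (h2 : (2 : F) ≠ 0) {s : SL(2, Sx x)} (hs : s * s = 1) :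
    s 1 1 = s 0 0 ∧ s 0 1 = 0 ∧ s 1 0 = 0 ∧ s 0 0 * s 0 0 = 1 := by
  have hinv : s⁻¹ = s := inv_eq_of_mul_eq_one_right hs
  have e : (s⁻¹ : SL(2, Sx x)) 0 0 = s 1 1 ∧ (s⁻¹ : SL(2, Sx x)) 0 1 = -s 0 1 ∧
      (s⁻¹ : SL(2, Sx x)) 1 0 = -s 1 0 := by
    rw [Matrix.SpecialLinearGroup.SL2_inv_expl]
    exact ⟨rfl, rfl, rfl⟩
  rw [hinv] at e
  have hz : ∀ y : Sx x, y = -y → y = 0 := fun y hy => by
    have : (2 : F) • y = 0 := by rw [two_smul]; nth_rw 1 [hy]; exact neg_add_cancel y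
    exact (smul_eq_zero.1 this).resolve_left h2
  have h01 := hz _ e.2.1
  have h10 := hz _ e.2.2
  refine ⟨e.1.symm, h01, h10, ?_⟩
  have := congrArg (fun t : SL(2, Sx x) => t 0 0) hs
  simpa [Matrix.mul_apply, Fin.sum_univ_two, h01] using this

namespace Frames

variable (S : Frames JA JB M) (H : Setup JA JB M)
include H

/-- An involution of the plane group. -/
theorem exists_inv [Nonempty α] [Finite F] (hnp : ¬ IsPure (1 + S.B)) :
    ∃ (z : Matrix Ix Ix F) (a c : Matrix α α F), InM M z ∧ z * z = 1 ∧ a * a = 1 ∧ c * c = 1 ∧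
      adj JA JA a = a ∧ z * S.P = S.P * a ∧ z * S.P₁ = S.P₁ * c ∧ (a ≠ 1 ∨ c ≠ 1 ∨ z ≠ 1) ∧
      (∀ v, S.x *ᵥ v = 0 → a *ᵥ v = v) ∧ (∀ v, S.x₁ *ᵥ v = 0 → c *ᵥ v = v) ∧
      ∃ C C' : Matrix α Ix F, z = 1 + (S.P * C + S.P₁ * C') := by
  classical
  have : Finite (Sx S.x) := Subtype.finite
  have : Finite (Sx S.x₁) := Subtype.finite
  have : Finite (GL Ix F) := Finite.of_injective _ Units.val_injective
  have : Finite (SL(2, Sx S.x)) := Subtype.finite
  have : Finite (SL(2, Sx S.x₁)) := Subtype.finite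
  have h2 := even_card H.two (S.not_nilpotent H hnp) (one_ne_zero (α := F)) (S.f₁ H) (S.up_mem H 1)
    (by simpa using S.lo_mem H 1)
  have : Fact (Nat.Prime 2) := ⟨Nat.prime_two⟩
  obtain ⟨⟨⟨y, s, s'⟩, hk⟩, hord⟩ := exists_prime_orderOf_dvd_card' (G := S.K H) 2 h2
  have hsq := pow_orderOf_eq_one (⟨(y, s, s'), hk⟩ : S.K H)
  rw [hord] at hsq
  have hne : (y, s, s') ≠ 1 := fun h => by
    have : (⟨(y, s, s'), hk⟩ : S.K H) = 1 := Subtype.ext h
    rw [this, orderOf_one] at hord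
    omega
  rw [pow_two] at hsq
  have hsq' := congrArg Subtype.val hsq
  simp only [Subgroup.coe_mul, Prod.mk_mul_mk, OneMemClass.coe_one, Prod.mk_eq_one] at hsq'
  obtain ⟨hy, hs, hs'⟩ := hsq'
  obtain ⟨d1, b1, c1, a1⟩ := diag_of_sq H.two hs
  obtain ⟨d2, b2, c2, a2⟩ := diag_of_sq H.two hs'
  have hr := S.K_rel H hk
  have hr' := S.K_rel₁ H hk
  refine ⟨(y : Matrix Ix Ix F), (s 0 0 : Sx S.x), (s' 0 0 : Sx S.x₁), S.K_inM H hk, ?_, ?_, ?_, S.adj_Sx H _, ?_, ?_, ?_,
    fun v hv => (S.K_fix H hk hv).1, fun v hv => (S.K_fix₁ H hk hv).1, S.K_span H hk⟩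
  · rw [← Units.val_mul, hy, Units.val_one]
  · exact_mod_cast congrArg Subtype.val a1
  · exact_mod_cast congrArg Subtype.val a2
  · have h : _ = _ := hr.1
    simp only [c1, ZeroMemClass.coe_zero, Matrix.mul_zero, add_zero] at h
    exact h
  · have h : _ = _ := hr'.1
    simp only [c2, ZeroMemClass.coe_zero, Matrix.mul_zero, add_zero] at h
    exact h
  · by_contra hc
    push Not at hc
    obtain ⟨ha, hc', hz⟩ := hc
    refine hne ?_
    have e1 : s = 1 := sl2_ext_comm (Subtype.ext ha) b1 c1 (d1.trans (Subtype.ext ha))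
    have e2 : s' = 1 := sl2_ext_comm (Subtype.ext hc') b2 c2 (d2.trans (Subtype.ext hc'))
    rw [e1, e2, show y = 1 from Units.ext hz]
    rfl

/-- For a large right factor every conjugate root is a pure tensor. -/
theorem pure_large [Nonempty α] [Finite F] (h4 : 4 ≤ b) : IsPure (1 + S.B) := by
  by_contra hnp
  obtain ⟨z, a, c, hzM, hz2, ha2, hc2, hadj, hzP, hzP₁, hne, hfa, hfc, C, C', hspan⟩ := S.exists_inv H hnp
  have : NeZero b := H.neZero
  have hadjz : adj (JA ⊗ₖ JB) (JA ⊗ₖ JB) z = z := by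
    calc adj (JA ⊗ₖ JB) (JA ⊗ₖ JB) z = adj (JA ⊗ₖ JB) (JA ⊗ₖ JB) z * (z * z) := by rw [hz2, Matrix.mul_one]
      _ = z := by rw [← Matrix.mul_assoc, H.unit hzM, Matrix.one_mul]
  have hS : S.S₀ * c = a * S.S₀ := by
    rw [S₀, Matrix.mul_assoc, ← hzP₁, ← Matrix.mul_assoc, ← Matrix.mul_assoc]
    congr 1
    have := congrArg (adj JA (JA ⊗ₖ JB)) hzP
    rw [H.adjA_mul_iso, hadjz, adjA_mul H.uA, hadj] at this
    rwa [P, adjA_lft H.uA] at this
  have hinjc : ∀ v, S.S₀ *ᵥ ((c - 1) *ᵥ v) = 0 → (c - 1) *ᵥ v = 0 := by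
    intro v hv
    have h1 : S.x₁ *ᵥ ((c - 1) *ᵥ v) = 0 := by
      rw [x₁, neg_mulVec, ← mulVec_mulVec, hv, mulVec_zero, neg_zero]
    have h2 := hfc _ h1
    rw [mulVec_mulVec, Matrix.mul_sub, hc2, Matrix.mul_one, sub_mulVec, sub_mulVec, one_mulVec] at h2
    have : (2 : F) • ((c - 1) *ᵥ v) = 0 := by
      rw [sub_mulVec, one_mulVec, smul_sub, two_smul, two_smul]
      calc c *ᵥ v + c *ᵥ v - (v + v) = (c *ᵥ v - v) - (v - c *ᵥ v) := by abel
        _ = 0 := by rw [h2, sub_self]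
    exact (smul_eq_zero.1 this).resolve_left H.two
  have hP₁inj : ∀ v, S.P₁ *ᵥ v = 0 → v = 0 := by
    intro v hv
    have := congrArg (adj (JA ⊗ₖ JB) (JA ⊗ₖ JB) S.g *ᵥ ·) hv
    simp only [P₁, mulVec_mulVec, mulVec_zero, ← Matrix.mul_assoc, H.unit S.hg, Matrix.one_mul] at this
    obtain ⟨k, hk⟩ := Function.ne_iff.1 S.hw₁
    funext j
    have e := congrFun this (j, k)
    simp [mulVec, dotProduct, lft_apply] at e
    exact e.resolve_left hk
  have hPD : ∀ (v : α → F), (z - 1) *ᵥ (S.P *ᵥ v) = S.P *ᵥ ((a - 1) *ᵥ v) := fun v => by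
    rw [mulVec_mulVec, mulVec_mulVec, Matrix.sub_mul, hzP, Matrix.one_mul, Matrix.mul_sub, Matrix.mul_one]
  -- twice the displacement
  have hX : (-2 : F) • (z - 1) = S.P * ((a - 1) * C) + S.P₁ * ((c - 1) * C') := by
    have e : (z - 1) * (z - 1) = (-2 : F) • (z - 1) := by
      rw [sub_mul, mul_sub, mul_one, one_mul, hz2]; module
    rw [← e]
    nth_rw 2 [show z - 1 = S.P * C + S.P₁ * C' by rw [hspan, add_sub_cancel_left]]
    have f1 : (z - 1) * S.P = S.P * (a - 1) := by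
      rw [Matrix.sub_mul, hzP, Matrix.one_mul, Matrix.mul_sub, Matrix.mul_one]
    have f2 : (z - 1) * S.P₁ = S.P₁ * (c - 1) := by
      rw [Matrix.sub_mul, hzP₁, Matrix.one_mul, Matrix.mul_sub, Matrix.mul_one]
    rw [Matrix.mul_add, ← Matrix.mul_assoc (z - 1), ← Matrix.mul_assoc (z - 1), f1, f2, Matrix.mul_assoc,
      Matrix.mul_assoc]
  have hane : a ≠ 1 := by
    intro ha
    have hc : c = 1 := by
      refine sub_eq_zero.1 (Matrix.ext_of_mulVec_single fun j => ?_)
      rw [Matrix.zero_mulVec]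
      refine hinjc _ ?_
      rw [mulVec_mulVec, Matrix.mul_sub, hS, ha, Matrix.one_mul, Matrix.mul_one, sub_self, Matrix.zero_mulVec]
    rcases hne with h | h | h
    · exact h ha
    · exact h hc
    · rw [ha, hc, sub_self, Matrix.zero_mul, Matrix.zero_mul, Matrix.mul_zero, Matrix.mul_zero, add_zero] at hX
      exact h (sub_eq_zero.1 ((smul_eq_zero.1 hX).resolve_left (neg_ne_zero.2 H.two)))
  have hau : IsUnit a.det := by
    have := congrArg Matrix.det ha2
    rw [det_mul, det_one] at this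
    exact IsUnit.of_mul_eq_one _ this
  obtain ⟨g₀, h₀, hgh⟩ := H.pure_of_layer S.hw S.hw hzM hzP hau
  -- normal form
  obtain ⟨k, hk⟩ := Function.ne_iff.1 S.hw
  set ν := (h₀ *ᵥ S.w) k / S.w k with hν
  have hga : ν • g₀ = a := by
    have := hzP
    rw [hgh, P, kron_lft] at this
    ext i j
    have e := congrFun (congrFun this (i, k)) j
    simp [Matrix.mul_apply, lft_apply] at e
    rw [Matrix.smul_apply, smul_eq_mul, hν, div_mul_eq_mul_div, e, mul_div_cancel_left₀ _ hk]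
  have hν0 : ν ≠ 0 := fun h0 => by
    rw [h0, zero_smul] at hga
    rw [← hga, Matrix.mul_zero] at ha2
    exact zero_ne_one ha2
  set h := ν⁻¹ • h₀ with hh
  have hzgh : z = a ⊗ₖ h := by
    rw [hgh, ← hga, hh, smul_kronecker, kronecker_smul, smul_smul, mul_inv_cancel₀ hν0, one_smul]
  obtain ⟨i₀⟩ := ‹Nonempty α›
  have hhw : h *ᵥ S.w = S.w := by
    have := hzP
    rw [hzgh, P, kron_lft] at this
    have e2 := congrArg (· * a) this
    simp only [Matrix.mul_assoc, ha2, Matrix.mul_one] at e2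
    funext l
    simpa [lft_apply] using congrFun (congrFun e2 (i₀, l)) i₀
  have hhh : h * h = 1 := by
    have := hz2
    rw [hzgh, ← mul_kronecker_mul, ha2, ← one_kronecker_one (α := F) (m := α) (n := Fin b)] at this
    ext p r
    simpa using congrFun (congrFun this (i₀, p)) (i₀, r)
  have hhs : adj JB JB h = h := by
    have := hadjz
    rw [hzgh, H99.TensorS.adj_kron, hadj] at this
    obtain ⟨i, j, hij⟩ : ∃ i j, a i j ≠ 0 := by
      by_contra h0
      push Not at h0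
      rw [show a = 0 from Matrix.ext h0, Matrix.mul_zero] at ha2
      exact zero_ne_one ha2
    ext p r
    exact mul_left_cancel₀ hij (congrFun (congrFun this (i, p)) (j, r))
  have hbh : ∀ u v, bf JB (h *ᵥ u) v = bf JB u (h *ᵥ v) := fun u v => by
    conv_lhs => rw [← hhs, H99.TensorS.bf_adj H.sB]
  by_cases ham : a = -1
  · -- the central case
    have hxinj : ∀ v, S.x *ᵥ v = 0 → v = 0 := fun v hv => by
      have := hfa v hv
      rw [ham, neg_mulVec, one_mulVec] at this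
      have : (2 : F) • v = 0 := by rw [two_smul]; nth_rw 1 [← this]; exact neg_add_cancel v
      exact (smul_eq_zero.1 this).resolve_left H.two
    have hSd : S.S₀.det ≠ 0 := by
      intro h0
      have hxd : S.x.det = 0 := by
        rw [S.x_eq H, Matrix.det_neg, det_mul, h0, zero_mul, mul_zero]
      obtain ⟨v, hv0, hv⟩ := (Matrix.exists_mulVec_eq_zero_iff (M := S.x)).2 hxd
      exact hv0 (hxinj v hv)
    have hcm : c = -1 := by
      have := congrArg (S.S₀⁻¹ * ·) hS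
      rwa [← Matrix.mul_assoc, Matrix.nonsing_inv_mul _ (isUnit_iff_ne_zero.2 hSd), Matrix.one_mul, ham,
        Matrix.neg_mul, Matrix.one_mul, Matrix.mul_neg, Matrix.nonsing_inv_mul _ (isUnit_iff_ne_zero.2 hSd)] at this
    have hz1 : z = (1 : Matrix α α F) ⊗ₖ (-h) := by
      rw [hzgh, ham]
      ext ⟨i, p⟩ ⟨j, q⟩
      simp
    have he : (-h) = (-1 : F) • (1 : Matrix (Fin b) (Fin b) F) :=
      H.endgame S.hg S.hw₁ hnp (by
        rw [← hz1]
        change z * S.P₁ = _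
        rw [hzP₁, hcm, Matrix.mul_neg, Matrix.mul_one, neg_one_smul]
        rfl)
    have hzneg : z = -1 := by
      rw [hz1, he, kronecker_smul, one_kronecker_one, neg_one_smul]
    rw [hzneg] at hspan
    have h4' : (-2 : F) • (1 : Matrix Ix Ix F) = Matrix.fromCols S.P S.P₁ * Matrix.fromRows C C' := by
      rw [Matrix.fromCols_mul_fromRows, eq_sub_of_add_eq' hspan.symm]
      module
    have := congrArg Matrix.rank h4'
    rw [show ((-2 : F) • (1 : Matrix Ix Ix F)).rank = Fintype.card Ix from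
      rank_of_isUnit _ ((isUnit_iff_isUnit_det _).2 (by
        rw [det_smul, det_one, mul_one]; exact IsUnit.pow _ (IsUnit.mk0 _ (neg_ne_zero.2 H.two))))] at this
    have hle := this.le.trans ((rank_mul_le_left _ _).trans (rank_le_card_width _))
    rw [Fintype.card_prod, Fintype.card_fin, Fintype.card_sum] at hle
    have ha1 : 0 < Fintype.card α := Fintype.card_pos
    have : Fintype.card α * 4 ≤ Fintype.card α * b := Nat.mul_le_mul_left _ h4
    omega
  -- the general case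
  obtain ⟨w₀, hw₀⟩ := H.sB.exists_one S.hw
  set w' := (2 : F)⁻¹ • (w₀ + h *ᵥ w₀) with hw'
  have hhw' : h *ᵥ w' = w' := by
    rw [hw', mulVec_smul, mulVec_add, mulVec_mulVec, hhh, one_mulVec, add_comm]
  have hww' : bf JB S.w w' = 1 := by
    rw [hw', H99.TensorS.bf_smul_right, H99.TensorS.bf_add_right, ← hbh, hhw, hw₀, ← two_mul, mul_one,
      inv_mul_cancel₀ H.two]
  have hw'w : bf JB w' S.w = -1 := by rw [H.sB.swap S.w w', hww']
  obtain ⟨η, u, hη0, hη1, hη2, hu, hηv⟩ : ∃ (η : Fin b → F) (u : α → F), η ≠ 0 ∧ bf JB S.w η = 0 ∧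
      bf JB w' η = 0 ∧ u ≠ 0 ∧ ∃ v, (z - 1) *ᵥ v = lft α η *ᵥ u := by
    by_cases h1 : h = 1
    · obtain ⟨η, hη, hp⟩ := H99.TensorS.exists_perp (J := JB) ![S.w, w'] (by simp; omega)
      obtain ⟨u, hu⟩ : ∃ u, (a - 1) *ᵥ u ≠ 0 := by
        by_contra hc
        push Not at hc
        exact hane (sub_eq_zero.1 (Matrix.ext_of_mulVec_single fun j => by rw [hc, Matrix.zero_mulVec]))
      refine ⟨η, (a - 1) *ᵥ u, hη, hp 0, hp 1, hu, lft α η *ᵥ u, ?_⟩
      rw [mulVec_mulVec, mulVec_mulVec, hzgh, Matrix.sub_mul, kron_lft, h1, one_mulVec, Matrix.one_mul,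
        Matrix.mul_sub, Matrix.mul_one]
    · obtain ⟨η₀, hη₀⟩ : ∃ η₀, h *ᵥ η₀ ≠ η₀ := by
        by_contra hc
        push Not at hc
        exact h1 (Matrix.ext_of_mulVec_single fun j => by rw [hc, one_mulVec])
      set η := η₀ - h *ᵥ η₀ with hη
      have hhη : h *ᵥ η = -η := by rw [hη, mulVec_sub, mulVec_mulVec, hhh, one_mulVec, neg_sub]
      have horth : ∀ p, h *ᵥ p = p → bf JB p η = 0 := fun p hp => by
        have := hbh p η
        rw [hp, hhη, ← neg_one_smul F η, H99.TensorS.bf_smul_right] at this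
        have : (2 : F) * bf JB p η = 0 := by linear_combination this
        exact (mul_eq_zero.1 this).resolve_left H.two
      obtain ⟨u₀, hu₀⟩ : ∃ u₀, (a + 1) *ᵥ u₀ ≠ 0 := by
        by_contra hc
        push Not at hc
        exact ham (eq_neg_of_add_eq_zero_left (Matrix.ext_of_mulVec_single fun j => by rw [hc, Matrix.zero_mulVec]))
      refine ⟨η, (-2 : F) • ((a + 1) *ᵥ u₀), sub_ne_zero.2 hη₀.symm, horth _ hhw, horth _ hhw',
        smul_ne_zero (neg_ne_zero.2 H.two) hu₀, lft α η *ᵥ ((a + 1) *ᵥ u₀), ?_⟩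
      have ea : a * (a + 1) = a + 1 := by rw [Matrix.mul_add, ha2, Matrix.mul_one, add_comm]
      rw [mulVec_mulVec, mulVec_mulVec, hzgh, Matrix.sub_mul, kron_lft, hhη, Matrix.one_mul, ← neg_one_smul F η,
        lft_smul, neg_one_smul, Matrix.sub_mul, Matrix.neg_mul, Matrix.neg_mul, Matrix.mul_assoc, ea, mulVec_smul,
        sub_mulVec, neg_mulVec, mulVec_mulVec]
      module
  set E := LinearMap.range (a - 1).mulVecLin with hE
  set E' := LinearMap.range (c - 1).mulVecLin with hE'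
  set R := LinearMap.range (z - 1).mulVecLin with hR
  have hlow : 2 * Module.finrank F E + 1 ≤ Module.finrank F R := by
    let Ψ : (E × E) × F →ₗ[F] (Ix → F) :=
      ((((lft α S.w).mulVecLin.comp E.subtype).coprod ((lft α w').mulVecLin.comp E.subtype)).coprod
        (LinearMap.toSpanSingleton F (Ix → F) (lft α η *ᵥ u)))
    have hΨ : ∀ p, Ψ p = lft α S.w *ᵥ (p.1.1 : α → F) + lft α w' *ᵥ (p.1.2 : α → F) + p.2 • (lft α η *ᵥ u) :=
      fun p => rfl
    have hmem : LinearMap.range Ψ ≤ R := by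
      rintro _ ⟨⟨⟨⟨e₁, v₁, rfl⟩, e₂, v₂, rfl⟩, r⟩, rfl⟩
      rw [hΨ]
      obtain ⟨v, hv⟩ := hηv
      refine R.add_mem (R.add_mem ⟨lft α S.w *ᵥ v₁, ?_⟩ ⟨lft α w' *ᵥ v₂, ?_⟩) (R.smul_mem _ ⟨v, hv⟩)
      · exact hPD v₁
      · change (z - 1) *ᵥ (lft α w' *ᵥ v₂) = lft α w' *ᵥ ((a - 1) *ᵥ v₂)
        rw [mulVec_mulVec, mulVec_mulVec, hzgh, Matrix.sub_mul, kron_lft, hhw', Matrix.one_mul, Matrix.mul_sub,
          Matrix.mul_one]
    have hinj : Function.Injective Ψ := by
      rw [← LinearMap.ker_eq_bot, LinearMap.ker_eq_bot']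
      rintro ⟨⟨e₁, e₂⟩, r⟩ h0
      rw [hΨ] at h0
      have k1 := congrArg (phi α JB S.w *ᵥ ·) h0
      have k2 := congrArg (phi α JB w' *ᵥ ·) h0
      simp only [mulVec_add, mulVec_smul, mulVec_mulVec, H99.TensorS.phi_lft, H.sB.self, hww', hw'w, hη1, hη2,
        zero_smul, one_smul, Matrix.zero_mulVec, smul_zero, zero_add, add_zero, mulVec_zero, one_mulVec, smul_mulVec,
        neg_one_smul, neg_eq_zero, neg_mulVec] at k1 k2
      have e1 : e₁ = 0 := Subtype.ext k2
      have e2 : e₂ = 0 := Subtype.ext k1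
      subst e1 e2
      simp only [ZeroMemClass.coe_zero, mulVec_zero, zero_add] at h0
      refine Prod.ext rfl ((smul_eq_zero.1 h0).resolve_right fun h => ?_)
      obtain ⟨l, hl⟩ := Function.ne_iff.1 hη0
      exact hu (funext fun j => by
        have e := congrFun h (j, l)
        simp [mulVec, dotProduct, lft_apply] at e
        exact e.resolve_left hl)
    have := (LinearMap.finrank_range_of_inj hinj).symm.le.trans (Submodule.finrank_mono hmem)
    simp only [Module.finrank_prod, Module.finrank_self] at this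
    omega
  have hcle : Module.finrank F E' ≤ Module.finrank F E := by
    refine LinearMap.finrank_le_finrank_of_injective
      (f := (S.S₀.mulVecLin.domRestrict E').codRestrict E ?_) ?_
    · rintro ⟨_, v, rfl⟩
      refine ⟨S.S₀ *ᵥ v, ?_⟩
      change (a - 1) *ᵥ (S.S₀ *ᵥ v) = S.S₀ *ᵥ ((c - 1) *ᵥ v)
      rw [mulVec_mulVec, mulVec_mulVec, Matrix.sub_mul, Matrix.mul_sub, hS, Matrix.one_mul, Matrix.mul_one]
    · rw [← LinearMap.ker_eq_bot, LinearMap.ker_eq_bot']
      rintro ⟨_, v, rfl⟩ h0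
      exact Subtype.ext (hinjc v (congrArg Subtype.val h0))
  have hup : Module.finrank F R ≤ Module.finrank F E + Module.finrank F E' := by
    let Φ : E × E' →ₗ[F] (Ix → F) :=
      (S.P.mulVecLin.comp E.subtype).coprod (S.P₁.mulVecLin.comp E'.subtype)
    have hRle : R ≤ LinearMap.range Φ := by
      rintro _ ⟨v, rfl⟩
      refine ⟨(⟨(a - 1) *ᵥ ((-2 : F)⁻¹ • (C *ᵥ v)), _, rfl⟩, ⟨(c - 1) *ᵥ ((-2 : F)⁻¹ • (C' *ᵥ v)), _, rfl⟩), ?_⟩
      change S.P *ᵥ ((a - 1) *ᵥ _) + S.P₁ *ᵥ ((c - 1) *ᵥ _) = (z - 1) *ᵥ v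
      rw [mulVec_smul, mulVec_smul, mulVec_smul, mulVec_smul, ← smul_add]
      have := congrArg (· *ᵥ v) hX
      simp only [smul_mulVec, add_mulVec, ← mulVec_mulVec] at this
      rw [← this, smul_smul, inv_mul_cancel₀ (neg_ne_zero.2 H.two), one_smul]
    refine (Submodule.finrank_mono hRle).trans ((LinearMap.finrank_range_le Φ).trans ?_)
    rw [Module.finrank_prod]
  omega

end Frames

end Cfsg.Agent.H58.Wreath.Sp
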