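import Cfsg.Agent.H58.Wreath.Sp.Basic

/-!
Elements mapping a layer to a layer are pure tensors; elements that are not pure have no vanishing contraction.
-/

set_option autoImplicit false
set_option linter.unusedSectionVars false

namespace Cfsg.Agent.H58.Wreath.Sp

open Matrix
open Cfsg.Agent.H99.Tensor
open Cfsg.Agent.H99.TensorS (SympMat bf rk adj phi el ct)
open scoped Kronecker

variable {F : Type*} [Field F] {α : Type} [Fintype α] [DecidableEq α] {b : ℕ} {JA : Matrix α α F}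
  {JB : Matrix (Fin b) (Fin b) F}

local notation "Ix" => α × Fin b

variable {M : Subgroup (GL (α × Fin b) F)} (H : Setup JA JB M)
include H

theorem Setup.pos : 2 ≤ b := by
  rcases H.size with ⟨h, -⟩ | h <;> omega

/-- In dimension two every vector is determined by a pair. -/
theorem Setup.two_decomp (hb : b = 2) {z z' : Fin b → F} (h : bf JB z z' = 1) (v : Fin b → F) :
    v = bf JB v z' • z + bf JB z v • z' := by
  set w := v - (bf JB v z' • z + bf JB z v • z') with hw
  have e : bf JB z' z = -1 := by rw [H.sB.swap z z', h]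
  have h1 : bf JB z w = 0 := by
    simp only [hw, H99.TensorS.bf_sub_right, H99.TensorS.bf_add_right, H99.TensorS.bf_smul_right, H.sB.self, h]
    ring
  have h2 : bf JB z' w = 0 := by
    simp only [hw, H99.TensorS.bf_sub_right, H99.TensorS.bf_add_right, H99.TensorS.bf_smul_right, H.sB.self, e,
      H.sB.swap v z']
    ring
  by_contra hne
  have hw0 : w ≠ 0 := sub_ne_zero.2 hne
  have hli : LinearIndependent F ![z, z', w] := by
    rw [Fintype.linearIndependent_iff]
    intro g hg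
    simp only [Fin.sum_univ_three, Matrix.cons_val_zero, Matrix.cons_val_one, Matrix.cons_val_two,
      Matrix.tail_cons, Matrix.head_cons] at hg
    have k1 := congrArg (bf JB z) hg
    have k2 := congrArg (bf JB z') hg
    simp only [H99.TensorS.bf_add_right, H99.TensorS.bf_smul_right, H99.TensorS.bf_zero_right, H.sB.self, h, e,
      h1, h2] at k1 k2
    have g1 : g 1 = 0 := by linear_combination k1
    have g0 : g 0 = 0 := by linear_combination -k2
    rw [g0, g1, zero_smul, zero_smul, zero_add, zero_add, smul_eq_zero] at hg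
    intro i
    fin_cases i
    · exact g0
    · exact g1
    · exact hg.resolve_right hw0
  have := hli.fintype_card_le_finrank
  simp [hb] at this

variable [Nonempty α]

theorem Setup.layer_sq {z z₂ : Fin b → F} (hz₂0 : z₂ ≠ 0) {X : Matrix Ix Ix F} (hX : InM M X)
    {h : Matrix α α F} (hh : X * lft α z = lft α z₂ * h) (hdet : IsUnit h.det) :
    ∃ μ : F, μ ≠ 0 ∧ h * adj JA JA h = μ • (1 : Matrix α α F) := by
  have h1 : InM M (el JA JB z 0 1) := by
    have := H.trans z 1
    rwa [one_smul, ← H99.TensorS.el_scalar (JA := JA)] at this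
  have h2 := H.el_conj hX hh h1
  rw [Matrix.mul_zero, Matrix.zero_mul, Matrix.mul_one, H99.TensorS.el_scalar] at h2
  obtain ⟨μ, hμ⟩ := H.lay z₂ _ hz₂0 h2
  refine ⟨μ, fun h0 => ?_, hμ⟩
  have := congrArg Matrix.det hμ
  rw [h0, zero_smul, det_mul, H99.TensorS.adj_det H.uA, det_zero] at this
  exact (hdet.mul hdet).ne_zero this

/-- The case of a plane. -/
theorem Setup.layer_image_two {r : F} (hr0 : r ≠ 0) (hr : r * r ≠ 1) (hb : b = 2) {z z' : Fin b → F}
    (hzz : bf JB z z' = 1) {X : Matrix Ix Ix F} (hX : InM M X) {h : Matrix α α F}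
    (hh : X * lft α z = lft α z * h) (hdet : IsUnit h.det) : ∃ u : Fin b → F, X * lft α z' = lft α u * h := by
  have hz0 : z ≠ 0 := fun h0 => by rw [h0, H99.TensorS.bf_zero_left] at hzz; exact zero_ne_one hzz
  obtain ⟨μ, hμ0, hμ⟩ := H.layer_sq hz0 hX hh hdet
  have hμ' : adj JA JA h * h = μ • (1 : Matrix α α F) := by
    have e : (μ⁻¹ • adj JA JA h) * h = 1 := mul_eq_one_comm.1 (by
      rw [Matrix.mul_smul, hμ, smul_smul, inv_mul_cancel₀ hμ0, one_smul])
    rw [Matrix.smul_mul] at e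
    rw [← e, smul_smul, mul_inv_cancel₀ hμ0, one_smul]
  have hz'z : bf JB z' z = -1 := by rw [H.sB.swap z z', hzz]
  set J := JA ⊗ₖ JB with hJ
  set Xs := adj J J X with hXs
  have hsplit : ∀ T : Matrix Ix α F, T = lft α z * -(phi α JB z' * T) + lft α z' * (phi α JB z * T) := by
    intro T
    have key : (1 : Matrix Ix Ix F) = -(lft α z * phi α JB z') + lft α z' * phi α JB z := by
      refine ext_lft fun v => ?_
      rw [Matrix.one_mul, Matrix.add_mul, Matrix.neg_mul, Matrix.mul_assoc, Matrix.mul_assoc,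
        H99.TensorS.phi_lft, H99.TensorS.phi_lft, Matrix.mul_smul, Matrix.mul_smul, Matrix.mul_one, Matrix.mul_one,
        ← neg_smul, ← lft_smul, ← lft_smul, ← lft_add, ← H.sB.swap z' v, ← H.two_decomp hb hzz v]
    calc T = (1 : Matrix Ix Ix F) * T := (Matrix.one_mul T).symm
      _ = _ := by rw [key, Matrix.add_mul, Matrix.neg_mul, Matrix.mul_assoc, Matrix.mul_assoc, Matrix.mul_neg]
  set β := -(phi α JB z' * (X * lft α z')) with hβ
  set δ := phi α JB z * (X * lft α z') with hδ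
  set β' := -(phi α JB z' * (Xs * lft α z')) with hβ'
  have hXz' : X * lft α z' = lft α z * β + lft α z' * δ := hsplit _
  have hsz : phi α JB z * Xs = adj JA JA h * phi α JB z := by
    rw [hXs, ← adjA_lft H.uA z, ← H.adjA_mul_iso, hh, adjA_lft_mul H.uA, adjA_lft H.uA]
  have hXsz' : Xs * lft α z' = lft α z * β' + lft α z' * adj JA JA h := by
    have := hsplit (Xs * lft α z')
    rwa [← Matrix.mul_assoc (phi α JB z) Xs, hsz, Matrix.mul_assoc (adj JA JA h), H99.TensorS.phi_lft, hzz, one_smul,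
      Matrix.mul_one] at this
  have hone : lft α z * (h * β' + β * adj JA JA h) + lft α z' * (δ * adj JA JA h) = lft α z' := by
    have : X * (Xs * lft α z') = lft α z' := by rw [← Matrix.mul_assoc, H.unit' hX, Matrix.one_mul]
    rw [hXsz', Matrix.mul_add, ← Matrix.mul_assoc X, ← Matrix.mul_assoc X, hh, hXz', Matrix.add_mul] at this
    conv_rhs => rw [← this]
    simp only [Matrix.mul_add, Matrix.mul_assoc]
    abel
  have hδh : δ * adj JA JA h = 1 := by
    have := congrArg (phi α JB z * ·) hone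
    simpa [Matrix.mul_add, ← Matrix.mul_assoc, H99.TensorS.phi_lft, H.sB.self, hzz] using this
  have hβh : h * β' + β * adj JA JA h = 0 := by
    have := congrArg (phi α JB z' * ·) hone
    refine neg_eq_zero.1 ?_
    rw [neg_add]
    simpa [Matrix.mul_add, ← Matrix.mul_assoc, H99.TensorS.phi_lft, H.sB.self, hz'z] using this
  -- a torus
  obtain ⟨s, hs, hsu, hsz'⟩ := H.right_map hz0 hz0 hr0
  set c := bf JB (s *ᵥ z') z' with hc
  have hsz'' : s *ᵥ z' = c • z + r⁻¹ • z' := by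
    have h1 := H99.TensorS.bf_mulVec H.sB hsu z z'
    rw [hsz', H99.TensorS.bf_smul_left, hzz] at h1
    conv_lhs => rw [H.two_decomp hb hzz (s *ᵥ z')]
    rw [← hc, eq_inv_of_mul_eq_one_right h1]
  have hsr : adj JB JB s *ᵥ z = r⁻¹ • z ∧ adj JB JB s *ᵥ z' = r • z' + (-c) • z := by
    have k : ∀ v, adj JB JB s *ᵥ (s *ᵥ v) = v := fun v => by rw [mulVec_mulVec, hsu, one_mulVec]
    have k1 : adj JB JB s *ᵥ z = r⁻¹ • z := by
      have := k z
      rw [hsz', mulVec_smul] at this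
      conv_rhs => rw [← this, smul_smul, inv_mul_cancel₀ hr0, one_smul]
    refine ⟨k1, ?_⟩
    have := k z'
    rw [hsz'', mulVec_add, mulVec_smul, mulVec_smul, k1, smul_smul] at this
    have h2 := congrArg (r • ·) this
    simp only [smul_add, smul_smul, mul_inv_cancel₀ hr0, one_smul] at h2
    rw [← h2]
    match_scalars <;> field_simp <;> ring
  set Y := ((1 : Matrix α α F) ⊗ₖ adj JB JB s) * (X * ((1 : Matrix α α F) ⊗ₖ s) * Xs) with hY
  have hYM : InM M Y := by
    refine InM.mul ?_ ((hX.mul hs).mul (H.inv hX))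
    have := H.inv hs
    rwa [H99.TensorS.adj_kron, H99.TensorS.adj_one H.uA] at this
  set C₀ := r⁻¹ • ((r⁻¹ - r) • (β * adj JA JA h) + (c * μ) • (1 : Matrix α α F)) - (c * r⁻¹) • (1 : Matrix α α F)
    with hC₀
  have hYz : Y * lft α z = lft α z := by
    have e : Xs * lft α z = lft α z * (μ⁻¹ • adj JA JA h) := by
      have : X * (lft α z * (μ⁻¹ • adj JA JA h)) = lft α z := by
        rw [← Matrix.mul_assoc, hh, Matrix.mul_assoc, Matrix.mul_smul, hμ, smul_smul, inv_mul_cancel₀ hμ0,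
          one_smul, Matrix.mul_one]
      calc Xs * lft α z = Xs * (X * (lft α z * (μ⁻¹ • adj JA JA h))) := by rw [this]
        _ = _ := by rw [← Matrix.mul_assoc, H.unit hX, Matrix.one_mul]
    rw [hY, Matrix.mul_assoc, Matrix.mul_assoc (X * _), e, Matrix.mul_assoc X, ← Matrix.mul_assoc _ (lft α z),
      kron_lft, hsz', Matrix.mul_one, lft_smul, Matrix.smul_mul, Matrix.mul_smul, ← Matrix.mul_assoc X, hh,
      Matrix.mul_assoc (lft α z), Matrix.mul_smul h, hμ, smul_smul, inv_mul_cancel₀ hμ0, one_smul, Matrix.mul_one,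
      Matrix.mul_smul, kron_lft, hsr.1, Matrix.mul_one, lft_smul, smul_smul, mul_inv_cancel₀ hr0, one_smul]
  have hYz' : Y * lft α z' = lft α z * C₀ + lft α z' := by
    have e1 : X * ((1 : Matrix α α F) ⊗ₖ s) * (Xs * lft α z') =
        lft α z * ((r⁻¹ - r) • (β * adj JA JA h) + (c * μ) • (1 : Matrix α α F)) + r⁻¹ • lft α z' := by
      rw [hXsz', Matrix.mul_assoc X, Matrix.mul_add, ← Matrix.mul_assoc _ (lft α z), ← Matrix.mul_assoc _ (lft α z'),
        kron_lft, kron_lft, hsz', hsz'', Matrix.mul_one, Matrix.mul_one, lft_add, lft_smul, lft_smul, lft_smul]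
      simp only [Matrix.mul_add, Matrix.add_mul, Matrix.smul_mul, Matrix.mul_smul, ← Matrix.mul_assoc, hh, hXz']
      simp only [Matrix.mul_assoc, hμ, hδh, Matrix.mul_smul, Matrix.mul_one]
      have e3 : h * β' = -(β * adj JA JA h) := eq_neg_of_add_eq_zero_left hβh
      rw [e3, Matrix.mul_neg]
      module
    rw [hY, Matrix.mul_assoc, Matrix.mul_assoc (X * _), e1, Matrix.mul_add, ← Matrix.mul_assoc, kron_lft, hsr.1,
      Matrix.mul_one, Matrix.mul_smul, kron_lft, hsr.2, Matrix.mul_one, lft_smul, lft_add, lft_smul, lft_smul, hC₀]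
    simp only [Matrix.mul_add, Matrix.mul_sub, Matrix.smul_mul, Matrix.mul_smul, Matrix.mul_one, smul_add,
      smul_smul, inv_mul_cancel₀ hr0]
    module
  have hYeq : Y = 1 + C₀ ⊗ₖ rk JB z z := by
    refine ext_lft fun v => ?_
    rw [H.two_decomp hb hzz v]
    simp only [lft_add, lft_smul, Matrix.mul_add, Matrix.mul_smul, hYz, hYz', Matrix.add_mul, Matrix.one_mul,
      kron_lft, H99.TensorS.rk_mulVec, H.sB.self, hzz, zero_smul, one_smul, lft_zero, Matrix.zero_mul, add_zero,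
      smul_add, smul_zero]
    abel
  obtain ⟨k, hk⟩ := H.lay z C₀ hz0 (hYeq ▸ hYM)
  obtain ⟨c', hc'⟩ : ∃ c' : F, β * adj JA JA h = c' • (1 : Matrix α α F) := by
    have hne : r⁻¹ * (r⁻¹ - r) ≠ 0 := mul_ne_zero (inv_ne_zero hr0) fun h0 => hr (by
      field_simp at h0; linear_combination -h0)
    refine ⟨(k + c * r⁻¹ - r⁻¹ * (c * μ)) / (r⁻¹ * (r⁻¹ - r)), ?_⟩
    have e : (r⁻¹ * (r⁻¹ - r)) • (β * adj JA JA h) =
        (k + c * r⁻¹ - r⁻¹ * (c * μ)) • (1 : Matrix α α F) := by
      rw [sub_smul, add_smul, ← hk, hC₀]; module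
    rw [div_eq_inv_mul, mul_smul, ← e, smul_smul, inv_mul_cancel₀ hne, one_smul]
  refine ⟨(μ⁻¹ * c') • z + μ⁻¹ • z', ?_⟩
  have k1 : β = (μ⁻¹ * c') • h := by
    have := congrArg (· * h) hc'
    simp only [Matrix.mul_assoc, hμ', Matrix.mul_smul, Matrix.mul_one, Matrix.smul_mul, Matrix.one_mul] at this
    rw [mul_smul, ← this, smul_smul, inv_mul_cancel₀ hμ0, one_smul]
  have k2 : δ = μ⁻¹ • h := by
    have := congrArg (· * h) hδh
    simp only [Matrix.mul_assoc, hμ', Matrix.mul_smul, Matrix.mul_one, Matrix.one_mul] at this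
    rw [← this, smul_smul, inv_mul_cancel₀ hμ0, one_smul]
  rw [hXz', k1, k2, lft_add, lft_smul, lft_smul, Matrix.add_mul, Matrix.smul_mul, Matrix.smul_mul, Matrix.mul_smul,
    Matrix.mul_smul]

/-- An element mapping a layer to a layer maps the neighbouring layers to layers. -/
theorem Setup.layer_image (h4 : 4 ≤ b) {z z₂ : Fin b → F} (hz0 : z ≠ 0) (hz₂0 : z₂ ≠ 0) {X : Matrix Ix Ix F}
    (hX : InM M X) {h : Matrix α α F} (hh : X * lft α z = lft α z₂ * h) (hdet : IsUnit h.det) {η : Fin b → F}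
    (hη : bf JB z η = 0) : ∃ u : Fin b → F, X * lft α η = lft α u * h := by
  by_cases hηz : ∀ t : F, η ≠ t • z
  swap
  · push Not at hηz
    obtain ⟨t, rfl⟩ := hηz
    exact ⟨t • z₂, by rw [lft_smul, lft_smul, Matrix.mul_smul, hh, Matrix.smul_mul]⟩
  obtain ⟨i⟩ := ‹Nonempty α›
  set J := JA ⊗ₖ JB with hJ
  obtain ⟨μ, hμ0, hμ⟩ := H.layer_sq hz₂0 hX hh hdet
  have hμ' : adj JA JA h * h = μ • (1 : Matrix α α F) := by
    have e : (μ⁻¹ • adj JA JA h) * h = 1 := mul_eq_one_comm.1 (by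
      rw [Matrix.mul_smul, hμ, smul_smul, inv_mul_cancel₀ hμ0, one_smul])
    rw [Matrix.smul_mul] at e
    rw [← e, smul_smul, mul_inv_cancel₀ hμ0, one_smul]
  have hh' : phi α JB z * adj J J X = adj JA JA h * phi α JB z₂ := by
    rw [← adjA_lft H.uA z, ← H.adjA_mul_iso, hh, adjA_lft_mul H.uA]
  set A := X * lft α η * adj JA JA h with hA
  have hel : InM M (el JA JB z₂ A 0) := by
    have h2 := H.el_conj hX hh (H.root_el (α := α) hη)
    rwa [Matrix.mul_one, Matrix.mul_zero, Matrix.zero_mul, ← hA] at h2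
  have hzA : phi α JB z₂ * A = 0 := by
    have e : adj JA JA h * (phi α JB z₂ * A) = 0 := by
      rw [← Matrix.mul_assoc, ← hh', hA, Matrix.mul_assoc (phi α JB z), ← Matrix.mul_assoc (adj J J X),
        ← Matrix.mul_assoc (adj J J X), H.unit hX, Matrix.one_mul, ← Matrix.mul_assoc, H99.TensorS.phi_lft, hη,
        zero_smul, Matrix.zero_mul]
    have := congrArg (h * ·) e
    rw [← Matrix.mul_assoc, hμ, Matrix.mul_zero, Matrix.smul_mul, Matrix.one_mul, smul_eq_zero] at this
    exact this.resolve_left hμ0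
  clear_value A
  obtain ⟨z', hz'⟩ := H.sB.exists_one (u := -z₂) (neg_ne_zero.2 hz₂0)
  have hz'2 : bf JB z' z₂ = 1 := by
    rw [H.sB.swap z₂ z', ← hz', ← neg_one_smul F z₂, H99.TensorS.bf_smul_left, neg_one_mul]
  set K := phi α JB z' * A with hK
  obtain ⟨u, hu⟩ := eq_lft (A - lft α z₂ * K) fun φ => by
    set ξ := φ ᵥ* JB⁻¹ with hξ
    have hξ₀ : bf JB z₂ (ξ - bf JB ξ z₂ • z') = 0 := by
      rw [H.sB.zero_comm, H99.TensorS.bf_sub_left, H99.TensorS.bf_smul_left, hz'2, mul_one, sub_self]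
    obtain ⟨c, hc⟩ := H.el_contract hz₂0 hzA hel hξ₀
    refine ⟨c, ?_⟩
    rw [← hc, ← H99.TensorS.phi_eq_rgt H.sB φ, ← hξ, sub_eq_add_neg ξ, H99.TensorS.phi_add, ← neg_smul,
      H99.TensorS.phi_smul, Matrix.mul_sub, ← Matrix.mul_assoc, H99.TensorS.phi_lft, hK, Matrix.add_mul,
      Matrix.smul_mul, Matrix.smul_mul, Matrix.one_mul, neg_smul, sub_eq_add_neg]
  have hsum : A = lft α u + lft α z₂ * K := eq_add_of_sub_eq hu
  have hu0 : bf JB z₂ u = 0 := by
    have := congrArg (phi α JB z₂ * ·) hu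
    rw [Matrix.mul_sub, hzA, ← Matrix.mul_assoc, H99.TensorS.phi_lft, H99.TensorS.phi_lft, H.sB.self, zero_smul,
      Matrix.zero_mul, sub_zero] at this
    simpa using (congrFun (congrFun this i) i).symm
  have hXh : X * lft α η = μ⁻¹ • (A * h) := by
    rw [hA, Matrix.mul_assoc (X * lft α η), hμ', Matrix.mul_smul, Matrix.mul_one, smul_smul, inv_mul_cancel₀ hμ0,
      one_smul]
  have huz : ∀ t : F, u ≠ t • z₂ := by
    rintro t rfl
    have hinj : lft α η = lft α z * ((μ⁻¹ * μ⁻¹) • (adj JA JA h * ((t • (1 : Matrix α α F) + K) * h))) := by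
      have e : X * lft α η = X * (lft α z * ((μ⁻¹ * μ⁻¹) • (adj JA JA h * ((t • (1 : Matrix α α F) + K) * h)))) := by
        rw [hXh, hsum, lft_smul, Matrix.mul_smul, Matrix.mul_smul, ← Matrix.mul_assoc X, hh,
          Matrix.mul_assoc (lft α z₂), ← Matrix.mul_assoc h, hμ, Matrix.smul_mul, Matrix.one_mul, Matrix.mul_smul,
          smul_smul, Matrix.add_mul, Matrix.add_mul, Matrix.mul_add, Matrix.smul_mul, Matrix.smul_mul,
          Matrix.one_mul, Matrix.mul_smul, Matrix.mul_assoc (lft α z₂) K]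
        rw [mul_assoc, inv_mul_cancel₀ hμ0, mul_one]
      have := congrArg (adj J J X * ·) e
      rwa [← Matrix.mul_assoc, ← Matrix.mul_assoc, H.unit hX, Matrix.one_mul, Matrix.one_mul] at this
    obtain ⟨e, -, hez, heη⟩ := H.sB.sep₁ hηz
    have := congrArg (phi α JB e * ·) hinj
    rw [H99.TensorS.phi_lft, ← Matrix.mul_assoc, H99.TensorS.phi_lft, hez, heη, zero_smul, one_smul,
      Matrix.zero_mul] at this
    exact one_ne_zero this
  have hel2 : InM M (el JA JB z₂ (lft α u * (μ⁻¹ • adj JA JA K)) (μ⁻¹ • (K * adj JA JA K))) := by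
    have h1 : InM M (1 + lft α η * phi α JB η) := by
      have := H.right (α := α) η 1
      rwa [one_smul, kronecker_add, one_kronecker_one, ← H99.TensorS.lft_phi] at this
    have h2 := H.conj h1 hX
    rw [← hJ, ← Matrix.mul_assoc X, Matrix.mul_assoc (X * lft α η), ← adjA_lft H.uA η, ← H.adjA_mul_iso, hXh,
      H99.TensorS.adjA_smul, adjA_mul H.uA, Matrix.smul_mul, Matrix.mul_smul, smul_smul, Matrix.mul_assoc A h,
      ← Matrix.mul_assoc h, hμ, Matrix.smul_mul, Matrix.one_mul, Matrix.mul_smul, smul_smul, mul_assoc,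
      inv_mul_cancel₀ hμ0, mul_one] at h2
    have h3 : InM M (1 - μ⁻¹ • (lft α u * phi α JB u)) := by
      have := H.right (α := α) u (-μ⁻¹)
      rw [kronecker_add, one_kronecker_one, kronecker_smul, ← H99.TensorS.lft_phi, neg_smul] at this
      rwa [sub_eq_add_neg]
    have h4 := h3.mul h2
    convert h4 using 1
    have k0 : ∀ T : Matrix α Ix F, phi α JB u * (lft α u * T) = 0 := fun T => by
      rw [← Matrix.mul_assoc, H99.TensorS.phi_lft, H.sB.self, zero_smul, Matrix.zero_mul]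
    have k1 : ∀ T : Matrix α Ix F, phi α JB u * (lft α z₂ * T) = 0 := fun T => by
      rw [← Matrix.mul_assoc, H99.TensorS.phi_lft, H.sB.zero_comm.1 hu0, zero_smul, Matrix.zero_mul]
    rw [el, adjA_lft_mul H.uA, H99.TensorS.adj_smul, H.adjAA, hsum, H99.TensorS.adj_add, adjA_lft H.uA,
      adjA_lft_mul H.uA]
    simp only [Matrix.mul_add, Matrix.add_mul, Matrix.sub_mul, Matrix.smul_mul, Matrix.mul_smul, Matrix.mul_assoc,
      k0, k1, Matrix.one_mul, Matrix.mul_one, Matrix.mul_zero, smul_zero, smul_add, sub_zero, add_zero]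
    abel
  obtain ⟨k, hk⟩ : ∃ k : F, μ⁻¹ • adj JA JA K = k • (1 : Matrix α α F) := by
    obtain ⟨e, hze, -, heu⟩ := H.sB.sep₁ huz
    obtain ⟨c, hc⟩ := H.el_contract hz₂0 (H.phi_mul_lft_zero hu0 _) hel2 hze
    rw [← Matrix.mul_assoc, H99.TensorS.phi_lft, heu, one_smul, Matrix.one_mul] at hc
    exact ⟨c, hc⟩
  have hK' : K = (μ * k) • (1 : Matrix α α F) := by
    have := congrArg (fun Z => adj JA JA (μ • Z)) hk
    simp only [smul_smul, mul_inv_cancel₀ hμ0, one_smul, H.adjAA, H99.TensorS.adj_smul,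
      H99.TensorS.adj_one H.uA] at this
    exact this
  refine ⟨μ⁻¹ • (u + (μ * k) • z₂), ?_⟩
  rw [hXh, hsum, hK', Matrix.mul_smul, Matrix.mul_one, lft_smul, lft_add, lft_smul, Matrix.smul_mul]

/-- An element mapping a layer to a layer is a pure tensor. -/
theorem Setup.pure_of_layer {z z₂ : Fin b → F} (hz0 : z ≠ 0) (hz₂0 : z₂ ≠ 0) {X : Matrix Ix Ix F} (hX : InM M X)
    {h : Matrix α α F} (hh : X * lft α z = lft α z₂ * h) (hdet : IsUnit h.det) : IsPure X := by
  obtain ⟨z', hz'⟩ := H.sB.exists_one hz0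
  rcases H.size with ⟨hb, r, hr0, hr⟩ | h4
  · obtain ⟨k, hk, hku, hkz⟩ := H.right_map hz₂0 hz0 (one_ne_zero (α := F))
    rw [one_smul] at hkz
    have hh₁ : ((1 : Matrix α α F) ⊗ₖ k) * X * lft α z = lft α z * h := by
      rw [Matrix.mul_assoc, hh, ← Matrix.mul_assoc, kron_lft, hkz, Matrix.mul_one]
    obtain ⟨u₁, hu₁⟩ := H.layer_image_two hr0 hr hb hz' (hk.mul hX) hh₁ hdet
    refine pure_of_all (h := h) fun v => ⟨bf JB v z' • z₂ + bf JB z v • adj JB JB k *ᵥ u₁, ?_⟩
    have e : X * lft α z' = lft α (adj JB JB k *ᵥ u₁) * h := by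
      have h1 := congrArg (((1 : Matrix α α F) ⊗ₖ adj JB JB k) * ·) hu₁
      rw [← Matrix.mul_assoc, ← Matrix.mul_assoc, ← mul_kronecker_mul, hku, Matrix.one_mul, one_kronecker_one,
        Matrix.one_mul, ← Matrix.mul_assoc, kron_lft, Matrix.mul_one] at h1
      exact h1
    conv_lhs => rw [H.two_decomp hb hz' v]
    simp only [lft_add, lft_smul, Matrix.mul_add, Matrix.mul_smul, hh, e, Matrix.add_mul, Matrix.smul_mul]
  obtain ⟨i⟩ := ‹Nonempty α›
  obtain ⟨η₀, hη₀0, hp⟩ := H99.TensorS.exists_perp (J := JB) ![z, z'] (by simp; omega)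
  have hzη : bf JB z η₀ = 0 := hp 0
  have hz'η : bf JB η₀ z' = 0 := H.sB.zero_comm.1 (hp 1)
  obtain ⟨f₀, hf₀⟩ := H.layer_image h4 hz0 hz₂0 hX hh hdet hzη
  have hf₀0 : f₀ ≠ 0 := by
    intro h0
    rw [h0, lft_zero, Matrix.zero_mul] at hf₀
    have := congrArg (adj (JA ⊗ₖ JB) (JA ⊗ₖ JB) X * ·) hf₀
    rw [← Matrix.mul_assoc, H.unit hX, Matrix.one_mul, Matrix.mul_zero] at this
    obtain ⟨k, hk⟩ := Function.ne_iff.1 hη₀0
    exact hk (by simpa [lft_apply] using congrFun (congrFun this (i, k)) i)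
  refine pure_of_all (h := h) fun v => ?_
  obtain ⟨u₁, hu₁⟩ := H.layer_image h4 hz0 hz₂0 hX hh hdet (η := v - bf JB z v • z')
    (by rw [H99.TensorS.bf_sub_right, H99.TensorS.bf_smul_right, hz']; ring)
  obtain ⟨u₂, hu₂⟩ := H.layer_image h4 hη₀0 hf₀0 hX hf₀ hdet (η := bf JB z v • z')
    (by rw [H99.TensorS.bf_smul_right, hz'η, mul_zero])
  refine ⟨u₁ + u₂, ?_⟩
  rw [lft_add, Matrix.add_mul, ← hu₁, ← hu₂, ← Matrix.mul_add, ← lft_add, sub_add_cancel]

theorem Setup.isPure_adj {X : Matrix Ix Ix F} (h : IsPure (adj (JA ⊗ₖ JB) (JA ⊗ₖ JB) X)) : IsPure X := by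
  obtain ⟨g, k, hgk⟩ := h
  exact ⟨adj JA JA g, adj JB JB k, by rw [← H99.TensorS.adj_kron, ← hgk, H.adjJJ]⟩

/-- Contractions of elements that are not pure do not vanish. -/
theorem Setup.ct_ne {X : Matrix Ix Ix F} (hX : InM M X) (hnp : ¬ IsPure X) {x₁ z : Fin b → F} (hx0 : x₁ ≠ 0)
    (hz0 : z ≠ 0) : ct α JB X x₁ z ≠ 0 := by
  intro hzero
  obtain ⟨i⟩ := ‹Nonempty α›
  rcases H.size with ⟨hb, -⟩ | h4
  · obtain ⟨x', hx'⟩ := H.sB.exists_one hx0
    set h := -(phi α JB x' * (X * lft α z)) with hh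
    have hX1 : X * lft α z = lft α x₁ * h := by
      refine Matrix.ext fun p j => ?_
      have key : X * lft α z = lft α x₁ * -(phi α JB x' * (X * lft α z)) + lft α x' * (phi α JB x₁ * (X * lft α z)) := by
        have key : (1 : Matrix Ix Ix F) = -(lft α x₁ * phi α JB x') + lft α x' * phi α JB x₁ := by
          refine ext_lft fun v => ?_
          rw [Matrix.one_mul, Matrix.add_mul, Matrix.neg_mul, Matrix.mul_assoc, Matrix.mul_assoc,
            H99.TensorS.phi_lft, H99.TensorS.phi_lft, Matrix.mul_smul, Matrix.mul_smul, Matrix.mul_one,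
            Matrix.mul_one, ← neg_smul, ← lft_smul, ← lft_smul, ← lft_add, ← H.sB.swap x' v,
            ← H.two_decomp hb hx' v]
        calc X * lft α z = (1 : Matrix Ix Ix F) * (X * lft α z) := (Matrix.one_mul _).symm
          _ = _ := by rw [key, Matrix.add_mul, Matrix.neg_mul, Matrix.mul_assoc, Matrix.mul_assoc, Matrix.mul_neg]
      rw [ct, Matrix.mul_assoc] at hzero
      rw [hzero, Matrix.mul_zero, add_zero, ← hh] at key
      rw [key]
    refine hnp (H.pure_of_layer hz0 hx0 hX hX1 (isUnit_iff_ne_zero.2 fun h0 => ?_))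
    obtain ⟨v, hv0, hv⟩ := (Matrix.exists_mulVec_eq_zero_iff (M := h)).2 h0
    have e := congrArg (fun T => (adj (JA ⊗ₖ JB) (JA ⊗ₖ JB) X * T) *ᵥ v) hX1
    simp only [← Matrix.mul_assoc, H.unit hX, Matrix.one_mul] at e
    rw [← mulVec_mulVec _ _ h, hv, mulVec_zero] at e
    obtain ⟨k, hk⟩ := Function.ne_iff.1 hz0
    refine hv0 (funext fun j => ?_)
    have := congrFun e (j, k)
    simp [mulVec, dotProduct, lft_apply] at this
    exact this.resolve_left hk
  set J := JA ⊗ₖ JB with hJ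
  set Y := adj J J X * lft α x₁ with hY
  set K := phi α JB x₁ * X with hK
  have hKz : K * lft α z = 0 := hzero
  have hKY : adj JA J Y = K := by rw [hY, H.adjA_mul_iso, adjA_lft H.uA, H.adjJJ]
  have hYinj : ∀ T : Matrix α α F, Y * T = 0 → T = 0 := fun T hT => by
    have e := congrArg (X * ·) hT
    rw [hY, ← Matrix.mul_assoc, ← Matrix.mul_assoc, H.unit' hX, Matrix.one_mul, Matrix.mul_zero] at e
    exact lft_injective hx0 (e.trans (Matrix.mul_zero _).symm)
  set S := (1 : Matrix Ix Ix F) + Y * K with hS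
  have hSM : InM M S := by
    have h1 : InM M (1 + lft α x₁ * phi α JB x₁) := by
      have := H.right (α := α) x₁ 1
      rwa [one_smul, kronecker_add, one_kronecker_one, ← H99.TensorS.lft_phi] at this
    have h2 := H.conj h1 (H.inv hX)
    rwa [H.adjJJ, ← hJ, ← Matrix.mul_assoc (adj J J X), Matrix.mul_assoc, ← hY, ← hK] at h2
  have hSz : S * lft α z = lft α z * (1 : Matrix α α F) := by
    rw [hS, Matrix.add_mul, Matrix.one_mul, Matrix.mul_one, Matrix.mul_assoc, hKz, Matrix.mul_zero, add_zero]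
  have hkey : ∀ η η' : Fin b → F, bf JB z η = 0 →
      ∃ c : F, (phi α JB η' * Y) * (K * lft α η) = c • (1 : Matrix α α F) := by
    intro η η' hη
    obtain ⟨u, hu⟩ := H.layer_image h4 hz0 hz0 hSM hSz (by simp) hη
    refine ⟨bf JB η' u - bf JB η' η, ?_⟩
    have e := congrArg (phi α JB η' * ·) hu
    simp only [Matrix.mul_one, hS, Matrix.add_mul, Matrix.one_mul, Matrix.mul_add, H99.TensorS.phi_lft] at e
    rw [sub_smul, ← e, add_sub_cancel_left]
    simp only [Matrix.mul_assoc]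
  have hKv : ∀ v : Fin b → F, K * lft α v = -adj JA JA (phi α JB v * Y) := fun v => by
    rw [H99.TensorS.adj_mul H.unitJ, H.adj_phi, ← hJ, hKY, Matrix.mul_neg, neg_neg]
  obtain ⟨L₀, hL⟩ : ∃ L₀ : Matrix α α F, ∀ v : Fin b → F, ∃ c : F, K * lft α v = c • L₀ := by
    obtain ⟨z', hz'⟩ := H.sB.exists_one hz0
    by_cases hall : ∀ η, bf JB z η = 0 → K * lft α η = 0
    · refine ⟨K * lft α z', fun v => ⟨bf JB z v, ?_⟩⟩
      have := hall (v - bf JB z v • z') (by rw [H99.TensorS.bf_sub_right, H99.TensorS.bf_smul_right, hz']; ring)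
      rw [sub_eq_add_neg, ← neg_smul, lft_add, lft_smul, Matrix.mul_add, Matrix.mul_smul, neg_smul,
        add_neg_eq_zero] at this
      exact this
    push Not at hall
    obtain ⟨η, hη, hη0⟩ := hall
    have hinv : IsUnit (K * lft α η).det := by
      obtain ⟨k, hk⟩ : ∃ k : Fin b, phi α JB (Pi.single k (1 : F) ᵥ* JB⁻¹) * (Y * (K * lft α η)) ≠ 0 := by
        by_contra hc
        push Not at hc
        refine hη0 (hYinj _ ?_)
        ext ⟨j, k⟩ l
        have := congrFun (congrFun (hc k) j) l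
        rwa [H99.TensorS.phi_eq_rgt H.sB, rgt_single_mul] at this
      obtain ⟨c, hc⟩ := hkey η (Pi.single k (1 : F) ᵥ* JB⁻¹) hη
      rw [Matrix.mul_assoc] at hc
      have hc0 : c ≠ 0 := fun h0 => hk (by rw [hc, h0, zero_smul])
      rw [← Matrix.mul_assoc] at hc
      have := congrArg Matrix.det hc
      rw [det_mul, det_smul, det_one, mul_one] at this
      exact IsUnit.mk0 _ (right_ne_zero_of_mul (this ▸ pow_ne_zero _ hc0))
    refine ⟨adj JA JA (K * lft α η)⁻¹, fun v => ?_⟩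
    obtain ⟨c, hc⟩ := hkey η v hη
    refine ⟨-c, ?_⟩
    have e := congrArg (· * (K * lft α η)⁻¹) hc
    simp only [Matrix.mul_nonsing_inv_cancel_right _ _ hinv, Matrix.smul_mul, Matrix.one_mul] at e
    rw [hKv, e, H99.TensorS.adj_smul, neg_smul]
  have hL0 : IsUnit L₀.det := by
    rw [isUnit_iff_ne_zero]
    intro hdet
    obtain ⟨a, ha, haL⟩ := (Matrix.exists_vecMul_eq_zero_iff (M := L₀)).2 hdet
    have haK : a ᵥ* K = 0 := by
      funext ⟨j, k⟩
      obtain ⟨c, hc⟩ := hL (Pi.single k 1)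
      have : a ᵥ* (K * lft α (Pi.single k (1 : F))) = 0 := by rw [hc, vecMul_smul, haL, smul_zero]
      have := congrFun this j
      simpa [vecMul, dotProduct, mul_lft_single] using this
    obtain ⟨x', hx'⟩ := H.sB.exists_one hx0
    have := congrArg (· ᵥ* (adj J J X * lft α x')) haK
    simp only [vecMul_vecMul, zero_vecMul] at this
    rw [hK, Matrix.mul_assoc, ← Matrix.mul_assoc X, H.unit' hX, Matrix.one_mul, H99.TensorS.phi_lft, hx', one_smul,
      vecMul_one] at this
    exact ha this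
  obtain ⟨ψ, hψ⟩ := eq_rgt (L₀⁻¹ * K) fun v => by
    obtain ⟨c, hc⟩ := hL v
    exact ⟨c, by rw [Matrix.mul_assoc, hc, Matrix.mul_smul, Matrix.nonsing_inv_mul _ hL0]⟩
  set ψ' := ψ ᵥ* JB⁻¹ with hψ'
  have hKψ : K = L₀ * phi α JB ψ' := by
    rw [hψ', H99.TensorS.phi_eq_rgt H.sB, ← hψ, ← Matrix.mul_assoc, Matrix.mul_nonsing_inv _ hL0, Matrix.one_mul]
  have hlay : adj J J X * lft α x₁ = lft α ψ' * adj JA JA L₀ := by
    have := congrArg (adj J JA) hKψ
    rw [← hKY, H.adj_down, H99.TensorS.adj_mul H.uA, H.adj_phi, Matrix.neg_mul, neg_inj] at this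
    exact hY ▸ this
  have hdetL : IsUnit (adj JA JA L₀).det := by rw [H99.TensorS.adj_det H.uA]; exact hL0
  have hψ0 : ψ' ≠ 0 := fun h0 => by
    rw [h0, lft_zero, Matrix.zero_mul] at hlay
    have := congrArg (X * ·) hlay
    rw [← Matrix.mul_assoc, H.unit' hX, Matrix.one_mul, Matrix.mul_zero] at this
    obtain ⟨k, hk⟩ := Function.ne_iff.1 hx0
    exact hk (by simpa [lft_apply] using congrFun (congrFun this (i, k)) i)
  exact hnp (H.isPure_adj (H.pure_of_layer hx0 hψ0 (H.inv hX) hlay hdetL))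

end Cfsg.Agent.H58.Wreath.Sp
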