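import Cfsg.Agent.H58.Wreath.Sp.SLTools

/-!
For a two-dimensional right factor the nonzero residues of the invariant lie in the ground field.
-/

set_option autoImplicit false
set_option linter.unusedSectionVars false

namespace Cfsg.Agent.H58.Wreath.Sp

open Matrix
open Cfsg.Agent.H99.Tensor
open Cfsg.Agent.H99.TensorS (SympMat bf rk adj phi el ct)
open scoped Kronecker MatrixGroups

variable {F : Type*} [Field F] {α : Type} [Fintype α] [DecidableEq α] {b : ℕ} {JA : Matrix α α F}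
  {JB : Matrix (Fin b) (Fin b) F} {M : Subgroup (GL (α × Fin b) F)}

local notation "Ix" => α × Fin b

theorem Setup.size_two (H : Setup JA JB M) (hb : b = 2) : ∃ r : F, r ≠ 0 ∧ r * r ≠ 1 := by
  rcases H.size with ⟨-, h⟩ | h
  · exact h
  · omega

theorem uni_mul {ι : Type} [Fintype ι] [DecidableEq ι] {A : Matrix ι ι F} (hA : A * A = 0) (d e : F) :
    uni A hA d * uni A hA e = uni A hA (d + e) := by
  refine Units.ext ?_
  simp only [uni, Units.val_mul, Matrix.add_mul, Matrix.mul_add, Matrix.one_mul, Matrix.mul_one, Matrix.smul_mul,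
    Matrix.mul_smul, hA, smul_zero, add_zero]
  module

namespace Frames

variable (S : Frames JA JB M) (H : Setup JA JB M)
include H

/-- A generator of the root group in the plane group. -/
noncomputable def gA (d : F) : GL Ix F × SL(2, Sx S.x) × SL(2, Sx S.x₁) :=
  (uni S.A (S.A_sq H) d, up (d • th S.x), lo (d • (1 : Sx S.x₁)))

/-- A generator of the conjugate root group in the plane group. -/
noncomputable def gB (d : F) : GL Ix F × SL(2, Sx S.x) × SL(2, Sx S.x₁) :=
  (uni S.B (S.B_sq H) d, lo (d • (1 : Sx S.x)), up (d • th S.x₁))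

theorem gA_mem (d : F) : S.gA H d ∈ S.K H := Subgroup.subset_closure (Or.inl ⟨d, rfl⟩)

theorem gB_mem (d : F) : S.gB H d ∈ S.K H := Subgroup.subset_closure (Or.inr ⟨d, rfl⟩)

theorem gA_zero : S.gA H 0 = 1 := by
  rw [gA, zero_smul, zero_smul, up_zero, lo_zero, show uni S.A (S.A_sq H) 0 = 1 from Units.ext (by simp [uni])]
  rfl

theorem gA_add (d e : F) : S.gA H d * S.gA H e = S.gA H (d + e) := by
  rw [gA, gA, gA, Prod.mk_mul_mk, Prod.mk_mul_mk, uni_mul, up_mul, lo_mul, add_smul, add_smul]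

theorem gA_pow (n : ℕ) : S.gA H 1 ^ n = S.gA H n := by
  induction n with
  | zero => rw [pow_zero, Nat.cast_zero, S.gA_zero H]
  | succ n ih => rw [pow_succ, ih, S.gA_add H, Nat.cast_succ]

theorem A_ne [Nonempty α] : S.A ≠ 0 := by
  intro h
  obtain ⟨v, hv⟩ := H.sB.exists_one S.hw
  obtain ⟨i⟩ := ‹Nonempty α›
  obtain ⟨l, hl⟩ := Function.ne_iff.1 S.hw
  have e : S.A * lft α v = S.P := by
    rw [A, rootR_eq, Matrix.mul_assoc, H99.TensorS.phi_lft, hv, one_smul, Matrix.mul_one, P]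
  rw [h, Matrix.zero_mul] at e
  exact hl (by simpa [P, lft_apply] using (congrFun (congrFun e (i, l)) i).symm)

/-- A conjugate of the root commuting with it comes from an element commuting with it. -/
theorem comm_of_conj [Nonempty α] [Finite F] (hb : b = 2) {p : ℕ} [Fact p.Prime] [CharP F p]
    {k : GL Ix F × SL(2, Sx S.x) × SL(2, Sx S.x₁)} (hk : k ∈ S.K H) {j : ℕ} (hj : k.1 ^ p ^ j = 1)
    {E : Type*} [Field E] (π : Sx S.x →+* E) (hθ : π (th S.x) ≠ 0) (ha : π (k.2.1 0 0) = 1)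
    (hc : Commute (k.1 * uni S.A (S.A_sq H) 1 * k.1⁻¹) (uni S.A (S.A_sq H) 1)) :
    Commute k.1 (uni S.A (S.A_sq H) 1) := by
  have hM := S.K_inM H hk
  set Y := (k.1 : Matrix Ix Ix F) with hY
  set A' := Y * S.A * adj (JA ⊗ₖ JB) (JA ⊗ₖ JB) Y with hA'
  have huY : adj (JA ⊗ₖ JB) (JA ⊗ₖ JB) Y * Y = 1 := H.unit hM
  have huY' : Y * adj (JA ⊗ₖ JB) (JA ⊗ₖ JB) Y = 1 := H.unit' hM
  have hinv : ((k.1⁻¹ : GL Ix F) : Matrix Ix Ix F) = adj (JA ⊗ₖ JB) (JA ⊗ₖ JB) Y :=
    Units.inv_eq_of_mul_eq_one_right huY'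
  have hcomm : A' * S.A = S.A * A' := by
    have e := congrArg Units.val hc.eq
    simp only [Units.val_mul, hinv, ← hY, uni, one_smul] at e
    rw [Matrix.mul_add Y, Matrix.mul_one, Matrix.add_mul Y, huY', ← hA'] at e
    simp only [Matrix.add_mul, Matrix.mul_add, Matrix.one_mul, Matrix.mul_one] at e
    rw [← sub_eq_zero] at e ⊢
    rw [← e]
    abel
  have hx0 : ct α JB A' S.w S.w = 0 := by
    obtain ⟨v, hv⟩ := H.sB.exists_one S.hw
    have e : S.P * ct α JB A' S.w S.w = 0 := by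
      have : S.A * (A' * S.P) = 0 := by
        rw [← Matrix.mul_assoc, ← hcomm, Matrix.mul_assoc, S.A_P H, Matrix.mul_zero]
      rw [A, rootR_eq] at this
      rw [P, ct, Matrix.mul_assoc]
      simpa only [Matrix.mul_assoc, P] using this
    have := congrArg (phi α JB v * ·) e
    simp only [← Matrix.mul_assoc, S.phi_P' H hv, Matrix.neg_mul, Matrix.one_mul, Matrix.mul_zero,
      neg_eq_zero] at this
    exact this
  have hxγ := S.x_conj H hk
  rw [← hY, ← hA', hx0] at hxγ
  have hdet : ((th S.x * k.2.1 1 0 : Sx S.x) : Matrix α α F).det = 0 := by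
    have := congrArg Matrix.det hxγ
    rw [Subalgebra.coe_neg, Subalgebra.coe_mul, Matrix.det_neg, det_mul, Matrix.det_zero] at this
    simpa using this.symm
  have hpure : IsPure (1 + A') :=
    H.pure_of_nilpotent 0 A' S.w ⟨Y, S.w, hM, S.hw, rfl⟩ S.hw (by rw [hx0]; simp)
  rcases S.pure_conj H hb hk hpure hdet with h5 | ⟨c, hc, hAc⟩
  · exfalso
    have e := congrArg π h5
    rw [map_mul, map_mul, map_pow, map_zero, ha, one_mul, one_mul] at e
    exact hθ (eq_zero_of_pow_eq_zero e)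
  have hYA : Y * S.A = c • (S.A * Y) := by
    have := congrArg (· * Y) hAc
    simp only [← hY] at this
    simpa only [Matrix.mul_assoc, huY, Matrix.mul_one, Matrix.smul_mul] using this
  have hpow : ∀ n : ℕ, Y ^ n * S.A = c ^ n • (S.A * Y ^ n) := fun n => by
    induction n with
    | zero => simp
    | succ n ih =>
      rw [pow_succ, Matrix.mul_assoc, hYA, Matrix.mul_smul, ← Matrix.mul_assoc, ih, Matrix.smul_mul, smul_smul,
        Matrix.mul_assoc, pow_succ' c]
  have hYj : Y ^ p ^ j = 1 := by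
    rw [hY, ← Units.val_pow_eq_pow_val, hj, Units.val_one]
  have hc1 : c = 1 := by
    refine pow_prime_pow_eq_one (p := p) (k := j) (sub_eq_zero.1 ?_)
    have := hpow (p ^ j)
    rw [hYj, Matrix.one_mul, Matrix.mul_one] at this
    have h0 : (c ^ p ^ j - 1) • S.A = 0 := by rw [sub_smul, one_smul, ← this, sub_self]
    exact (smul_eq_zero.1 h0).resolve_right (S.A_ne H)
  rw [hc1, one_smul] at hYA
  refine Units.ext ?_
  simp only [Units.val_mul, ← hY, uni, one_smul]
  rw [Matrix.mul_add, Matrix.add_mul, Matrix.mul_one, Matrix.one_mul, hYA]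

/-- An element of the plane group commuting with the root, with residue unitriangular with entry one, pins the
residue. -/
theorem residue_of_one [Nonempty α] (hb : b = 2) {k : GL Ix F × SL(2, Sx S.x) × SL(2, Sx S.x₁)} (hk : k ∈ S.K H)
    (hc : Commute k.1 (uni S.A (S.A_sq H) 1)) {E : Type*} [Field E] (π : Sx S.x →+* E) (h2 : (2 : E) ≠ 0)
    (hθ : π (th S.x) ≠ 0) (ha : π (k.2.1 0 0) = 1) (hbb : π (k.2.1 0 1) = 1) :
    ∃ r : F, r ≠ 0 ∧ π (algebraMap F (Sx S.x) r) * π (th S.x) = -1 := by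
  have hM := S.K_inM H hk
  have hAA : (k.1 : Matrix Ix Ix F) * S.A * adj (JA ⊗ₖ JB) (JA ⊗ₖ JB) (k.1 : Matrix Ix Ix F) = S.A := by
    have e := congrArg Units.val hc.eq
    simp only [Units.val_mul, uni, one_smul] at e
    rw [Matrix.mul_add, Matrix.add_mul, Matrix.mul_one, Matrix.one_mul] at e
    rw [add_left_cancel e, Matrix.mul_assoc, H.unit' hM, Matrix.mul_one]
  obtain ⟨-, -, r, hr'⟩ := S.cent_entries H hb hk hAA
  set θ := π (th S.x) with hθdef
  set ρ := π (algebraMap F (Sx S.x) r) with hρ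
  have e := congrArg π hr'
  simp only [map_mul, map_pow, map_add, map_one, map_zero, Algebra.smul_def, ha, hbb, one_mul, ← hθdef,
    ← hρ] at e
  have h4 : (1 + 1 : E) ^ 2 ≠ 0 := by
    rw [one_add_one_eq_two]
    exact pow_ne_zero _ h2
  have e2 : (ρ * θ + 1) * θ ^ 2 = 0 := by
    have := (mul_eq_zero.1 e).resolve_left h4
    linear_combination this
  have e3 := (mul_eq_zero.1 e2).resolve_right (pow_ne_zero _ hθ)
  refine ⟨r, fun h => one_ne_zero (α := E) ?_, eq_neg_of_add_eq_zero_left e3⟩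
  rw [hρ, h, map_zero, map_zero, zero_mul, zero_add] at e3
  exact e3

theorem phi_gA {E : Type*} [Field E] (π : Sx S.x →+* E) (d : F) :
    (Matrix.SpecialLinearGroup.map π (S.gA H d).2.1 : Matrix (Fin 2) (Fin 2) E) =
      !![1, π (algebraMap F (Sx S.x) d) * π (th S.x); 0, 1] := by
  ext i j
  change π ((up (d • th S.x)) i j) = _
  fin_cases i <;> fin_cases j <;> simp [coe_up, Algebra.smul_def]

theorem phi_gB {E : Type*} [Field E] (π : Sx S.x →+* E) :
    (Matrix.SpecialLinearGroup.map π (S.gB H 1).2.1 : Matrix (Fin 2) (Fin 2) E) = !![1, 0; 1, 1] := by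
  ext i j
  change π ((lo ((1 : F) • (1 : Sx S.x))) i j) = _
  fin_cases i <;> fin_cases j <;> simp [coe_lo]

/-- Every nonzero residue of the invariant lies in the ground field. -/
theorem residue [Nonempty α] [Finite F] (hb : b = 2) (P : Ideal (Sx S.x)) [hP : P.IsPrime] (hPx : th S.x ∉ P) :
    ∃ c : F, c ≠ 0 ∧ th S.x - algebraMap F (Sx S.x) c ∈ P := by
  classical
  have : Finite (Sx S.x) := Subtype.finite
  have : Finite (Sx S.x₁) := Subtype.finite
  have : Finite (GL Ix F) := Finite.of_injective _ Units.val_injective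
  have : Finite (SL(2, Sx S.x)) := Subtype.finite
  have : Finite (SL(2, Sx S.x₁)) := Subtype.finite
  let E := Sx S.x ⧸ P
  have : Finite E := Finite.of_surjective _ Ideal.Quotient.mk_surjective
  have : IsDomain E := Ideal.Quotient.isDomain P
  letI : Field E := (Finite.isDomain_to_isField E).toField
  let π : Sx S.x →+* E := Ideal.Quotient.mk P
  let ψ : F →+* E := π.comp (algebraMap F (Sx S.x))
  obtain ⟨p, hp⟩ := CharP.exists F
  have : Fact p.Prime := ⟨CharP.char_is_prime F p⟩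
  have : CharP E p := charP_of_injective_ringHom ψ.injective p
  have h2E : (2 : E) ≠ 0 := fun h => H.two (ψ.injective (by rw [map_ofNat, map_zero]; exact h))
  have hθ : π (th S.x) ≠ 0 := fun h => hPx (Ideal.Quotient.eq_zero_iff_mem.1 h)
  obtain ⟨r₀, hr0, hr⟩ := H.size_two hb
  obtain ⟨d, hd0, hd⟩ : ∃ d : F, d ≠ 0 ∧ (ψ d * π (th S.x)) ^ 2 ≠ -1 := by
    by_cases h : π (th S.x) ^ 2 = -1
    · refine ⟨r₀, hr0, fun h' => hr (ψ.injective ?_)⟩
      rw [mul_pow, h] at h'
      rw [map_mul, map_one]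
      linear_combination -h'
    · exact ⟨1, one_ne_zero, by rwa [map_one, one_mul]⟩
  let Φ : S.K H →* SL(2, E) := (Matrix.SpecialLinearGroup.map π).comp (S.f₁ H)
  obtain ⟨s, ⟨y₀, hy₀⟩, hs⟩ := one_mem_of_pair h2E
    (mul_ne_zero (fun h => hd0 (ψ.injective (by rw [map_zero]; exact h))) hθ) hd Φ.range
    (fun s hs => ⟨⟨_, S.gB_mem H 1⟩, Subtype.ext ((S.phi_gB H π).trans hs.symm)⟩)
    (fun s hs => ⟨⟨_, S.gA_mem H d⟩, Subtype.ext ((S.phi_gA H π d).trans hs.symm)⟩)
  let toQ : S.K H →* GL Ix F := (MonoidHom.fst _ _).comp (S.K H).subtype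
  let u : S.K H := ⟨_, S.gA_mem H 1⟩
  have hu : Φ u ∈ upperU E := by
    have e := S.phi_gA H π 1
    refine ⟨?_, ?_, ?_⟩
    · exact (congrFun (congrFun e 0) 0).trans rfl
    · exact (congrFun (congrFun e 1) 0).trans rfl
    · exact (congrFun (congrFun e 1) 1).trans rfl
  have hup : u ^ p = 1 := by
    refine Subtype.ext ?_
    rw [SubgroupClass.coe_pow, OneMemClass.coe_one]
    change S.gA H 1 ^ p = 1
    rw [S.gA_pow H, CharP.cast_eq_zero F p, S.gA_zero H]
  have hy₀U : Φ y₀ ∈ upperU E := by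
    rw [hy₀]
    exact ⟨(congrFun (congrFun hs 0) 0).trans rfl, (congrFun (congrFun hs 1) 0).trans rfl,
      (congrFun (congrFun hs 1) 1).trans rfl⟩
  obtain ⟨y, hy, hyc⟩ := exists_commuting Φ toQ (upperU_isPGroup (p := p)) hu hup
    (fun z hz hj hc => by
      obtain ⟨j, hj⟩ := hj
      refine S.comm_of_conj H hb z.2 (p := p) (j := j) ?_ π hθ hz.1 ?_
      · exact congrArg toQ hj |>.trans (map_one _) |> (map_pow toQ z _).symm.trans
      · rw [map_mul, map_mul, map_inv] at hc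
        exact hc) hy₀U
  obtain ⟨ha, hbb⟩ : π ((y : GL Ix F × SL(2, Sx S.x) × SL(2, Sx S.x₁)).2.1 0 0) = 1 ∧
      π ((y : GL Ix F × SL(2, Sx S.x) × SL(2, Sx S.x₁)).2.1 0 1) = 1 := by
    have e : (Φ y : Matrix (Fin 2) (Fin 2) E) = !![1, 1; 0, 1] := by rw [hy, hy₀]; exact hs
    exact ⟨(congrFun (congrFun e 0) 0).trans rfl, (congrFun (congrFun e 0) 1).trans rfl⟩
  obtain ⟨r, hr', hrθ⟩ := S.residue_of_one H hb y.2 hyc π h2E hθ ha hbb
  refine ⟨-r⁻¹, neg_ne_zero.2 (inv_ne_zero hr'), Ideal.Quotient.eq_zero_iff_mem.1 ?_⟩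
  change π (th S.x - algebraMap F (Sx S.x) (-r⁻¹)) = 0
  rw [map_sub, map_neg, map_neg, sub_neg_eq_add]
  have : π (algebraMap F (Sx S.x) r) * π (algebraMap F (Sx S.x) r⁻¹) = 1 := by
    rw [← map_mul, ← map_mul, mul_inv_cancel₀ hr', map_one, map_one]
  linear_combination π (algebraMap F (Sx S.x) r⁻¹) * hrθ - π (th S.x) * this

end Frames

end Cfsg.Agent.H58.Wreath.Sp
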