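import Cfsg.Agent.H58.Wreath.Sp.Purity

/-!
Conjugates of transvections of the right factor: a nilpotent invariant forces a pure tensor.
-/

set_option autoImplicit false
set_option linter.unusedSectionVars false

namespace Cfsg.Agent.H58.Wreath.Sp

open Matrix
open Cfsg.Agent.H99.Tensor
open Cfsg.Agent.H99.TensorS (SympMat bf rk adj phi el ct)
open scoped Kronecker

variable {F : Type*} [Field F] {α : Type} [Fintype α] [DecidableEq α] {b : ℕ} {JA : Matrix α α F}
  {JB : Matrix (Fin b) (Fin b) F}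

local notation "Ix" => α × Fin b

/-- The root of the right factor. -/
def rootR (α : Type) [DecidableEq α] (JB : Matrix (Fin b) (Fin b) F) (w : Fin b → F) :
    Matrix (α × Fin b) (α × Fin b) F := (1 : Matrix α α F) ⊗ₖ rk JB w w

/-- A conjugate of a root of the right factor. -/
def IsRoot (JA : Matrix α α F) (JB : Matrix (Fin b) (Fin b) F) (M : Subgroup (GL (α × Fin b) F))
    (B : Matrix (α × Fin b) (α × Fin b) F) : Prop :=
  ∃ (g : Matrix (α × Fin b) (α × Fin b) F) (w : Fin b → F), InM M g ∧ w ≠ 0 ∧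
    B = g * rootR α JB w * adj (JA ⊗ₖ JB) (JA ⊗ₖ JB) g

theorem rootR_eq (w : Fin b → F) : rootR α JB w = lft α w * phi α JB w :=
  (H99.TensorS.lft_phi w w).symm

theorem ct_smul (d : F) (X : Matrix Ix Ix F) (u w : Fin b → F) :
    ct α JB (d • X) u w = d • ct α JB X u w := by
  rw [ct, ct, Matrix.mul_smul, Matrix.smul_mul]

theorem ct_mid (X Y : Matrix Ix Ix F) (w u v : Fin b → F) :
    ct α JB (X * rootR α JB w * Y) u v = ct α JB X u w * ct α JB Y w v := by
  rw [ct, ct, ct, rootR_eq]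
  simp only [Matrix.mul_assoc]

theorem ct_left (hB : SympMat JB) (G : Matrix α α F) (u v : Fin b → F) :
    ct α JB (G ⊗ₖ (1 : Matrix (Fin b) (Fin b) F)) u v = bf JB u v • G := by
  rw [ct, H99.TensorS.phi_kron hB, Matrix.mul_assoc, H99.TensorS.phi_lft, H99.TensorS.adj_one hB.unit, one_mulVec,
    Matrix.mul_smul, Matrix.mul_one]

/-- A pure unipotent with null square comes from one factor. -/
theorem split_sq [Nonempty α] [NeZero b] (h2 : (2 : F) ≠ 0) {B : Matrix Ix Ix F} (hB : B * B = 0)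
    (hp : IsPure (1 + B)) :
    (∃ G : Matrix α α F, B = G ⊗ₖ (1 : Matrix (Fin b) (Fin b) F)) ∨
      ∃ N : Matrix (Fin b) (Fin b) F, B = (1 : Matrix α α F) ⊗ₖ N := by
  obtain ⟨g, h, hgh⟩ := hp
  have hB' : B = g ⊗ₖ h - 1 := eq_sub_of_add_eq' hgh
  by_cases hs : ∃ c : F, h = c • (1 : Matrix (Fin b) (Fin b) F)
  · obtain ⟨c, rfl⟩ := hs
    refine Or.inl ⟨c • g - 1, ?_⟩
    rw [hB', sub_eq_iff_eq_add, ← one_kronecker_one (α := F) (m := α) (n := Fin b), ← add_kronecker,
      sub_add_cancel, smul_kronecker, kronecker_smul]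
  refine Or.inr ?_
  have e0 : (g * g) ⊗ₖ (h * h) - (2 : F) • (g ⊗ₖ h) + 1 = 0 := by
    rw [mul_kronecker_mul, ← hB, hB', sub_mul, mul_sub, mul_one, one_mul, two_smul]
    abel
  have e : ∀ i j, (g * g) i j • (h * h) - (2 * g i j) • h + (1 : Matrix α α F) i j • (1 : Matrix (Fin b) (Fin b) F) =
      0 := by
    intro i j
    ext k l
    have := congrFun (congrFun e0 (i, k)) (j, l)
    simp only [Matrix.add_apply, Matrix.sub_apply, Matrix.smul_apply, kroneckerMap_apply, smul_eq_mul,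
      Matrix.zero_apply] at this ⊢
    rw [← mul_assoc] at this
    rw [← this, ← one_kronecker_one (α := F) (m := α) (n := Fin b), kroneckerMap_apply]
  obtain ⟨i₀⟩ := ‹Nonempty α›
  by_cases hg2 : g * g = 0
  · exfalso
    have := e i₀ i₀
    rw [hg2, Matrix.zero_apply, zero_smul, zero_sub, Matrix.one_apply_eq, one_smul, neg_add_eq_zero] at this
    have h0 : (2 * g i₀ i₀ : F) ≠ 0 := fun h0 => by
      rw [h0, zero_smul] at this
      exact one_ne_zero (congrFun (congrFun this.symm 0) 0 |>.trans (by simp) : (1 : F) = 0)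
    exact hs ⟨(2 * g i₀ i₀)⁻¹, by rw [← this, smul_smul, inv_mul_cancel₀ h0, one_smul]⟩
  obtain ⟨i₁, j₁, hij⟩ : ∃ i j, (g * g) i j ≠ 0 := by
    by_contra h0
    push Not at h0
    exact hg2 (Matrix.ext h0)
  set q := (g * g) i₁ j₁ with hq
  set s := 2 * g i₁ j₁ / q with hsd
  set t := -((1 : Matrix α α F) i₁ j₁) / q with htd
  have hh2 : h * h = s • h + t • (1 : Matrix (Fin b) (Fin b) F) := by
    have := congrArg (q⁻¹ • ·) (e i₁ j₁)
    simp only [← hq, smul_add, smul_sub, smul_smul, smul_zero, inv_mul_cancel₀ hij, one_smul] at this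
    rw [hsd, htd, div_eq_inv_mul, div_eq_inv_mul, ← sub_eq_zero]
    rw [← this]
    module
  have hlin : ∀ a c : F, a • h + c • (1 : Matrix (Fin b) (Fin b) F) = 0 → a = 0 ∧ c = 0 := by
    intro a c hac
    have ha : a = 0 := by
      by_contra ha
      refine hs ⟨-(a⁻¹ * c), ?_⟩
      have := congrArg (a⁻¹ • ·) hac
      simp only [smul_add, smul_smul, inv_mul_cancel₀ ha, one_smul, smul_zero] at this
      rw [neg_smul, ← add_eq_zero_iff_eq_neg, this]
    subst ha
    refine ⟨rfl, ?_⟩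
    have := congrFun (congrFun hac 0) 0
    simpa using this
  have hgg : ∀ i j, s * (g * g) i j = 2 * g i j ∧ t * (g * g) i j = -((1 : Matrix α α F) i j) := by
    intro i j
    have := e i j
    rw [hh2, smul_add, smul_smul, smul_smul] at this
    obtain ⟨a, c⟩ := hlin (s * (g * g) i j - 2 * g i j) (t * (g * g) i j + (1 : Matrix α α F) i j)
      (by rw [← this]; module)
    exact ⟨sub_eq_zero.1 a, eq_neg_of_add_eq_zero_left c⟩
  have ht : t ≠ 0 := fun h0 => by
    have := (hgg i₀ i₀).2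
    rw [h0, zero_mul, Matrix.one_apply_eq, zero_eq_neg] at this
    exact one_ne_zero this
  set r := -(s / (2 * t)) with hr
  have hgr : g = r • (1 : Matrix α α F) := by
    ext i j
    obtain ⟨a, c⟩ := hgg i j
    rw [Matrix.smul_apply, smul_eq_mul, hr]
    field_simp
    linear_combination -t * a + s * c
  refine ⟨r • h - 1, ?_⟩
  rw [hB', hgr, sub_eq_iff_eq_add, ← one_kronecker_one (α := F) (m := α) (n := Fin b), ← kronecker_add,
    sub_add_cancel, smul_kronecker, kronecker_smul]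

variable {M : Subgroup (GL (α × Fin b) F)} (H : Setup JA JB M)
include H

theorem Setup.neZero : NeZero b := ⟨by have := H.pos; omega⟩

theorem Setup.rootR_sq (w : Fin b → F) : rootR α JB w * rootR α JB w = 0 := by
  rw [rootR, ← mul_kronecker_mul, H99.TensorS.rk_mul, H.sB.self, zero_smul, kronecker_zero]

theorem Setup.rootR_adj (w : Fin b → F) :
    adj (JA ⊗ₖ JB) (JA ⊗ₖ JB) (rootR α JB w) = -rootR α JB w := by
  rw [rootR, H99.TensorS.adj_kron, H99.TensorS.adj_one H.uA, H99.TensorS.adj_rk H.sB, ← neg_one_smul F (rk JB w w),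
    kronecker_smul, neg_one_smul]

theorem Setup.root_sq {B : Matrix Ix Ix F} (hB : IsRoot JA JB M B) : B * B = 0 := by
  obtain ⟨g, w, hg, -, rfl⟩ := hB
  have : g * rootR α JB w * adj (JA ⊗ₖ JB) (JA ⊗ₖ JB) g * (g * rootR α JB w * adj (JA ⊗ₖ JB) (JA ⊗ₖ JB) g) =
      g * (rootR α JB w * ((adj (JA ⊗ₖ JB) (JA ⊗ₖ JB) g * g) * rootR α JB w)) * adj (JA ⊗ₖ JB) (JA ⊗ₖ JB) g := by
    simp only [Matrix.mul_assoc]
  rw [this, H.unit hg, Matrix.one_mul, H.rootR_sq, Matrix.mul_zero, Matrix.zero_mul]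

theorem Setup.root_adj {B : Matrix Ix Ix F} (hB : IsRoot JA JB M B) : adj (JA ⊗ₖ JB) (JA ⊗ₖ JB) B = -B := by
  obtain ⟨g, w, hg, -, rfl⟩ := hB
  rw [H99.TensorS.adj_mul H.unitJ, H99.TensorS.adj_mul H.unitJ, H.adjJJ, H.rootR_adj, Matrix.neg_mul,
    Matrix.mul_neg, Matrix.mul_assoc]

theorem Setup.rootR_mem (w : Fin b → F) (d : F) : InM M (1 + d • rootR α JB w) := by
  rw [rootR, ← smul_kronecker]
  exact H.trans w d

theorem Setup.root_mem {B : Matrix Ix Ix F} (hB : IsRoot JA JB M B) (d : F) : InM M (1 + d • B) := by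
  obtain ⟨g, w, hg, -, rfl⟩ := hB
  have := H.conj (H.rootR_mem w d) hg
  rwa [Matrix.mul_smul, Matrix.smul_mul] at this

theorem Setup.root_adj_one {B : Matrix Ix Ix F} (hB : IsRoot JA JB M B) (d : F) :
    adj (JA ⊗ₖ JB) (JA ⊗ₖ JB) (1 + d • B) = 1 + (-d) • B := by
  rw [H99.TensorS.adj_add, H99.TensorS.adj_one H.unitJ, H99.TensorS.adj_smul, H.root_adj hB, smul_neg, neg_smul]

theorem Setup.ct_adj_root {B : Matrix Ix Ix F} (hB : IsRoot JA JB M B) (u v : Fin b → F) :
    adj JA JA (ct α JB B u v) = ct α JB B v u := by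
  rw [H.adj_ct, H.root_adj hB, ← neg_one_smul F B, ct_smul, neg_one_smul, neg_neg]

/-- The conjugate of a root by an element of the root group of another. -/
theorem Setup.shift_root {B : Matrix Ix Ix F} (hB : IsRoot JA JB M B) {w : Fin b → F} (hw : w ≠ 0) (d : F) :
    IsRoot JA JB M ((1 + d • B) * rootR α JB w * (1 + (-d) • B)) :=
  ⟨_, w, H.root_mem hB d, hw, by rw [H.root_adj_one hB]⟩

theorem Setup.ct_shift {B : Matrix Ix Ix F} {w : Fin b → F} (d : F) (u v : Fin b → F) :
    ct α JB ((1 + d • B) * rootR α JB w * (1 + (-d) • B)) u v =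
      (bf JB u w • (1 : Matrix α α F) + d • ct α JB B u w) *
        (bf JB w v • (1 : Matrix α α F) + (-d) • ct α JB B w v) := by
  simp only [ct_mid, H99.TensorS.ct_add, H99.TensorS.ct_one, ct_smul]

theorem Setup.x_shift {B : Matrix Ix Ix F} {w : Fin b → F} (d : F) :
    ct α JB ((1 + d • B) * rootR α JB w * (1 + (-d) • B)) w w =
      (-(d * d)) • (ct α JB B w w * ct α JB B w w) := by
  rw [H.ct_shift, H.sB.self, zero_smul, zero_add, zero_add, Matrix.smul_mul, Matrix.mul_smul, smul_smul]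
  ring_nf

variable [Nonempty α]

/-- A pure conjugate of a root: from the left factor, or the frame is a pure tensor. -/
theorem Setup.frame_cases {g : Matrix Ix Ix F} (hg : InM M g) {w : Fin b → F} (hw : w ≠ 0)
    (hp : IsPure (1 + g * rootR α JB w * adj (JA ⊗ₖ JB) (JA ⊗ₖ JB) g)) :
    (∃ G : Matrix α α F, g * rootR α JB w * adj (JA ⊗ₖ JB) (JA ⊗ₖ JB) g = G ⊗ₖ (1 : Matrix (Fin b) (Fin b) F)) ∨
      (IsPure g ∧ ∃ (n : Fin b → F) (c : F), n ≠ 0 ∧ c ≠ 0 ∧
        g * rootR α JB w * adj (JA ⊗ₖ JB) (JA ⊗ₖ JB) g = c • rootR α JB n) := by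
  have := H.neZero
  set B := g * rootR α JB w * adj (JA ⊗ₖ JB) (JA ⊗ₖ JB) g with hB
  have hroot : IsRoot JA JB M B := ⟨g, w, hg, hw, rfl⟩
  rcases split_sq H.two (H.root_sq hroot) hp with hG | ⟨N, hN⟩
  · exact Or.inl hG
  obtain ⟨w', hw'⟩ := H.sB.exists_one hw
  set P := g * lft α w with hP
  set Pa := phi α JB w * adj (JA ⊗ₖ JB) (JA ⊗ₖ JB) g with hPa
  have hPP : B = P * Pa := by rw [hB, rootR_eq, hP, hPa]; simp only [Matrix.mul_assoc]
  have hBP : B * (g * lft α w') = P := by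
    rw [hPP, hPa, Matrix.mul_assoc P, Matrix.mul_assoc (phi α JB w), ← Matrix.mul_assoc _ g, H.unit hg,
      Matrix.one_mul, H99.TensorS.phi_lft, hw', one_smul, Matrix.mul_one]
  obtain ⟨x, hx⟩ : ∃ x : Fin b → F, N *ᵥ x ≠ 0 := by
    by_contra hc
    push Not at hc
    have h0 : B = 0 := by
      rw [hN, show N = 0 from Matrix.ext_of_mulVec_single fun j => by rw [hc, Matrix.zero_mulVec], kronecker_zero]
    rw [h0, Matrix.zero_mul] at hBP
    have := congrArg (adj (JA ⊗ₖ JB) (JA ⊗ₖ JB) g * ·) hBP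
    rw [hP, ← Matrix.mul_assoc, H.unit hg, Matrix.one_mul, Matrix.mul_zero] at this
    obtain ⟨k, hk⟩ := Function.ne_iff.1 hw
    obtain ⟨i⟩ := ‹Nonempty α›
    exact hk (by simpa [lft_apply] using (congrFun (congrFun this (i, k)) i).symm)
  set R := Pa * lft α x with hR
  have hPR : P * R = lft α (N *ᵥ x) := by
    rw [hR, ← Matrix.mul_assoc, ← hPP, hN, kron_lft, Matrix.mul_one]
  have hRu : IsUnit R.det := by
    rw [isUnit_iff_ne_zero]
    intro h0
    obtain ⟨v, hv0, hv⟩ := (Matrix.exists_mulVec_eq_zero_iff (M := R)).2 h0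
    have := congrArg (· *ᵥ v) hPR
    simp only [← mulVec_mulVec, hv, mulVec_zero] at this
    obtain ⟨k, hk⟩ := Function.ne_iff.1 hx
    refine hv0 (funext fun j => ?_)
    have e := congrFun this (j, k)
    simp [mulVec, dotProduct, lft_apply] at e
    exact e.resolve_left hk
  have hgP : g * lft α w = lft α (N *ᵥ x) * R⁻¹ := by
    rw [← hP, ← hPR, Matrix.mul_assoc, Matrix.mul_nonsing_inv _ hRu, Matrix.mul_one]
  have hinv : IsUnit (R⁻¹).det := Matrix.isUnit_nonsing_inv_det R hRu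
  refine Or.inr ⟨H.pure_of_layer hw hx hg hgP hinv, N *ᵥ x, ?_⟩
  obtain ⟨μ, hμ0, hμ⟩ := H.layer_sq hx hg hgP hinv
  refine ⟨μ, hx, hμ0, ?_⟩
  have hPa' : Pa = adj JA JA R⁻¹ * phi α JB (N *ᵥ x) := by
    rw [hPa, ← adjA_lft H.uA w, ← H.adjA_mul_iso, hgP, adjA_lft_mul H.uA]
  rw [hPP, hPa', hP, hgP, rootR_eq, Matrix.mul_assoc, ← Matrix.mul_assoc R⁻¹, hμ, Matrix.smul_mul, Matrix.one_mul,
    Matrix.mul_smul]

theorem Setup.pure_smul {B : Matrix Ix Ix F} (hB : B * B = 0) {d : F} (hd : d ≠ 0) (hp : IsPure (1 + d • B)) :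
    IsPure (1 + B) := by
  have := H.neZero
  rcases split_sq H.two (B := d • B) (by rw [Matrix.smul_mul, Matrix.mul_smul, hB, smul_zero, smul_zero]) hp with
    ⟨G, hG⟩ | ⟨N, hN⟩
  · refine ⟨1 + d⁻¹ • G, 1, ?_⟩
    rw [add_kronecker, one_kronecker_one, smul_kronecker, ← hG, smul_smul, inv_mul_cancel₀ hd, one_smul]
  · refine ⟨1, 1 + d⁻¹ • N, ?_⟩
    rw [kronecker_add, one_kronecker_one, kronecker_smul, ← hN, smul_smul, inv_mul_cancel₀ hd, one_smul]

/-- A conjugate root with a nilpotent invariant is a pure tensor. -/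
theorem Setup.pure_of_nilpotent : ∀ (j : ℕ) (B : Matrix Ix Ix F) (w : Fin b → F), IsRoot JA JB M B → w ≠ 0 →
    ct α JB B w w ^ 2 ^ j = 0 → IsPure (1 + B) := by
  intro j
  induction j with
  | zero =>
    intro B w hB hw hx
    by_contra hnp
    refine H.ct_ne (by simpa using H.root_mem hB 1) hnp hw hw ?_
    rw [pow_zero, pow_one] at hx
    rw [H99.TensorS.ct_add, H99.TensorS.ct_one, H.sB.self, zero_smul, zero_add, hx]
  | succ j ih =>
    intro B w hB hw hx
    by_contra hnp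
    have hG : ∀ d : F, d ≠ 0 → ∃ G : Matrix α α F,
        (1 + d • B) * rootR α JB w * (1 + (-d) • B) = G ⊗ₖ (1 : Matrix (Fin b) (Fin b) F) := by
      intro d hd
      have hp := ih _ w (H.shift_root hB hw d) hw (by
        rw [H.x_shift, smul_pow, ← pow_two (ct α JB B w w), ← pow_mul, ← pow_succ', hx, smul_zero])
      rw [← H.root_adj_one hB d] at hp ⊢
      rcases H.frame_cases (H.root_mem hB d) hw hp with h | ⟨h, -⟩
      · exact h
      · exact absurd (H.pure_smul (H.root_sq hB) hd h) hnp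
    have hx0 : ct α JB B w w ≠ 0 := fun h0 => H.ct_ne (by simpa using H.root_mem hB 1) hnp hw hw (by
      rw [H99.TensorS.ct_add, H99.TensorS.ct_one, H.sB.self, zero_smul, zero_add, h0])
    obtain ⟨w', hw'⟩ := H.sB.exists_one hw
    have hw'w : bf JB w' w = -1 := by rw [H.sB.swap w w', hw']
    set Z := ct α JB B w' w with hZ
    have hZ' : ct α JB B w w' = adj JA JA Z := by rw [hZ, H.ct_adj_root hB]
    rcases H.size with ⟨-, r, hr0, hr⟩ | h4
    · have e : ∀ d : F, d ≠ 0 →
          (-1 : F) • (1 : Matrix α α F) + d • (Z + adj JA JA Z) - (d * d) • (Z * adj JA JA Z) = 0 := by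
        intro d hd
        obtain ⟨G, hG⟩ := hG d hd
        have := H.ct_shift (B := B) (w := w) d w' w'
        rw [hG, ct_left H.sB, H.sB.self, zero_smul, hw'w, hw', hZ', ← hZ] at this
        rw [this]
        simp only [one_smul, Matrix.add_mul, Matrix.mul_add, Matrix.smul_mul, Matrix.mul_smul, Matrix.one_mul,
          Matrix.mul_one, smul_smul, smul_add]
        module
      have a1 := e 1 one_ne_zero
      have a2 := e (-1) (neg_ne_zero.2 one_ne_zero)
      have a3 := e r hr0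
      have a4 := e (-r) (neg_ne_zero.2 hr0)
      have b1 : (2 : F) • (1 : Matrix α α F) + (2 : F) • (Z * adj JA JA Z) = 0 := by
        rw [← neg_eq_zero, ← add_zero (0 : Matrix α α F)]
        nth_rw 1 [← a1]
        rw [← a2]
        module
      have b2 : (2 : F) • (1 : Matrix α α F) + (2 * (r * r)) • (Z * adj JA JA Z) = 0 := by
        rw [← neg_eq_zero, ← add_zero (0 : Matrix α α F)]
        nth_rw 1 [← a3]
        rw [← a4]
        module
      have b3 : (2 * (r * r - 1)) • (1 : Matrix α α F) = 0 := by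
        have : (2 * (r * r - 1)) • (1 : Matrix α α F) =
            (r * r) • ((2 : F) • (1 : Matrix α α F) + (2 : F) • (Z * adj JA JA Z)) -
              ((2 : F) • (1 : Matrix α α F) + (2 * (r * r)) • (Z * adj JA JA Z)) := by module
        rw [this, b1, b2, smul_zero, sub_zero]
      rw [smul_eq_zero] at b3
      rcases b3 with h | h
      · exact hr (sub_eq_zero.1 ((mul_eq_zero.1 h).resolve_left H.two))
      · exact one_ne_zero h
    · obtain ⟨u, v, hu, hv, huv⟩ := H.sB.exists_pair ![w] (by simp; omega)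
      have hwu : bf JB w u = 0 := hu 0
      have hwv : bf JB w v = 0 := hv 0
      obtain ⟨G₁, hG₁⟩ := hG 1 one_ne_zero
      obtain ⟨G₂, hG₂⟩ := hG (-1) (neg_ne_zero.2 one_ne_zero)
      have u1 := H.ct_shift (B := B) (w := w) 1 u v
      have u2 := H.ct_shift (B := B) (w := w) (-1) u v
      rw [hG₁, ct_left H.sB, H.sB.zero_comm.1 hwu, hwv, huv] at u1
      rw [hG₂, ct_left H.sB, H.sB.zero_comm.1 hwu, hwv, huv] at u2
      have hGG : G₁ = G₂ := by
        rw [← one_smul F G₁, u1, ← one_smul F G₂, u2]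
        simp only [zero_smul, zero_add, Matrix.smul_mul, Matrix.mul_smul, smul_smul]
        module
      have v1 := H.ct_shift (B := B) (w := w) 1 w' w
      have v2 := H.ct_shift (B := B) (w := w) (-1) w' w
      rw [hG₁, ct_left H.sB, H.sB.self, hw'w, ← hZ] at v1
      rw [hG₂, ct_left H.sB, H.sB.self, hw'w, ← hZ, ← hGG, v1] at v2
      simp only [zero_smul, zero_add, Matrix.add_mul, Matrix.smul_mul, Matrix.mul_smul, Matrix.one_mul, smul_smul]
        at v2
      have : (2 : F) • ct α JB B w w = 0 := by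
        rw [← sub_eq_zero.2 v2]; module
      exact hx0 ((smul_eq_zero.1 this).resolve_left H.two)

/-- An element of the second factor fixing the image of a conjugate root up to a scalar is a scalar. -/
theorem Setup.endgame {g : Matrix Ix Ix F} (hg : InM M g) {w : Fin b → F} (hw : w ≠ 0)
    (hnp : ¬ IsPure (1 + g * rootR α JB w * adj (JA ⊗ₖ JB) (JA ⊗ₖ JB) g))
    {h : Matrix (Fin b) (Fin b) F} {r : F} (hh : ((1 : Matrix α α F) ⊗ₖ h) * (g * lft α w) = r • (g * lft α w)) :
    h = r • (1 : Matrix (Fin b) (Fin b) F) := by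
  by_contra hne
  set k := h - r • (1 : Matrix (Fin b) (Fin b) F) with hk
  obtain ⟨x, hx⟩ : ∃ x : Fin b → F, adj JB JB k *ᵥ x ≠ 0 := by
    by_contra hc
    push Not at hc
    have h0 : adj JB JB k = 0 := Matrix.ext_of_mulVec_single fun j => by rw [hc, Matrix.zero_mulVec]
    refine hne (sub_eq_zero.1 (H99.TensorS.adj_inj H.sB.unit H.sB.unit ?_))
    rw [← hk, h0, H99.TensorS.adj_zero]
  set u := adj JB JB k *ᵥ x with hu
  have hkP : ((1 : Matrix α α F) ⊗ₖ k) * (g * lft α w) = 0 := by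
    rw [hk, sub_eq_add_neg, kronecker_add, ← neg_smul, kronecker_smul, one_kronecker_one, Matrix.add_mul, hh,
      Matrix.smul_mul, Matrix.one_mul, neg_smul, add_neg_cancel]
  have huP : phi α JB u * (g * lft α w) = 0 := by
    have := congrArg (phi α JB x * ·) hkP
    rwa [← Matrix.mul_assoc, H99.TensorS.phi_kron H.sB, Matrix.one_mul, Matrix.mul_zero, ← hu] at this
  refine H.ct_ne (x₁ := u) (z := u) (by simpa using H.root_mem ⟨g, w, hg, hw, rfl⟩ 1) hnp hx hx ?_
  rw [H99.TensorS.ct_add, H99.TensorS.ct_one, H.sB.self, zero_smul, zero_add, ct, rootR_eq]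
  simp only [← Matrix.mul_assoc] at huP ⊢
  rw [huP]
  simp only [Matrix.zero_mul]

end Cfsg.Agent.H58.Wreath.Sp
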