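import Cfsg.Agent.H58.Wreath.Sp.Torus
import Cfsg.Agent.H58.Wreath.Sp.Large

/-!
All conjugates of roots of the right factor are pure tensors.
-/

set_option autoImplicit false
set_option linter.unusedSectionVars false

namespace Cfsg.Agent.H58.Wreath.Sp

open Matrix
open Cfsg.Agent.H99.Tensor
open Cfsg.Agent.H99.TensorS (SympMat bf rk adj phi el ct)
open scoped Kronecker

variable {F : Type*} [Field F] {α : Type} [Fintype α] [DecidableEq α] {b : ℕ} {JA : Matrix α α F}
  {JB : Matrix (Fin b) (Fin b) F} {M : Subgroup (GL (α × Fin b) F)}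

local notation "Ix" => α × Fin b

namespace Frames

variable (S : Frames JA JB M) (H : Setup JA JB M)
include H

/-- For a two-dimensional right factor every conjugate root is a pure tensor. -/
theorem pure_two [Nonempty α] [Finite F] (hb : b = 2) : IsPure (1 + S.B) := by
  classical
  let : Fintype F := Fintype.ofFinite F
  induction hn : (lam S.x).card using Nat.strong_induction_on generalizing S with
  | _ n ih =>
    by_contra hnp
    obtain ⟨θ₁, hθ₁⟩ := S.exists_eigen H hb hnp
    have hsq := S.step H hb (fun S' h => ih _ (hn ▸ h) S' rfl) hθ₁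
    refine hnp (S.pure_of_idem H hb (mem_lam.1 hθ₁).1 ?_ hsq)
    intro h
    exact S.not_nilpotent H hnp (by rw [h]; exact IsNilpotent.zero)

end Frames

/-- Every conjugate root is a pure tensor. -/
theorem Setup.root_pure [Nonempty α] [Finite F] (H : Setup JA JB M) {B : Matrix Ix Ix F}
    (hB : IsRoot JA JB M B) : IsPure (1 + B) := by
  obtain ⟨g, w₁, hg, hw₁, rfl⟩ := hB
  rcases H.size with ⟨hb, -⟩ | h4
  · exact (⟨g, w₁, w₁, hg, hw₁, hw₁⟩ : Frames JA JB M).pure_two H hb
  · exact (⟨g, w₁, w₁, hg, hw₁, hw₁⟩ : Frames JA JB M).pure_large H h4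

end Cfsg.Agent.H58.Wreath.Sp
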