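import Cfsg.Agent.H58.Wreath.Sp.TwoBase
import Cfsg.Agent.S0801

/-!
Two-by-two tools for the plane group over a commutative algebra.
-/

set_option autoImplicit false
set_option linter.unusedSectionVars false

namespace Cfsg.Agent.H58.Wreath.Sp

open Matrix
open scoped MatrixGroups

variable {F : Type*} [Field F] {α : Type} [Fintype α] [DecidableEq α]

theorem coe_up {x : Matrix α α F} (s : Sx x) : (up s : Matrix (Fin 2) (Fin 2) (Sx x)) = !![1, s; 0, 1] := rfl

theorem coe_lo {x : Matrix α α F} (s : Sx x) : (lo s : Matrix (Fin 2) (Fin 2) (Sx x)) = !![1, 0; s, 1] := rfl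

theorem mul_fin_two' {R : Type*} [CommRing R] (a b c d a' b' c' d' : R) :
    !![a, b; c, d] * !![a', b'; c', d'] = !![a * a' + b * c', a * b' + b * d'; c * a' + d * c', c * b' + d * d'] :=
  Matrix.mul_fin_two a b c d a' b' c' d'

theorem up_mul {x : Matrix α α F} (s t : Sx x) : up s * up t = up (s + t) := by
  apply Subtype.ext
  rw [Matrix.SpecialLinearGroup.coe_mul, coe_up, coe_up, coe_up, mul_fin_two']
  simp [add_comm]

theorem lo_mul {x : Matrix α α F} (s t : Sx x) : lo s * lo t = lo (s + t) := by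
  apply Subtype.ext
  rw [Matrix.SpecialLinearGroup.coe_mul, coe_lo, coe_lo, coe_lo, mul_fin_two']
  simp

theorem up_zero {x : Matrix α α F} : up (0 : Sx x) = 1 := Subtype.ext (by
  rw [coe_up, Matrix.SpecialLinearGroup.coe_one, Matrix.one_fin_two])

theorem lo_zero {x : Matrix α α F} : lo (0 : Sx x) = 1 := Subtype.ext (by
  rw [coe_lo, Matrix.SpecialLinearGroup.coe_one, Matrix.one_fin_two])

theorem mat_three {R : Type*} [CommRing R] {e s t : R} (hst : s * t = -e) (hse : s * e = s) :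
    !![1, s; 0, 1] * !![1, 0; t, 1] * !![1, s; 0, 1] = !![1 - e, s; t, 1 - e] := by
  rw [mul_fin_two', mul_fin_two']
  have a : (1 * 1 + s * t) * 1 + (1 * 0 + s * 1) * 0 = 1 - e := by linear_combination hst
  have b : (1 * 1 + s * t) * s + (1 * 0 + s * 1) * 1 = s := by linear_combination s * hst - hse
  have c : (0 * 1 + 1 * t) * 1 + (0 * 0 + 1 * 1) * 0 = t := by ring
  have d : (0 * 1 + 1 * t) * s + (0 * 0 + 1 * 1) * 1 = 1 - e := by linear_combination hst
  rw [a, b, c, d]

theorem mat_pow {R : Type*} [CommRing R] {e f a c g : R} (hef : e * f = 0) (h1 : f + e = 1) (n : ℕ) :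
    !![f + a * e, 0; g * f, f + c * e] ^ n = !![f + a ^ n * e, 0; n * (g * f), f + c ^ n * e] := by
  have hee : e * e = e := by linear_combination e * h1 - hef
  have hff : f * f = f := by linear_combination f * h1 - hef
  induction n with
  | zero => simp [h1, Matrix.one_fin_two]
  | succ n ih =>
    rw [pow_succ, ih, mul_fin_two']
    have a1 : (f + a ^ n * e) * (f + a * e) + 0 * (g * f) = f + a ^ (n + 1) * e := by
      linear_combination hff + (a + a ^ n) * hef + a * a ^ n * hee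
    have c1 : (n : R) * (g * f) * (f + a * e) + (f + c ^ n * e) * (g * f) = ((n + 1 : ℕ) : R) * (g * f) := by
      push_cast
      linear_combination ((n : R) * g + g) * hff + ((n : R) * g * a + c ^ n * g) * hef
    have d1 : (n : R) * (g * f) * 0 + (f + c ^ n * e) * (f + c * e) = f + c ^ (n + 1) * e := by
      linear_combination hff + (c + c ^ n) * hef + c * c ^ n * hee
    rw [a1, c1, d1]
    simp

theorem pow_prime_pow_eq_one {p : ℕ} [Fact p.Prime] [CharP F p] {c : F} {k : ℕ} (h : c ^ p ^ k = 1) : c = 1 := by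
  have e := sub_pow_char_pow (p := p) c 1 k
  rw [h, one_pow, sub_self] at e
  exact sub_eq_zero.1 (eq_zero_of_pow_eq_zero e)

/-- The upper unitriangular group. -/
def upperU (R : Type*) [CommRing R] : Subgroup SL(2, R) where
  carrier := {s | s 0 0 = 1 ∧ s 1 0 = 0 ∧ s 1 1 = 1}
  one_mem' := by simp
  mul_mem' {s t} hs ht := by
    obtain ⟨a, c, d⟩ := hs
    obtain ⟨a', c', d'⟩ := ht
    refine ⟨?_, ?_, ?_⟩ <;> simp [Matrix.mul_apply, Fin.sum_univ_two, a, c, d, a', c', d']
  inv_mem' {s} hs := by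
    obtain ⟨a, c, d⟩ := hs
    have e : (s⁻¹ : SL(2, R)) 0 0 = s 1 1 ∧ (s⁻¹ : SL(2, R)) 1 0 = -s 1 0 ∧ (s⁻¹ : SL(2, R)) 1 1 = s 0 0 := by
      rw [Matrix.SpecialLinearGroup.SL2_inv_expl]
      exact ⟨rfl, rfl, rfl⟩
    exact ⟨by rw [e.1, d], by rw [e.2.1, c, neg_zero], by rw [e.2.2, a]⟩

theorem upperU_pow {R : Type*} [CommRing R] {s : SL(2, R)} (hs : s ∈ upperU R) (n : ℕ) :
    (s ^ n) 0 1 = n * s 0 1 := by
  induction n with
  | zero => simp
  | succ n ih =>
    rw [pow_succ]
    have hn := (upperU R).pow_mem hs n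
    simp only [Matrix.SpecialLinearGroup.coe_mul, Matrix.mul_apply, Fin.sum_univ_two, hn.1, ih, hs.2.2]
    push_cast
    ring

theorem upperU_isPGroup {R : Type*} [CommRing R] {p : ℕ} [CharP R p] : IsPGroup p (upperU R) := by
  rintro ⟨s, hs⟩
  refine ⟨1, Subtype.ext ?_⟩
  have hp := (upperU R).pow_mem hs p
  rw [pow_one, SubgroupClass.coe_pow, OneMemClass.coe_one]
  apply Subtype.ext
  ext i j
  rw [Matrix.SpecialLinearGroup.coe_one, Matrix.one_fin_two]
  fin_cases i <;> fin_cases j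
  · exact hp.1
  · simpa using upperU_pow hs p
  · exact hp.2.1
  · exact hp.2.2

/-- A full root group and its opposite generate an element with unit entry. -/
theorem one_mem_of_pair {E : Type*} [Field E] [Finite E] (h2 : (2 : E) ≠ 0) {lam : E} (hlam : lam ≠ 0)
    (hsq : lam ^ 2 ≠ -1) (R : Subgroup SL(2, E))
    (hl : ∀ s : SL(2, E), (s : Matrix (Fin 2) (Fin 2) E) = !![1, 0; 1, 1] → s ∈ R)
    (hu : ∀ s : SL(2, E), (s : Matrix (Fin 2) (Fin 2) E) = !![1, lam; 0, 1] → s ∈ R) :
    ∃ s ∈ R, (s : Matrix (Fin 2) (Fin 2) E) = !![1, 1; 0, 1] := by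
  classical
  let K' : Subfield E := Subfield.closure {lam}
  let lam' : K' := ⟨lam, Subfield.subset_closure rfl⟩
  letI : Fintype K' := Fintype.ofFinite _
  have hgen : Subfield.closure ({lam'} : Set K') = ⊤ := by
    rw [eq_top_iff]
    rintro ⟨z, hz⟩ -
    have hle : K' ≤ (Subfield.closure ({lam'} : Set K')).map K'.subtype :=
      Subfield.closure_le.2 fun t ht => ⟨lam', Subfield.subset_closure rfl, (Set.mem_singleton_iff.1 ht).symm⟩
    obtain ⟨z', hz', e⟩ := hle hz
    have : z' = ⟨z, hz⟩ := Subtype.ext e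
    exact this ▸ hz'
  rcases Cfsg.Agent.S0801.result (F := K') (fun h => h2 (congrArg Subtype.val h)) lam'
    (fun h => hlam (congrArg Subtype.val h)) hgen with ⟨htop, -⟩ | ⟨-, h, -⟩
  swap
  · exact absurd (congrArg Subtype.val h) hsq
  have hle : (⊤ : Subgroup SL(2, K')) ≤ R.comap (Matrix.SpecialLinearGroup.map K'.subtype) := by
    rw [← htop]
    refine (Subgroup.closure_le _).2 ?_
    rintro s (hs | hs)
    · refine hl _ ?_
      ext i j
      change K'.subtype (s i j) = _
      rw [hs]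
      fin_cases i <;> fin_cases j <;> simp
    · refine hu _ ?_
      ext i j
      change K'.subtype (s i j) = _
      rw [hs]
      fin_cases i <;> fin_cases j <;> simp [lam']
  let g₁ : SL(2, K') := ⟨!![1, 1; 0, 1], by simp [det_fin_two_of]⟩
  refine ⟨_, hle (Subgroup.mem_top g₁), ?_⟩
  ext i j
  change K'.subtype ((!![1, 1; 0, 1] : Matrix (Fin 2) (Fin 2) K') i j) = _
  fin_cases i <;> fin_cases j <;> simp

/-- Elements of a preimage of a p-group commuting with a given element of order p. -/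
theorem exists_commuting {p : ℕ} [Fact p.Prime] {G : Type*} [Group G] [Finite G] {H' : Type*} [Group H']
    {Q : Type*} [Group Q] (Φ : G →* H') (toQ : G →* Q) {U : Subgroup H'} (hU : IsPGroup p U) {u : G}
    (hu : Φ u ∈ U) (hup : u ^ p = 1)
    (hcl : ∀ y : G, Φ y ∈ U → (∃ j : ℕ, y ^ p ^ j = 1) → Commute (toQ (y * u * y⁻¹)) (toQ u) →
      Commute (toQ y) (toQ u))
    {y₀ : G} (hy₀ : Φ y₀ ∈ U) : ∃ y : G, Φ y = Φ y₀ ∧ Commute (toQ y) (toQ u) := by
  classical
  let W : Subgroup G := U.comap Φ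
  let u' : W := ⟨u, hu⟩
  have hzp : IsPGroup p (Subgroup.zpowers u') := by
    rintro ⟨z, i, rfl⟩
    refine ⟨1, Subtype.ext (Subtype.ext ?_)⟩
    simp only [pow_one, SubgroupClass.coe_pow, OneMemClass.coe_one, SubgroupClass.coe_zpow, u']
    rw [← zpow_natCast, ← _root_.zpow_mul, mul_comm, _root_.zpow_mul, zpow_natCast, hup, _root_.one_zpow]
  obtain ⟨T, hT⟩ := hzp.exists_le_sylow
  let toQT : (T : Subgroup W) →* Q := toQ.comp (W.subtype.comp (T : Subgroup W).subtype)
  let C : Subgroup (T : Subgroup W) := (Subgroup.centralizer {toQ u}).comap toQT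
  have hC : C = ⊤ := by
    have := IsPGroup.isNilpotent T.isPGroup'
    refine normalizerCondition_iff_only_full_group_self_normalizing.1 Group.normalizerCondition_of_isNilpotent C
      (le_antisymm (fun y hy => ?_) Subgroup.le_normalizer)
    let u'' : (T : Subgroup W) := ⟨u', hT (Subgroup.mem_zpowers u')⟩
    have hu''C : u'' ∈ C := by
      rw [Subgroup.mem_comap, Subgroup.mem_centralizer_singleton_iff]
      rfl
    have hconj := (Subgroup.mem_normalizer_iff.1 hy u'').1 hu''C
    rw [Subgroup.mem_comap, Subgroup.mem_centralizer_singleton_iff] at hconj ⊢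
    obtain ⟨j, hj⟩ := T.isPGroup' y
    exact hcl _ (y : W).2 ⟨j, congrArg (fun z : (T : Subgroup W) => ((z : W) : G)) hj⟩ hconj
  have hmapP : IsPGroup p (W.map Φ) := hU.to_le (Subgroup.map_comap_le _ _)
  let T' := Sylow.mapSurjective (Φ.subgroupMap_surjective W) T
  have hT' : (⊤ : Subgroup (W.map Φ)) = T' :=
    T'.is_maximal' (hmapP.of_equiv Subgroup.topEquiv.symm) le_top
  have hmem : (⟨Φ y₀, y₀, hy₀, rfl⟩ : W.map Φ) ∈ (T' : Subgroup (W.map Φ)) := hT' ▸ Subgroup.mem_top _
  rw [Sylow.coe_mapSurjective] at hmem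
  obtain ⟨y, hyT, hy⟩ := hmem
  have hyC : (⟨y, hyT⟩ : (T : Subgroup W)) ∈ C := hC ▸ Subgroup.mem_top _
  rw [Subgroup.mem_comap, Subgroup.mem_centralizer_singleton_iff] at hyC
  exact ⟨y, congrArg Subtype.val hy, hyC⟩

end Cfsg.Agent.H58.Wreath.Sp
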