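import Cfsg.Agent.H58.Wreath.Sp.Residue

/-!
The invariant of a nonpure conjugate root with least spectrum is a multiple of an idempotent.
-/

set_option autoImplicit false
set_option linter.unusedSectionVars false

namespace Cfsg.Agent.H58.Wreath.Sp

open Matrix
open Cfsg.Agent.H99.Tensor
open Cfsg.Agent.H99.TensorS (SympMat bf rk adj phi el ct)
open scoped Kronecker MatrixGroups

variable {F : Type*} [Field F] {α : Type} [Fintype α] [DecidableEq α] {b : ℕ} {JA : Matrix α α F}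
  {JB : Matrix (Fin b) (Fin b) F} {M : Subgroup (GL (α × Fin b) F)}

local notation "Ix" => α × Fin b

/-- The nonzero eigenvalues. -/
noncomputable def lam [Fintype F] (x : Matrix α α F) : Finset F := by
  classical exact Finset.univ.filter fun c => c ≠ 0 ∧ (x - c • 1).det = 0

theorem mem_lam [Fintype F] {x : Matrix α α F} {c : F} : c ∈ lam x ↔ c ≠ 0 ∧ (x - c • 1).det = 0 := by
  simp [lam]

theorem coe_sub_alg {x : Matrix α α F} (s : Sx x) (c : F) :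
    ((s - algebraMap F (Sx x) c : Sx x) : Matrix α α F) = (s : Matrix α α F) - c • 1 := by
  rw [Subalgebra.coe_sub, Subalgebra.coe_algebraMap, Algebra.algebraMap_eq_smul_one]

theorem coe_alg_sub {x : Matrix α α F} (s : Sx x) (c : F) :
    ((algebraMap F (Sx x) c - s : Sx x) : Matrix α α F) = -((s : Matrix α α F) - c • 1) := by
  rw [← coe_sub_alg, ← Subalgebra.coe_neg, neg_sub]

namespace Frames

variable (S : Frames JA JB M) (H : Setup JA JB M)
include H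

theorem exists_eigen [Nonempty α] [Fintype F] (hb : b = 2) (hnp : ¬ IsPure (1 + S.B)) :
    ∃ c, c ∈ lam S.x := by
  obtain ⟨P, hP, hPx⟩ : ∃ P : Ideal (Sx S.x), P.IsPrime ∧ th S.x ∉ P := by
    by_contra hc
    push Not at hc
    exact S.not_nilpotent H hnp ((nilpotent_iff_mem_prime.2 hc).map (Sx S.x).val)
  obtain ⟨c, hc, hcP⟩ := S.residue H hb P hPx
  refine ⟨c, mem_lam.2 ⟨hc, ?_⟩⟩
  have := det_of_mem hP hcP
  rwa [coe_sub_alg] at this

/-- The element killing an eigenvalue. -/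
noncomputable def kk (θ₁ : F) : GL Ix F × SL(2, Sx S.x) × SL(2, Sx S.x₁) :=
  S.gB H 1 * S.gA H θ₁⁻¹ * S.gB H (-(2 : F)⁻¹)

theorem kk_mem (θ₁ : F) : S.kk H θ₁ ∈ S.K H :=
  mul_mem (mul_mem (S.gB_mem H _) (S.gA_mem H _)) (S.gB_mem H _)

theorem kk_entries {θ₁ : F} (hθ0 : θ₁ ≠ 0) :
    (S.kk H θ₁).2.1 1 0 = algebraMap F (Sx S.x) (2⁻¹ * θ₁⁻¹) * (algebraMap F (Sx S.x) θ₁ - th S.x) ∧
      (S.kk H θ₁).2.1 0 0 =
        1 + algebraMap F (Sx S.x) θ₁⁻¹ * th S.x * algebraMap F (Sx S.x) (-(2 : F)⁻¹) := by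
  set κ := algebraMap F (Sx S.x) with hκ
  have h : ((S.kk H θ₁).2.1 : Matrix (Fin 2) (Fin 2) (Sx S.x)) =
      !![1, 0; 1, 1] * !![1, κ θ₁⁻¹ * th S.x; 0, 1] * !![1, 0; κ (-(2 : F)⁻¹), 1] := by
    simp only [kk, gA, gB, Prod.mk_mul_mk, Matrix.SpecialLinearGroup.coe_mul, coe_up, coe_lo, Algebra.smul_def,
      mul_one, map_one, one_mul, ← hκ]
  rw [mul_fin_two', mul_fin_two'] at h
  refine ⟨(congrFun (congrFun h 1) 0).trans ?_, (congrFun (congrFun h 0) 0).trans ?_⟩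
  · have e1 : κ (2⁻¹ * θ₁⁻¹) * κ θ₁ = κ 2⁻¹ := by rw [← map_mul, mul_assoc, inv_mul_cancel₀ hθ0, mul_one]
    have e2 : κ (-(2 : F)⁻¹) = -κ 2⁻¹ := map_neg _ _
    have e3 : κ (2⁻¹ * θ₁⁻¹) = κ 2⁻¹ * κ θ₁⁻¹ := map_mul _ _ _
    have e4 : κ 2⁻¹ + κ 2⁻¹ = 1 := by
      rw [← map_add, ← two_mul, mul_inv_cancel₀ H.two, map_one]
    change (1 * 1 + 1 * 0) * 1 + (1 * (κ θ₁⁻¹ * th S.x) + 1 * 1) * κ (-(2 : F)⁻¹) = _
    linear_combination (1 + κ θ₁⁻¹ * th S.x) * e2 + th S.x * e3 - e1 - e4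
  · simp

/-- The invariant of a nonpure root of least spectrum has one nonzero eigenvalue and is semisimple. -/
theorem step [Nonempty α] [Fintype F] (hb : b = 2)
    (ih : ∀ S' : Frames JA JB M, (lam S'.x).card < (lam S.x).card → IsPure (1 + S'.B))
    {θ₁ : F} (hθ₁ : θ₁ ∈ lam S.x) : th S.x * th S.x = θ₁ • th S.x := by
  classical
  obtain ⟨hθ0, hθdet⟩ := mem_lam.1 hθ₁
  obtain ⟨v, hv⟩ := H.sB.exists_one S.hw
  have hkK := S.kk_mem H θ₁
  obtain ⟨hγ, ha⟩ := S.kk_entries H hθ0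
  set k := S.kk H θ₁
  set u := th S.x with hu
  set κ := algebraMap F (Sx S.x) with hκ
  set γ := k.2.1 1 0 with hγdef
  set S' : Frames JA JB M := ⟨(k.1 : Matrix Ix Ix F), S.w, S.w, S.K_inM H hkK, S.hw, S.hw⟩ with hS'
  have hx' : S'.x = ((-((u * γ) * (u * γ)) : Sx S.x) : Matrix α α F) := S.x_conj H hkK
  set φ : F → F := fun c => -((c * (2⁻¹ * θ₁⁻¹ * (θ₁ - c))) * (c * (2⁻¹ * θ₁⁻¹ * (θ₁ - c)))) with hφ
  have hsub : lam S'.x ⊆ ((lam S.x).erase θ₁).image φ := by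
    intro c' hc'
    obtain ⟨hc'0, hdet⟩ := mem_lam.1 hc'
    rw [hx', ← coe_sub_alg] at hdet
    obtain ⟨P, hP, hmem⟩ := exists_prime_of_det hdet
    have hPu : u ∉ P := by
      intro hu'
      refine hc'0 (eq_zero_of_mem hP ?_)
      have : -(-(u * γ * (u * γ)) - κ c') + -(u * γ * (u * γ)) = κ c' := by ring
      rw [← this]
      exact add_mem (neg_mem hmem) (neg_mem (P.mul_mem_right _ (P.mul_mem_right _ hu')))
    obtain ⟨c, hc, hcP⟩ := S.residue H hb P hPu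
    have hc' : c' = φ c := by
      have hz : κ (φ c - c') ∈ P := by
        set g := κ (2⁻¹ * θ₁⁻¹) with hg
        have e : κ (φ c - c') = (-(u * γ * (u * γ)) - κ c') +
            (u - κ c) * ((u * γ + κ c * (g * (κ θ₁ - κ c))) * (g * (κ θ₁ - u - κ c))) := by
          rw [hγ, hφ]
          simp only [map_sub, map_neg, map_mul, g]
          ring
        rw [e]
        exact add_mem hmem (P.mul_mem_right _ hcP)
      exact (sub_eq_zero.1 (eq_zero_of_mem hP hz)).symm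
    refine Finset.mem_image.2 ⟨c, Finset.mem_erase.2 ⟨?_, mem_lam.2 ⟨hc, ?_⟩⟩, hc'.symm⟩
    · intro h
      exact hc'0 (by rw [hc', h, hφ]; simp)
    · have := det_of_mem hP hcP
      rwa [coe_sub_alg] at this
  have hlt : (lam S'.x).card < (lam S.x).card :=
    (Finset.card_le_card hsub).trans_lt (Finset.card_image_le.trans_lt (Finset.card_erase_lt_of_mem hθ₁))
  have hdetγ : ((u * γ : Sx S.x) : Matrix α α F).det = 0 := by
    have h : (((κ θ₁ - u : Sx S.x)) : Matrix α α F) = -(S.x - θ₁ • 1) := coe_alg_sub u θ₁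
    rw [hγ, Subalgebra.coe_mul, Subalgebra.coe_mul, det_mul, det_mul, h, Matrix.det_neg, hθdet, mul_zero, mul_zero,
      mul_zero]
  rcases S.pure_conj H hb hkK (ih S' hlt) hdetγ with h5 | ⟨c, hc, hA⟩
  · exfalso
    obtain ⟨P, hP, hmem⟩ := exists_prime_of_det (x := S.x) (s := u - κ θ₁) (by rw [coe_sub_alg]; exact hθdet)
    rw [← hu, ha] at h5
    have hz : κ ((1 + θ₁⁻¹ * θ₁ * -(2 : F)⁻¹) * (1 + θ₁⁻¹ * θ₁ * -(2 : F)⁻¹) * θ₁ ^ 5) ∈ P := by
      have e : Ideal.Quotient.mk P (κ ((1 + θ₁⁻¹ * θ₁ * -(2 : F)⁻¹) * (1 + θ₁⁻¹ * θ₁ * -(2 : F)⁻¹) * θ₁ ^ 5)) =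
          Ideal.Quotient.mk P ((1 + κ θ₁⁻¹ * u * κ (-(2 : F)⁻¹)) * (1 + κ θ₁⁻¹ * u * κ (-(2 : F)⁻¹)) * u ^ 5) := by
        have hq : Ideal.Quotient.mk P u = Ideal.Quotient.mk P (κ θ₁) := Ideal.Quotient.eq.2 hmem
        simp only [map_mul, map_add, map_pow, map_one, hq]
      rw [h5, map_zero] at e
      exact Ideal.Quotient.eq_zero_iff_mem.1 e
    have := eq_zero_of_mem hP hz
    rw [inv_mul_cancel₀ hθ0, one_mul] at this
    have hhalf : (1 + -(2 : F)⁻¹) ≠ 0 := by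
      rw [← sub_eq_add_neg, sub_ne_zero]
      intro h
      have := congrArg (· * (2 : F)) h
      simp only [one_mul, inv_mul_cancel₀ H.two] at this
      exact one_ne_zero (by linear_combination this : (1 : F) = 0)
    exact mul_ne_zero (mul_ne_zero hhalf hhalf) (pow_ne_zero _ hθ0) this
  have hxγ := (S.layer_of_fix H hkK hc hA hv).1
  rw [← hu, ← hγdef, hγ, mul_left_comm] at hxγ
  have hunit : IsUnit (κ (2⁻¹ * θ₁⁻¹)) :=
    (IsUnit.mk0 _ (mul_ne_zero (inv_ne_zero H.two) (inv_ne_zero hθ0))).map κ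
  have h := hunit.mul_right_eq_zero.1 hxγ
  rw [Algebra.smul_def, ← hκ]
  linear_combination -h

end Frames

end Cfsg.Agent.H58.Wreath.Sp
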