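import Cfsg.Agent.H58.Wreath.Sp.Step

/-!
A conjugate root whose invariant is a multiple of an idempotent is pure: a torus of the plane group.
-/

set_option autoImplicit false
set_option linter.unusedSectionVars false

namespace Cfsg.Agent.H58.Wreath.Sp

open Matrix
open Cfsg.Agent.H99.Tensor
open Cfsg.Agent.H99.TensorS (SympMat bf rk adj phi el ct)
open scoped Kronecker MatrixGroups

variable {F : Type*} [Field F] {α : Type} [Fintype α] [DecidableEq α] {b : ℕ} {JA : Matrix α α F}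
  {JB : Matrix (Fin b) (Fin b) F} {M : Subgroup (GL (α × Fin b) F)}

local notation "Ix" => α × Fin b

/-- The product of two reversing elements. -/
theorem mat_rev {R : Type*} [CommRing R] {e u a a' t s₁ : R} (hu : (1 - e) * u = 0) (hee : e * e = e)
    (ha : u * s₁ = e) (ht : t * u = -(a' * e)) :
    !![1 - e, a * u; t, 1 - e] * !![1 - e, -u; s₁, 1 - e] =
      !![(1 - e) + a * e, 0; (t + s₁) * (1 - e), (1 - e) + a' * e] := by
  rw [mul_fin_two']
  have e1 : (1 - e) * (1 - e) + a * u * s₁ = (1 - e) + a * e := by linear_combination hee + a * ha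
  have e2 : (1 - e) * -u + a * u * (1 - e) = 0 := by linear_combination (a - 1) * hu
  have e3 : t * (1 - e) + (1 - e) * s₁ = (t + s₁) * (1 - e) := by ring
  have e4 : t * -u + (1 - e) * (1 - e) = (1 - e) + a' * e := by linear_combination hee - ht
  rw [e1, e2, e3, e4]

namespace Frames

variable (S : Frames JA JB M) (H : Setup JA JB M)
include H

/-- The element of the plane group reversing the two blocks. -/
noncomputable def nK (θ₁ d : F) : GL Ix F × SL(2, Sx S.x) × SL(2, Sx S.x₁) :=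
  S.gA H d * S.gB H (-(d * θ₁)⁻¹) * S.gA H d

theorem nK_mem (θ₁ d : F) : S.nK H θ₁ d ∈ S.K H :=
  mul_mem (mul_mem (S.gA_mem H _) (S.gB_mem H _)) (S.gA_mem H _)

/-- The torus element. -/
noncomputable def torus (θ₁ r : F) (n : ℕ) : GL Ix F × SL(2, Sx S.x) × SL(2, Sx S.x₁) :=
  (S.nK H θ₁ r * S.nK H θ₁ (-1)) ^ n

theorem torus_mem (θ₁ r : F) (n : ℕ) : S.torus H θ₁ r n ∈ S.K H :=
  pow_mem (mul_mem (S.nK_mem H _ _) (S.nK_mem H _ _)) n

theorem torus_act {θ₁ r : F} (hθ0 : θ₁ ≠ 0) (hr0 : r ≠ 0) (hsq : th S.x * th S.x = θ₁ • th S.x) {p : ℕ}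
    [CharP F p] {e : Sx S.x} (he : e = algebraMap F (Sx S.x) θ₁⁻¹ * th S.x) :
    (S.torus H θ₁ r p).2.1 0 0 = (1 - e) + algebraMap F (Sx S.x) r ^ p * e ∧ (S.torus H θ₁ r p).2.1 1 0 = 0 ∧
      e * e = e := by
  set u := th S.x with hu
  set κ := algebraMap F (Sx S.x) with hκ
  rw [Algebra.smul_def, ← hκ] at hsq
  have hθκ : κ θ₁⁻¹ * κ θ₁ = 1 := by rw [← map_mul, inv_mul_cancel₀ hθ0, map_one]
  have hee : e * e = e := by rw [he]; linear_combination (κ θ₁⁻¹ * κ θ₁⁻¹) * hsq + κ θ₁⁻¹ * u * hθκ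
  have hN : ∀ d : F, d ≠ 0 → ((S.nK H θ₁ d).2.1 : Matrix (Fin 2) (Fin 2) (Sx S.x)) =
      !![1 - e, κ d * u; κ (-(d * θ₁)⁻¹), 1 - e] := by
    intro d hd
    have hst : (κ d * u) * κ (-(d * θ₁)⁻¹) = -e := by
      have : κ d * κ (-(d * θ₁)⁻¹) = -κ θ₁⁻¹ := by
        rw [← map_mul, ← map_neg κ θ₁⁻¹]
        congr 1
        field_simp
      rw [he]; linear_combination u * this
    have hse : (κ d * u) * e = κ d * u := by
      rw [he]; linear_combination κ d * κ θ₁⁻¹ * hsq + κ d * u * hθκ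
    rw [← mat_three hst hse]
    simp only [nK, gA, gB, Prod.mk_mul_mk, Matrix.SpecialLinearGroup.coe_mul, coe_up, coe_lo, Algebra.smul_def,
      mul_one, ← hκ, ← hu]
  have hp0 : (p : Sx S.x) = 0 := by
    rw [← map_natCast κ, CharP.cast_eq_zero F p, map_zero]
  have hprod : ((S.nK H θ₁ r * S.nK H θ₁ (-1)).2.1 : Matrix (Fin 2) (Fin 2) (Sx S.x)) =
      !![(1 - e) + κ r * e, 0; (κ (-(r * θ₁)⁻¹) + κ θ₁⁻¹) * (1 - e), (1 - e) + κ r⁻¹ * e] := by
    rw [Prod.snd_mul, Prod.fst_mul, Matrix.SpecialLinearGroup.coe_mul, hN r hr0, hN (-1) (neg_ne_zero.2 one_ne_zero)]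
    have e1 : κ (-(-1 * θ₁)⁻¹) = κ θ₁⁻¹ := by rw [neg_one_mul, inv_neg, neg_neg]
    have e4 : κ (-1) * u = -u := by rw [map_neg, map_one, neg_one_mul]
    have e2 : κ (-(r * θ₁)⁻¹) = -(κ r⁻¹ * κ θ₁⁻¹) := by rw [map_neg, mul_inv, map_mul]
    rw [e1, e4]
    refine mat_rev ?_ hee ?_ ?_
    · rw [he]; linear_combination -κ θ₁⁻¹ * hsq - u * hθκ
    · rw [he]; ring
    · rw [he, e2]; ring
  have h : ((S.torus H θ₁ r p).2.1 : Matrix (Fin 2) (Fin 2) (Sx S.x)) =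
      !![(1 - e) + κ r ^ p * e, 0; 0, (1 - e) + κ r⁻¹ ^ p * e] := by
    rw [torus, Prod.pow_snd, Prod.pow_fst, Matrix.SpecialLinearGroup.coe_pow, hprod,
      mat_pow (by linear_combination -hee) (by ring), hp0, zero_mul]
  exact ⟨(congrFun (congrFun h 0) 0).trans rfl, (congrFun (congrFun h 1) 0).trans rfl, hee⟩

theorem torus_act₁ {θ₁ r : F} (hθ0 : θ₁ ≠ 0) (hr0 : r ≠ 0) (hx₁ : S.x₁ = θ₁ • 1) (p : ℕ) :
    (S.torus H θ₁ r p).2.2 0 0 = algebraMap F (Sx S.x₁) r⁻¹ ^ p ∧ (S.torus H θ₁ r p).2.2 1 0 = 0 := by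
  set κ₁ := algebraMap F (Sx S.x₁) with hκ₁
  have hth₁ : th S.x₁ = κ₁ θ₁ := Subtype.ext (by
    rw [hκ₁, Subalgebra.coe_algebraMap, Algebra.algebraMap_eq_smul_one]; exact hx₁)
  have hN₁ : ∀ d : F, d ≠ 0 → ((S.nK H θ₁ d).2.2 : Matrix (Fin 2) (Fin 2) (Sx S.x₁)) =
      !![0, κ₁ (-d⁻¹); κ₁ d, 0] := by
    intro d hd
    have e1 : κ₁ (-(d * θ₁)⁻¹) * κ₁ θ₁ = κ₁ (-d⁻¹) := by
      rw [← map_mul]
      congr 1
      field_simp
    have e2 : κ₁ d * κ₁ (-d⁻¹) = -1 := by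
      rw [← map_mul, mul_neg, mul_inv_cancel₀ hd, map_neg, map_one]
    simp only [nK, gA, gB, Prod.mk_mul_mk, Matrix.SpecialLinearGroup.coe_mul, coe_up, coe_lo, Algebra.smul_def,
      mul_one, ← hκ₁, hth₁, e1]
    rw [mul_fin_two', mul_fin_two']
    have a1 : (1 * 1 + (0 : Sx S.x₁) * 0) * 1 + (1 * κ₁ (-d⁻¹) + 0 * 1) * κ₁ d = 0 := by linear_combination e2
    have a2 : (1 * 1 + (0 : Sx S.x₁) * 0) * 0 + (1 * κ₁ (-d⁻¹) + 0 * 1) * 1 = κ₁ (-d⁻¹) := by ring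
    have a3 : (κ₁ d * 1 + 1 * 0) * 1 + (κ₁ d * κ₁ (-d⁻¹) + 1 * 1) * κ₁ d = κ₁ d := by
      linear_combination κ₁ d * e2
    have a4 : (κ₁ d * 1 + 1 * 0) * 0 + (κ₁ d * κ₁ (-d⁻¹) + 1 * 1) * 1 = 0 := by linear_combination e2
    rw [a1, a2, a3, a4]
  have hprod : ((S.nK H θ₁ r * S.nK H θ₁ (-1)).2.2 : Matrix (Fin 2) (Fin 2) (Sx S.x₁)) =
      !![(0 : Sx S.x₁) + κ₁ r⁻¹ * 1, 0; (0 : Sx S.x₁) * 0, (0 : Sx S.x₁) + κ₁ r * 1] := by
    rw [Prod.snd_mul, Prod.snd_mul, Matrix.SpecialLinearGroup.coe_mul, hN₁ r hr0,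
      hN₁ (-1) (neg_ne_zero.2 one_ne_zero), mul_fin_two']
    have a1 : (0 : Sx S.x₁) * 0 + κ₁ (-r⁻¹) * κ₁ (-1) = 0 + κ₁ r⁻¹ * 1 := by
      rw [map_neg, map_neg, map_one]; ring
    have a2 : (0 : Sx S.x₁) * κ₁ (- -(1 : F)⁻¹) + κ₁ (-r⁻¹) * 0 = 0 := by ring
    have a4 : κ₁ r * κ₁ (-(-1 : F)⁻¹) + (0 : Sx S.x₁) * 0 = 0 + κ₁ r * 1 := by
      rw [inv_neg, neg_neg, inv_one, map_one]; ring
    rw [a1, a4]
    simp
  have h : ((S.torus H θ₁ r p).2.2 : Matrix (Fin 2) (Fin 2) (Sx S.x₁)) =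
      !![κ₁ r⁻¹ ^ p, 0; 0, κ₁ r ^ p] := by
    rw [torus, Prod.pow_snd, Prod.pow_snd, Matrix.SpecialLinearGroup.coe_pow, hprod,
      mat_pow (mul_zero _) (zero_add _)]
    simp
  exact ⟨(congrFun (congrFun h 0) 0).trans rfl, (congrFun (congrFun h 1) 0).trans rfl⟩

/-- A root whose invariant is a multiple of an idempotent is pure. -/
theorem pure_of_idem [Nonempty α] [Finite F] (hb : b = 2) {θ₁ : F} (hθ0 : θ₁ ≠ 0) (hx : S.x ≠ 0)
    (hsq : th S.x * th S.x = θ₁ • th S.x) : IsPure (1 + S.B) := by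
  by_contra hnp
  obtain ⟨r, hr0, hr⟩ := H.size_two hb
  obtain ⟨p, hp⟩ := CharP.exists F
  have : Fact p.Prime := ⟨CharP.char_is_prime F p⟩
  set u := th S.x with hu
  set κ := algebraMap F (Sx S.x) with hκ
  set e := κ θ₁⁻¹ * u with he
  obtain ⟨t00, t10, hee⟩ := S.torus_act H hθ0 hr0 hsq (p := p) he
  have hθκ : κ θ₁⁻¹ * κ θ₁ = 1 := by rw [← map_mul, inv_mul_cancel₀ hθ0, map_one]
  set y := S.torus H θ₁ r p with hy
  have hyK := S.torus_mem H θ₁ r p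
  have hM := S.K_inM H hyK
  set a := (1 - e) + κ r ^ p * e with ha
  have hya : (y.1 : Matrix Ix Ix F) * S.P = S.P * (a : Matrix α α F) := by
    rw [(S.K_rel H hyK).1, t00, t10, ZeroMemClass.coe_zero, Matrix.mul_zero, add_zero]
  set R := r ^ p with hRdef
  have hR0 : R ≠ 0 := pow_ne_zero _ hr0
  have hR : R * R ≠ 1 := fun h => hr
    (frobenius_inj F p (a₁ := r * r) (a₂ := 1) (by simpa [frobenius_def, mul_pow, hRdef] using h))
  obtain ⟨c, hc⟩ : ∃ c : F, ((a * a : Sx S.x) : Matrix α α F) = c • 1 := by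
    refine H.lay S.w _ S.hw ?_
    have h := H.root_mem (B := (y.1 : Matrix Ix Ix F) * rootR α JB S.w *
      adj (JA ⊗ₖ JB) (JA ⊗ₖ JB) (y.1 : Matrix Ix Ix F)) ⟨_, S.w, hM, S.hw, rfl⟩ 1
    rw [one_smul, rootR_eq] at h
    have e1 : phi α JB S.w * adj (JA ⊗ₖ JB) (JA ⊗ₖ JB) (y.1 : Matrix Ix Ix F) =
        (a : Matrix α α F) * phi α JB S.w := by
      rw [← adjA_lft (JA := JA) H.uA S.w, ← H.adjA_mul_iso, show lft α S.w = S.P from rfl, hya, P,
        adjA_lft_mul H.uA, S.adj_Sx H, adjA_lft H.uA]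
    rw [← Matrix.mul_assoc, show (y.1 : Matrix Ix Ix F) * lft α S.w = S.P * (a : Matrix α α F) from hya,
      Matrix.mul_assoc (S.P * (a : Matrix α α F)), e1, ← Matrix.mul_assoc, Matrix.mul_assoc S.P,
      ← Subalgebra.coe_mul, P, H99.TensorS.lft_mid_phi] at h
    exact h
  have hf : e = 1 := by
    have hc' : a * a = κ c := Subtype.ext (by
      rw [hc, hκ, Subalgebra.coe_algebraMap, Algebra.algebraMap_eq_smul_one])
    have he0 : e ≠ 0 := fun h => hx (by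
      have : u = κ θ₁ * e := by rw [he]; linear_combination -u * hθκ
      rw [h, mul_zero] at this
      exact congrArg Subtype.val this)
    have hRκ : κ (R * R) = κ r ^ p * κ r ^ p := by rw [map_mul, hRdef, map_pow]
    have h1 : (κ (R * R) - κ c) * e = 0 := by
      have := congrArg (· * e) hc'
      rw [hRκ]
      simp only [ha] at this
      linear_combination this - ((1 - e) + κ r ^ p * e + κ r ^ p) * (κ r ^ p - 1) * hee
    have h2 : c = R * R := by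
      by_contra hne
      refine he0 ((((IsUnit.mk0 _ (sub_ne_zero.2 (Ne.symm hne))).map κ).mul_right_eq_zero).1 ?_)
      rw [map_sub]; exact h1
    have h3 : (κ 1 - κ (R * R)) * (1 - e) = 0 := by
      have := congrArg (· * (1 - e)) hc'
      simp only [ha] at this
      rw [h2, hRκ] at this
      rw [map_one, hRκ]
      linear_combination this + ((1 - e) + κ r ^ p * e + 1) * (κ r ^ p - 1) * hee
    have := (((IsUnit.mk0 _ (sub_ne_zero.2 (Ne.symm hR))).map κ).mul_right_eq_zero).1 (by rw [map_sub]; exact h3)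
    exact (sub_eq_zero.1 this).symm
  have haR : (a : Matrix α α F) = R • 1 := by
    rw [ha, hf, sub_self, zero_add, mul_one, ← map_pow, hκ, Subalgebra.coe_algebraMap,
      Algebra.algebraMap_eq_smul_one, hRdef]
  have hxθ : S.x = θ₁ • 1 := by
    have : u = κ θ₁ := by
      have := congrArg (κ θ₁ * ·) hf
      simp only [he] at this
      linear_combination this - u * hθκ
    have := congrArg Subtype.val this
    rwa [hκ, Subalgebra.coe_algebraMap, Algebra.algebraMap_eq_smul_one] at this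
  have hx₁ : S.x₁ = θ₁ • 1 := by
    have h : (-θ₁⁻¹) • S.S₀ * adj JA JA S.S₀ = 1 := by
      rw [Matrix.smul_mul, show S.S₀ * adj JA JA S.S₀ = -S.x by rw [S.x_eq H, neg_neg], hxθ, smul_neg, neg_smul,
        neg_neg, smul_smul, inv_mul_cancel₀ hθ0, one_smul]
    have h' := mul_eq_one_comm.1 h
    rw [Matrix.mul_smul] at h'
    have h'' := congrArg ((-θ₁) • ·) h'
    simp only [smul_smul, neg_mul_neg, mul_inv_cancel₀ hθ0, one_smul] at h''
    rw [x₁, h'', neg_smul, neg_neg]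
  obtain ⟨s00, s10⟩ := S.torus_act₁ H hθ0 hr0 hx₁ p
  have hyP₁ : (y.1 : Matrix Ix Ix F) * S.P₁ = R⁻¹ • S.P₁ := by
    rw [(S.K_rel₁ H hyK).1, s00, s10, ZeroMemClass.coe_zero, Matrix.mul_zero, add_zero, ← map_pow,
      Subalgebra.coe_algebraMap, Algebra.algebraMap_eq_smul_one, Matrix.mul_smul, Matrix.mul_one, inv_pow, hRdef]
  obtain ⟨v, hv⟩ := H.sB.exists_one S.hw
  have hdet : IsUnit (a : Matrix α α F).det := by
    rw [haR, det_smul, det_one, mul_one]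
    exact (IsUnit.mk0 R hR0).pow _
  obtain ⟨g₀, h₀, hgh⟩ := H.pure_of_layer S.hw S.hw hM hya hdet
  set z := adj JB JB h₀ *ᵥ v with hz
  have hg : bf JB z S.w • g₀ = (-R) • (1 : Matrix α α F) := by
    have h1 := congrArg (phi α JB v * ·) hya
    rw [hgh] at h1
    simp only [← Matrix.mul_assoc, H99.TensorS.phi_kron H.sB, S.phi_P' H hv, Matrix.neg_mul, Matrix.one_mul] at h1
    rw [Matrix.mul_assoc, P, H99.TensorS.phi_lft, Matrix.mul_smul, Matrix.mul_one, haR] at h1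
    rw [h1, neg_smul]
  have hz0 : bf JB z S.w ≠ 0 := fun h => by
    rw [h, zero_smul, eq_comm, smul_eq_zero, neg_eq_zero] at hg
    exact hg.elim hR0 one_ne_zero
  obtain ⟨hh, hyh⟩ : ∃ hh : Matrix (Fin b) (Fin b) F, (y.1 : Matrix Ix Ix F) = (1 : Matrix α α F) ⊗ₖ hh := by
    refine ⟨((bf JB z S.w)⁻¹ * -R) • h₀, ?_⟩
    rw [hgh, kronecker_smul, ← smul_kronecker]
    congr 1
    rw [← smul_smul, ← hg, smul_smul, inv_mul_cancel₀ hz0, one_smul]
  have hend := H.endgame S.hg S.hw₁ (r := R⁻¹) hnp (h := hh) (by rw [← hyh]; exact hyP₁)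
  rw [hend, kronecker_smul, one_kronecker_one] at hyh
  have h1 := congrArg (phi α JB v * ·) hya
  rw [hyh] at h1
  simp only [Matrix.smul_mul, Matrix.one_mul, Matrix.mul_smul, ← Matrix.mul_assoc, S.phi_P' H hv, Matrix.neg_mul,
    haR, smul_neg] at h1
  have h2 := det_smul_one_zero (α := α) (c := R⁻¹ - R) (by
    rw [sub_smul, sub_eq_zero.2 (neg_injective h1), Matrix.det_zero])
  exact hR (by rw [sub_eq_zero] at h2; nth_rw 1 [← h2]; exact inv_mul_cancel₀ hR0)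

end Frames

end Cfsg.Agent.H58.Wreath.Sp
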