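import Cfsg.Agent.H58.Wreath.Sp.Frames

/-!
For a two-dimensional right factor: elements of the plane group whose conjugate of the root is pure.
-/

set_option autoImplicit false
set_option linter.unusedSectionVars false

namespace Cfsg.Agent.H58.Wreath.Sp

open Matrix
open Cfsg.Agent.H99.Tensor
open Cfsg.Agent.H99.TensorS (SympMat bf rk adj phi el ct)
open scoped Kronecker MatrixGroups

variable {F : Type*} [Field F] {α : Type} [Fintype α] [DecidableEq α] {b : ℕ} {JA : Matrix α α F}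
  {JB : Matrix (Fin b) (Fin b) F} {M : Subgroup (GL (α × Fin b) F)}

local notation "Ix" => α × Fin b

theorem isUnit_of_det [Finite F] {x : Matrix α α F} {s : Sx x} (h : (s : Matrix α α F).det ≠ 0) : IsUnit s := by
  have : Finite (Sx x) := Subtype.finite
  have hinj : Function.Injective (s * ·) := fun u v huv => by
    refine Subtype.ext ?_
    have e : (s : Matrix α α F) * (u : Matrix α α F) = (s : Matrix α α F) * v := congrArg Subtype.val huv
    have := congrArg ((s : Matrix α α F)⁻¹ * ·) e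
    simpa only [← Matrix.mul_assoc, Matrix.nonsing_inv_mul _ (isUnit_iff_ne_zero.2 h), Matrix.one_mul] using this
  obtain ⟨t, ht⟩ := (Finite.injective_iff_surjective.1 hinj) 1
  exact IsUnit.of_mul_eq_one t ht

theorem det_of_mem [Finite F] {x : Matrix α α F} {P : Ideal (Sx x)} (hP : P.IsPrime) {s : Sx x} (hs : s ∈ P) :
    (s : Matrix α α F).det = 0 := by
  by_contra h
  exact hP.ne_top (Ideal.eq_top_of_isUnit_mem _ hs (isUnit_of_det h))

theorem exists_prime_of_det [Nonempty α] {x : Matrix α α F} {s : Sx x} (h : (s : Matrix α α F).det = 0) :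
    ∃ P : Ideal (Sx x), P.IsPrime ∧ s ∈ P := by
  have hnu : s ∈ nonunits (Sx x) := fun hu => by
    have := (hu.map (Sx x).val).map (Matrix.detMonoidHom)
    exact this.ne_zero h
  obtain ⟨P, hP, hsP⟩ := exists_max_ideal_of_mem_nonunits hnu
  exact ⟨P, hP.isPrime, hsP⟩

theorem eq_zero_of_mem {x : Matrix α α F} {P : Ideal (Sx x)} (hP : P.IsPrime) {c : F}
    (h : algebraMap F (Sx x) c ∈ P) : c = 0 := by
  by_contra hc
  exact hP.ne_top (Ideal.eq_top_of_isUnit_mem _ h ((IsUnit.mk0 c hc).map (algebraMap F (Sx x))))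

theorem det_smul_one_zero [Nonempty α] {c : F} (h : (c • (1 : Matrix α α F)).det = 0) : c = 0 := by
  rw [det_smul, det_one, mul_one] at h
  exact eq_zero_of_pow_eq_zero h

theorem phi_smul (hA : IsUnit JA.det) (c : F) (w : Fin b → F) : phi α JB (c • w) = c • phi α JB w := by
  rw [← adjA_lft (JA := JA) hA, lft_smul, H99.TensorS.adj_smul, adjA_lft hA]

theorem phi_add (hA : IsUnit JA.det) (w w' : Fin b → F) : phi α JB (w + w') = phi α JB w + phi α JB w' := by
  rw [← adjA_lft (JA := JA) hA, show lft α (w + w') = lft α w + lft α w' by ext p i; by_cases h : p.1 = i <;>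
    simp [lft_apply, h], H99.TensorS.adj_add, adjA_lft hA, adjA_lft hA]

namespace Frames

variable (S : Frames JA JB M) (H : Setup JA JB M)
include H

theorem phi_P : phi α JB S.w * S.P = 0 := by
  rw [P, H99.TensorS.phi_lft, H.sB.self, zero_smul]

theorem phi_P' {v : Fin b → F} (hv : bf JB S.w v = 1) : phi α JB v * S.P = -1 := by
  rw [P, H99.TensorS.phi_lft, H.sB.swap S.w v, hv, neg_one_smul]

theorem phi_Q : phi α JB S.w * (S.B * S.P) = S.x := by
  rw [x, ct, P, Matrix.mul_assoc]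

/-- The invariant of the conjugate of the root by an element of the plane group. -/
theorem x_conj {k : GL Ix F × SL(2, Sx S.x) × SL(2, Sx S.x₁)} (hk : k ∈ S.K H) :
    ct α JB ((k.1 : Matrix Ix Ix F) * S.A * adj (JA ⊗ₖ JB) (JA ⊗ₖ JB) (k.1 : Matrix Ix Ix F)) S.w S.w =
      ((-((th S.x * k.2.1 1 0) * (th S.x * k.2.1 1 0)) : Sx S.x) : Matrix α α F) := by
  have e : ct α JB (k.1 : Matrix Ix Ix F) S.w S.w = ((th S.x * k.2.1 1 0 : Sx S.x) : Matrix α α F) := by
    rw [ct, Matrix.mul_assoc, ← P, (S.K_rel H hk).1, Matrix.mul_add, ← Matrix.mul_assoc, ← Matrix.mul_assoc,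
      S.phi_P H, S.phi_Q H, Matrix.zero_mul, zero_add]
    rfl
  have e' : ct α JB (adj (JA ⊗ₖ JB) (JA ⊗ₖ JB) (k.1 : Matrix Ix Ix F)) S.w S.w =
      -((th S.x * k.2.1 1 0 : Sx S.x) : Matrix α α F) := by
    have := H.adj_ct (k.1 : Matrix Ix Ix F) S.w S.w
    rw [e, S.adj_Sx H] at this
    rw [this, neg_neg]
  rw [A, ct_mid, e, e', Matrix.mul_neg, Subalgebra.coe_neg, ← Subalgebra.coe_mul]

/-- An element of the plane group does not conjugate the root into the left factor, unless nilpotent data. -/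
theorem g_case {k : GL Ix F × SL(2, Sx S.x) × SL(2, Sx S.x₁)} (hk : k ∈ S.K H) {G : Matrix α α F}
    (hG : (k.1 : Matrix Ix Ix F) * S.A * adj (JA ⊗ₖ JB) (JA ⊗ₖ JB) (k.1 : Matrix Ix Ix F) =
      G ⊗ₖ (1 : Matrix (Fin b) (Fin b) F)) :
    k.2.1 0 0 * k.2.1 0 0 * th S.x ^ 5 = 0 := by
  obtain ⟨v, hv⟩ := H.sB.exists_one S.hw
  obtain ⟨r1, r2⟩ := S.K_rel H hk
  set y := (k.1 : Matrix Ix Ix F) with hy
  set a := k.2.1 0 0 with ha
  set bb := k.2.1 0 1 with hbb
  set γ := k.2.1 1 0 with hγ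
  set δ := k.2.1 1 1 with hδ
  set u := th S.x with hu
  have hX : ((u : Sx S.x) : Matrix α α F) = S.x := rfl
  set c₁ := phi α JB v * (S.B * S.P) with hc₁
  have hdet : a * δ - bb * γ = 1 := by
    have := k.2.1.2
    rwa [det_fin_two] at this
  have hAy : G ⊗ₖ (1 : Matrix (Fin b) (Fin b) F) * y = y * S.A := by
    rw [← hG, Matrix.mul_assoc, H.unit (S.K_inM H hk), Matrix.mul_one]
  have hphi : ∀ z : Fin b → F, phi α JB z * (G ⊗ₖ (1 : Matrix (Fin b) (Fin b) F)) = G * phi α JB z := fun z => by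
    rw [H99.TensorS.phi_kron H.sB, H99.TensorS.adj_one H.sB.unit, one_mulVec]
  have hL : ∀ (z : Fin b → F) (T : Matrix Ix α F), phi α JB z * (G ⊗ₖ (1 : Matrix (Fin b) (Fin b) F) * T) =
      G * (phi α JB z * T) := fun z T => by
    rw [← Matrix.mul_assoc, hphi, Matrix.mul_assoc]
  have E1 : G ⊗ₖ (1 : Matrix (Fin b) (Fin b) F) * (S.P * (a : Matrix α α F) + S.B * S.P * (γ : Matrix α α F)) =
      0 := by
    rw [← r1, ← Matrix.mul_assoc, hAy, Matrix.mul_assoc, S.A_P H, Matrix.mul_zero]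
  have E2 : G ⊗ₖ (1 : Matrix (Fin b) (Fin b) F) * (S.P * (bb : Matrix α α F) + S.B * S.P * (δ : Matrix α α F)) =
      (S.P * (a : Matrix α α F) + S.B * S.P * (γ : Matrix α α F)) * S.x := by
    rw [← r2, ← r1, ← Matrix.mul_assoc, hAy, Matrix.mul_assoc, S.A_Q H, Matrix.mul_assoc]
  have w1 : G * ((u * γ : Sx S.x) : Matrix α α F) = 0 := by
    have := congrArg (phi α JB S.w * ·) E1
    simp only [hL, Matrix.mul_zero, Matrix.mul_add] at this
    simp only [← Matrix.mul_assoc, S.phi_P H, Matrix.zero_mul, Matrix.mul_zero] at this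
    rw [zero_add, show G * phi α JB S.w * S.B * S.P = G * S.x by
      simp only [Matrix.mul_assoc, S.phi_Q H]] at this
    rw [Subalgebra.coe_mul, hX, ← Matrix.mul_assoc]
    exact this
  have w3 : G * ((u * δ : Sx S.x) : Matrix α α F) = ((u * γ * u : Sx S.x) : Matrix α α F) := by
    have := congrArg (phi α JB S.w * ·) E2
    simp only [hL, Matrix.mul_add, Matrix.add_mul] at this
    simp only [← Matrix.mul_assoc, S.phi_P H, Matrix.zero_mul] at this
    simp only [Matrix.mul_zero, Matrix.zero_mul, zero_add] at this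
    rw [show G * phi α JB S.w * S.B * S.P = G * S.x by
      simp only [Matrix.mul_assoc, S.phi_Q H],
      show phi α JB S.w * S.B * S.P = S.x by rw [Matrix.mul_assoc, S.phi_Q H]] at this
    rw [Subalgebra.coe_mul, Subalgebra.coe_mul, Subalgebra.coe_mul, hX, ← Matrix.mul_assoc]
    exact this
  have v4 : G * (-(bb : Matrix α α F) + c₁ * (δ : Matrix α α F)) =
      (-(a : Matrix α α F) + c₁ * (γ : Matrix α α F)) * S.x := by
    have := congrArg (phi α JB v * ·) E2
    simp only [hL, Matrix.mul_add, Matrix.add_mul] at this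
    simp only [← Matrix.mul_assoc, S.phi_P' H hv, Matrix.neg_mul,
      Matrix.one_mul, Matrix.mul_neg, Matrix.mul_one] at this
    simp only [hc₁, Matrix.mul_add, Matrix.add_mul, ← Matrix.mul_assoc, Matrix.neg_mul, Matrix.mul_neg]
    exact this
  have hGx : G * ((u : Sx S.x) : Matrix α α F) = ((u * γ * u * a : Sx S.x) : Matrix α α F) := by
    have e : u = u * δ * a - u * γ * bb := by linear_combination (-u) * hdet
    conv_lhs => rw [e, Subalgebra.coe_sub, Matrix.mul_sub, Subalgebra.coe_mul, ← Matrix.mul_assoc, w3,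
      Subalgebra.coe_mul (S := Sx S.x) (u * γ) bb, ← Matrix.mul_assoc, w1, Matrix.zero_mul, sub_zero]
    rw [← Subalgebra.coe_mul]
  rw [hX] at hGx
  have hskew : adj JA JA G = -G := by
    have h := H.root_adj (B := G ⊗ₖ (1 : Matrix (Fin b) (Fin b) F)) ⟨y, S.w, S.K_inM H hk, S.hw, hG.symm⟩
    rw [H99.TensorS.adj_kron, H99.TensorS.adj_one H.sB.unit] at h
    have := congrArg (fun T => ct α JB T S.w v) h
    simp only [ct_left H.sB, hv, one_smul] at this
    rw [this, ← neg_one_smul F (G ⊗ₖ (1 : Matrix (Fin b) (Fin b) F)), ct_smul, ct_left H.sB, hv, one_smul,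
      neg_one_smul]
  have hxG : S.x * G = -(G * S.x) := by
    have h1 : adj JA JA (G * S.x) = G * S.x := by rw [hGx, S.adj_Sx H]
    rw [H99.TensorS.adj_mul H.uA, hskew, show adj JA JA S.x = S.x from S.adj_Sx H u, Matrix.mul_neg] at h1
    rw [← h1, neg_neg]
  have hGxx : G * S.x * S.x = 0 := by
    have h1 : G * S.x * S.x = S.x * (G * S.x) := by
      rw [hGx]
      exact congrArg Subtype.val (mul_comm (u * γ * u * a) u)
    rw [← Matrix.mul_assoc, hxG, Matrix.neg_mul] at h1
    have : (2 : F) • (G * S.x * S.x) = 0 := by rw [two_smul]; nth_rw 1 [h1]; exact neg_add_cancel _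
    exact (smul_eq_zero.1 this).resolve_left H.two
  have hxxG : S.x * S.x * G = 0 := by
    rw [Matrix.mul_assoc, hxG, Matrix.mul_neg, ← Matrix.mul_assoc, hxG, Matrix.neg_mul, neg_neg, hGxx]
  have h3 : a * γ * u ^ 3 = 0 := by
    refine Subtype.ext ?_
    rw [show a * γ * u ^ 3 = u * γ * u * a * u by ring, Subalgebra.coe_mul, ← hGx]
    exact hGxx
  refine Subtype.ext ?_
  have := congrArg (fun T => S.x * S.x * T * ((a * u ^ 2 : Sx S.x) : Matrix α α F)) v4
  simp only [← Matrix.mul_assoc, hxxG, Matrix.zero_mul, Matrix.add_mul, Matrix.mul_add, Matrix.mul_neg,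
    Matrix.neg_mul] at this
  have e3 : S.x * S.x * c₁ * (γ : Matrix α α F) * S.x * ((a * u ^ 2 : Sx S.x) : Matrix α α F) = 0 := by
    have hz : (γ : Matrix α α F) * (S.x * ((a * u ^ 2 : Sx S.x) : Matrix α α F)) = 0 := by
      have := congrArg Subtype.val (show γ * (u * (a * u ^ 2)) = 0 by rw [← h3]; ring)
      simpa only [Subalgebra.coe_mul, hX, ZeroMemClass.coe_zero] using this
    rw [Matrix.mul_assoc _ S.x ((a * u ^ 2 : Sx S.x) : Matrix α α F),
      Matrix.mul_assoc _ (γ : Matrix α α F), hz, Matrix.mul_zero]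
  simp only [e3, neg_zero, add_zero] at this
  rw [show a * a * u ^ 5 = u * u * a * u * (a * u ^ 2) by ring]
  simp only [Subalgebra.coe_mul, hX] at this ⊢
  exact (neg_eq_zero.1 this.symm).trans rfl

/-- A pure conjugate of the root by an element of the plane group. -/
theorem pure_conj [Nonempty α] (hb : b = 2) {k : GL Ix F × SL(2, Sx S.x) × SL(2, Sx S.x₁)} (hk : k ∈ S.K H)
    (hp : IsPure (1 + (k.1 : Matrix Ix Ix F) * S.A * adj (JA ⊗ₖ JB) (JA ⊗ₖ JB) (k.1 : Matrix Ix Ix F)))
    (h0 : ((th S.x * k.2.1 1 0 : Sx S.x) : Matrix α α F).det = 0) :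
    k.2.1 0 0 * k.2.1 0 0 * th S.x ^ 5 = 0 ∨
      ∃ c : F, c ≠ 0 ∧ (k.1 : Matrix Ix Ix F) * S.A * adj (JA ⊗ₖ JB) (JA ⊗ₖ JB) (k.1 : Matrix Ix Ix F) = c • S.A := by
  obtain ⟨v, hv⟩ := H.sB.exists_one S.hw
  rcases H.frame_cases (S.K_inM H hk) S.hw hp with ⟨G, hG⟩ | ⟨-, n, c, hn, hc, hN⟩
  · exact Or.inl (S.g_case H hk hG)
  refine Or.inr ?_
  have hx := S.x_conj H hk
  rw [show S.A = rootR α JB S.w from rfl] at hx
  rw [hN, ct_smul, ct, rootR_eq, Matrix.mul_assoc, Matrix.mul_assoc (lft α n), H99.TensorS.phi_lft,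
    ← Matrix.mul_assoc, H99.TensorS.phi_lft, Matrix.smul_mul, Matrix.mul_smul, Matrix.one_mul, smul_smul,
    smul_smul, H.sB.swap S.w n] at hx
  have hd := congrArg Matrix.det hx
  rw [Subalgebra.coe_neg, Subalgebra.coe_mul, Matrix.det_neg, det_mul, h0, mul_zero, mul_zero] at hd
  have hwn : bf JB S.w n = 0 := by
    have := det_smul_one_zero hd
    simpa [hc] using this
  have hnw : n = bf JB n v • S.w := by
    conv_lhs => rw [H.two_decomp hb hv n, hwn, zero_smul, add_zero]
  have hs : bf JB n v ≠ 0 := fun h => hn (by rw [hnw, h, zero_smul])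
  refine ⟨c * bf JB n v * bf JB n v, mul_ne_zero (mul_ne_zero hc hs) hs, ?_⟩
  rw [show S.A = rootR α JB S.w from rfl, hN]
  conv_lhs => rw [hnw, rootR, H99.TensorS.rk_smul_left, H99.TensorS.rk_smul_right, smul_smul, kronecker_smul,
    smul_smul, ← mul_assoc]
  rfl

/-- An element fixing the root up to a scalar fixes the layer. -/
theorem layer_of_fix [Nonempty α] {k : GL Ix F × SL(2, Sx S.x) × SL(2, Sx S.x₁)} (hk : k ∈ S.K H) {c : F}
    (hc : c ≠ 0)
    (hA : (k.1 : Matrix Ix Ix F) * S.A * adj (JA ⊗ₖ JB) (JA ⊗ₖ JB) (k.1 : Matrix Ix Ix F) = c • S.A)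
    {v : Fin b → F} (hv : bf JB S.w v = 1) :
    th S.x * k.2.1 1 0 = 0 ∧
      ∃ a' : Matrix α α F, (k.1 : Matrix Ix Ix F) * S.P = S.P * a' ∧
        -a' = -(k.2.1 0 0 : Matrix α α F) + phi α JB v * (S.B * S.P) * (k.2.1 1 0 : Matrix α α F) := by
  set y := (k.1 : Matrix Ix Ix F) with hy
  obtain ⟨r1, -⟩ := S.K_rel H hk
  have hu' : adj (JA ⊗ₖ JB) (JA ⊗ₖ JB) y * y = 1 := H.unit (S.K_inM H hk)
  have hyA : y * S.A = c • (S.A * y) := by
    have := congrArg (· * y) hA
    simpa only [Matrix.mul_assoc, hu', Matrix.mul_one, Matrix.smul_mul] using this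
  have hAv : S.A * lft α v = S.P := by
    rw [A, rootR_eq, Matrix.mul_assoc, H99.TensorS.phi_lft, hv, one_smul, Matrix.mul_one, P]
  have hyP : y * S.P = S.P * (c • (phi α JB S.w * (y * lft α v))) := by
    rw [← hAv, ← Matrix.mul_assoc, hyA, hAv, Matrix.smul_mul, A, rootR_eq, Matrix.mul_smul, P]
    simp only [Matrix.mul_assoc]
  refine ⟨Subtype.ext ?_, _, hyP, ?_⟩
  · have := congrArg (phi α JB S.w * ·) (r1.symm.trans hyP)
    simp only [Matrix.mul_add, ← Matrix.mul_assoc, S.phi_P H, Matrix.zero_mul, zero_add] at this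
    rw [show phi α JB S.w * S.B * S.P = S.x by rw [Matrix.mul_assoc, S.phi_Q H]] at this
    exact this
  · have := congrArg (phi α JB v * ·) (hyP.symm.trans r1)
    simp only [Matrix.mul_add, ← Matrix.mul_assoc, S.phi_P' H hv, Matrix.neg_mul, Matrix.one_mul] at this
    simp only [Matrix.mul_assoc] at this ⊢
    exact this

/-- An element centralising the root: its entries. -/
theorem cent_entries [Nonempty α] (hb : b = 2) {k : GL Ix F × SL(2, Sx S.x) × SL(2, Sx S.x₁)} (hk : k ∈ S.K H)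
    (hA : (k.1 : Matrix Ix Ix F) * S.A * adj (JA ⊗ₖ JB) (JA ⊗ₖ JB) (k.1 : Matrix Ix Ix F) = S.A) :
    th S.x * k.2.1 1 0 = 0 ∧ k.2.1 0 0 * k.2.1 0 0 * th S.x = th S.x ∧
      ∃ r : F, (k.2.1 0 0 + 1) ^ 2 * (r • (k.2.1 0 0 * th S.x ^ 3) + k.2.1 0 1 * th S.x ^ 2) = 0 := by
  obtain ⟨v, hv⟩ := H.sB.exists_one S.hw
  obtain ⟨hxγ, a', hyP, ha'⟩ := S.layer_of_fix H hk one_ne_zero (by rw [one_smul]; exact hA) hv
  obtain ⟨r1, r2⟩ := S.K_rel H hk
  set y := (k.1 : Matrix Ix Ix F) with hy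
  set a := k.2.1 0 0 with ha
  set bb := k.2.1 0 1 with hbb
  set γ := k.2.1 1 0 with hγ
  set δ := k.2.1 1 1 with hδ
  set u := th S.x with hu
  have hX : ((u : Sx S.x) : Matrix α α F) = S.x := rfl
  set c₁ := phi α JB v * (S.B * S.P) with hc₁
  have hdet : a * δ - bb * γ = 1 := by
    have := k.2.1.2
    rwa [det_fin_two] at this
  have hM := S.K_inM H hk
  have hu' : adj (JA ⊗ₖ JB) (JA ⊗ₖ JB) y * y = 1 := H.unit hM
  -- the action on the two coordinate maps
  have hphiw : adj JA JA a' * (phi α JB S.w * y) = phi α JB S.w := by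
    have := congrArg (adj JA (JA ⊗ₖ JB)) hyP
    rw [H.adjA_mul_iso, adjA_mul H.uA, P, adjA_lft H.uA] at this
    rw [← Matrix.mul_assoc, ← this, Matrix.mul_assoc, H.unit hM, Matrix.mul_one]
  have hyA : y * S.A = S.A * y := by
    have := congrArg (· * y) hA
    simpa only [Matrix.mul_assoc, hu', Matrix.mul_one] using this
  have hphiw' : phi α JB S.w * y = a' * phi α JB S.w := by
    have h := congrArg (phi α JB v * ·) hyA
    simp only [A, rootR_eq, ← Matrix.mul_assoc] at h
    rw [Matrix.mul_assoc (phi α JB v) y, show y * lft α S.w = S.P * a' from hyP, ← Matrix.mul_assoc,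
      S.phi_P' H hv] at h
    rw [show phi α JB v * lft α S.w = -1 from S.phi_P' H hv] at h
    simpa only [Matrix.neg_mul, Matrix.one_mul, neg_inj, Matrix.mul_assoc] using h.symm
  have haa : adj JA JA a' * a' = 1 := by
    have := congrArg (· * lft α v) hphiw
    simp only [hphiw', Matrix.mul_assoc, H99.TensorS.phi_lft, hv, one_smul, Matrix.mul_one] at this
    exact this
  have hax : a' * S.x = ((a * u : Sx S.x) : Matrix α α F) := by
    have e : (c₁ * (γ : Matrix α α F)) * S.x = 0 := by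
      have := congrArg Subtype.val (show γ * u = 0 by rw [mul_comm, hxγ])
      simp only [Subalgebra.coe_mul, hX, ZeroMemClass.coe_zero] at this
      rw [Matrix.mul_assoc, this, Matrix.mul_zero]
    rw [← neg_inj, ← Matrix.neg_mul, ha', Matrix.add_mul, e, add_zero, Matrix.neg_mul, Subalgebra.coe_mul, hX]
  have hxd : a * u = u * δ := by
    refine Subtype.ext ?_
    rw [← hax, Subalgebra.coe_mul, hX]
    have := congrArg (phi α JB S.w * ·) r2
    simp only [Matrix.mul_add, ← Matrix.mul_assoc, hphiw', S.phi_P H, Matrix.zero_mul, zero_add] at this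
    rw [show phi α JB S.w * S.B * S.P = S.x by rw [Matrix.mul_assoc, S.phi_Q H]] at this
    rw [← this]
    conv_lhs => rw [← S.phi_Q H]
    simp only [Matrix.mul_assoc]
  have ha2 : a * a * u = u := by linear_combination a * hxd + u * hdet + bb * hxγ
  have hxa : S.x * a' = ((a * u : Sx S.x) : Matrix α α F) := by
    have h1 := congrArg (adj JA JA) hax
    rw [H99.TensorS.adj_mul H.uA, S.adj_Sx H, show adj JA JA S.x = S.x from S.adj_Sx H u] at h1
    have h2 : S.x = ((a * u : Sx S.x) : Matrix α α F) * a' := by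
      rw [← h1, Matrix.mul_assoc, haa, Matrix.mul_one]
    calc S.x * a' = ((a * a * u : Sx S.x) : Matrix α α F) * a' := by rw [ha2, hX]
      _ = (a : Matrix α α F) * (((a * u : Sx S.x) : Matrix α α F) * a') := by
        rw [mul_assoc a a u, Subalgebra.coe_mul, Matrix.mul_assoc]
      _ = ((a * u : Sx S.x) : Matrix α α F) := by rw [← h2, Subalgebra.coe_mul, hX]
  -- the second coordinate
  have ha'0 : a' ≠ 0 := fun h => by
    rw [h, Matrix.mul_zero] at haa
    exact zero_ne_one haa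
  have ha'u : IsUnit a'.det := by
    have := congrArg Matrix.det haa
    rw [det_mul, det_one] at this
    exact IsUnit.of_mul_eq_one_right _ this
  obtain ⟨g, h, hgh⟩ := H.pure_of_layer S.hw S.hw hM hyP ha'u
  have hgy : y = g ⊗ₖ h := hgh
  set z := adj JB JB h *ᵥ v with hz
  have hphiv : phi α JB v * y = g * phi α JB z := by rw [hgy, H99.TensorS.phi_kron H.sB]
  have hg : a' = bf JB S.w z • g := by
    have h1 := congrArg (phi α JB v * ·) hyP
    simp only [← Matrix.mul_assoc, hphiv, S.phi_P' H hv, Matrix.neg_mul, Matrix.one_mul] at h1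
    rw [Matrix.mul_assoc, P, H99.TensorS.phi_lft, H.sB.swap S.w z, neg_smul, Matrix.mul_neg, neg_inj,
      Matrix.mul_smul, Matrix.mul_one] at h1
    exact h1.symm
  have hσ : bf JB S.w z ≠ 0 := fun h0 => ha'0 (by rw [hg, h0, zero_smul])
  obtain ⟨r, hr⟩ : ∃ r : F, phi α JB v * y = r • (a' * phi α JB S.w) + a' * phi α JB v := by
    refine ⟨bf JB z v * (bf JB S.w z)⁻¹, ?_⟩
    rw [hphiv]
    conv_lhs => rw [H.two_decomp hb hv z, phi_add (JA := JA) H.uA, phi_smul (JA := JA) H.uA,
      phi_smul (JA := JA) H.uA, Matrix.mul_add, Matrix.mul_smul, Matrix.mul_smul]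
    rw [hg, Matrix.smul_mul, Matrix.smul_mul, smul_smul, mul_assoc, inv_mul_cancel₀ hσ, mul_one]
  have hQ : r • (a' * S.x) + a' * c₁ = -(bb : Matrix α α F) + c₁ * (δ : Matrix α α F) := by
    have := congrArg (phi α JB v * ·) r2
    simp only [← Matrix.mul_assoc, Matrix.mul_add, S.phi_P' H hv, Matrix.neg_mul, Matrix.one_mul] at this
    rw [hr] at this
    simp only [Matrix.add_mul, Matrix.smul_mul, Matrix.mul_assoc, S.phi_Q H] at this
    simp only [hc₁, Matrix.mul_assoc]
    exact this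
  refine ⟨hxγ, ha2, r, Subtype.ext ?_⟩
  set T := S.x * c₁ * S.x with hT
  have hmain : r • ((a * u ^ 3 : Sx S.x) : Matrix α α F) + (a : Matrix α α F) * T +
      ((bb * u ^ 2 : Sx S.x) : Matrix α α F) = T * (a : Matrix α α F) := by
    have h1 := congrArg (fun Z => S.x * Z * S.x) hQ
    simp only [Matrix.mul_add, Matrix.add_mul, Matrix.mul_smul, Matrix.smul_mul, ← Matrix.mul_assoc] at h1
    rw [hxa, hT] at *
    have e1 : ((a * u : Sx S.x) : Matrix α α F) * S.x * S.x = ((a * u ^ 3 : Sx S.x) : Matrix α α F) := by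
      simpa [hX] using congrArg Subtype.val (show a * u * u * u = a * u ^ 3 by ring)
    have e2 : S.x * -(bb : Matrix α α F) * S.x = -((bb * u ^ 2 : Sx S.x) : Matrix α α F) := by
      simpa [hX] using congrArg Subtype.val (show u * -bb * u = -(bb * u ^ 2) by ring)
    have e3 : S.x * c₁ * (δ : Matrix α α F) * S.x = S.x * c₁ * S.x * (a : Matrix α α F) := by
      rw [Matrix.mul_assoc, Matrix.mul_assoc (S.x * c₁) S.x]
      congr 1
      simpa [hX] using congrArg Subtype.val (show δ * u = u * a by rw [mul_comm δ, ← hxd, mul_comm])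
    rw [e1, e2, e3] at h1
    rw [← Matrix.mul_assoc, ← Matrix.mul_assoc, show (a : Matrix α α F) * S.x = ((a * u : Sx S.x) : Matrix α α F)
      from rfl, h1]
    abel
  have hl : ((a + 1 : Sx S.x) : Matrix α α F) * (a : Matrix α α F) * S.x =
      ((a + 1 : Sx S.x) : Matrix α α F) * S.x := by
    simpa [hX] using congrArg Subtype.val (show (a + 1) * a * u = (a + 1) * u by linear_combination ha2)
  have hrr : S.x * (a : Matrix α α F) * ((a + 1 : Sx S.x) : Matrix α α F) =
      S.x * ((a + 1 : Sx S.x) : Matrix α α F) := by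
    simpa [hX] using congrArg Subtype.val (show u * a * (a + 1) = u * (a + 1) by linear_combination ha2)
  have h5 := congrArg (fun Z => ((a + 1 : Sx S.x) : Matrix α α F) * Z * ((a + 1 : Sx S.x) : Matrix α α F)) hmain
  have k1 : ((a + 1 : Sx S.x) : Matrix α α F) * ((a : Matrix α α F) * T) * ((a + 1 : Sx S.x) : Matrix α α F) =
      ((a + 1 : Sx S.x) : Matrix α α F) * T * ((a + 1 : Sx S.x) : Matrix α α F) := by
    rw [hT, ← Matrix.mul_assoc, ← Matrix.mul_assoc, ← Matrix.mul_assoc, hl]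
    simp only [Matrix.mul_assoc]
  have k2 : ((a + 1 : Sx S.x) : Matrix α α F) * (T * (a : Matrix α α F)) * ((a + 1 : Sx S.x) : Matrix α α F) =
      ((a + 1 : Sx S.x) : Matrix α α F) * T * ((a + 1 : Sx S.x) : Matrix α α F) := by
    rw [hT]
    simp only [Matrix.mul_assoc]
    rw [← Matrix.mul_assoc S.x (a : Matrix α α F), hrr]
  simp only [Matrix.mul_add, Matrix.add_mul] at h5
  rw [k1, k2, add_right_comm, add_eq_right, ← Subalgebra.coe_smul, ← Matrix.add_mul, ← Matrix.mul_add,
    ← Subalgebra.coe_add, ← Subalgebra.coe_mul, ← Subalgebra.coe_mul] at h5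
  rw [ZeroMemClass.coe_zero, ← h5]
  exact congrArg Subtype.val (by ring)

end Frames

end Cfsg.Agent.H58.Wreath.Sp
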